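import Mathlib
import Cfsg.Agent.Base
import Cfsg.Agent.Lib.ClassMax.C8

/-!
Pauli systems: an absolutely irreducible `2`-group of symplectic type, written as a family of
endomorphisms `l x` indexed by a symplectic space `E` over `ZMod 2`.
-/

set_option autoImplicit false
set_option linter.unusedSectionVars false
set_option linter.unusedVariables false

namespace H97c

open Module H97 H28

theorem z2 (a : ZMod 2) : a = 0 ∨ a = 1 := by revert a; decide

theorem z2_add_self (a : ZMod 2) : a + a = 0 := by revert a; decide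

theorem z2_ne_zero {a : ZMod 2} : a ≠ 0 ↔ a = 1 := by revert a; decide

theorem z2_ne_one {a : ZMod 2} : a ≠ 1 ↔ a = 0 := by revert a; decide

theorem z2_one_add_one : (1 : ZMod 2) + 1 = 0 := by decide

theorem add_self2 {E : Type*} [AddCommGroup E] [Module (ZMod 2) E] (x : E) : x + x = 0 := by
  rw [← two_smul (ZMod 2) x, show (2 : ZMod 2) = 0 from rfl, zero_smul]

theorem add_eq_zero2 {E : Type*} [AddCommGroup E] [Module (ZMod 2) E] {x y : E} :
    x + y = 0 ↔ x = y :=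
  ⟨fun h => by rw [← add_zero x, ← add_self2 y, ← add_assoc, h, zero_add], fun h => h ▸ add_self2 x⟩

theorem add_add_cancel2 {E : Type*} [AddCommGroup E] [Module (ZMod 2) E] (x y : E) :
    x + y + y = x := by rw [add_assoc, add_self2, add_zero]

/-- The sign of an element of `ZMod 2`. -/
def sg (F : Type*) [Field F] (a : ZMod 2) : F := if a = 0 then 1 else -1

section Sg

variable {F : Type*} [Field F]

@[simp] theorem sg_zero : sg F 0 = 1 := if_pos rfl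

@[simp] theorem sg_one : sg F 1 = -1 := if_neg (by decide)

theorem sg_add (a b : ZMod 2) : sg F (a + b) = sg F a * sg F b := by
  rcases z2 a with rfl | rfl <;> rcases z2 b with rfl | rfl <;> simp [z2_one_add_one]

@[simp] theorem sg_mul_self (a : ZMod 2) : sg F a * sg F a = 1 := by
  rcases z2 a with rfl | rfl <;> simp

theorem sg_ne_zero (a : ZMod 2) : sg F a ≠ 0 := left_ne_zero_of_mul_eq_one (sg_mul_self a)

theorem sg_inj (h2 : (2 : F) ≠ 0) {a b : ZMod 2} (h : sg F a = sg F b) : a = b := by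
  rcases z2 a with rfl | rfl <;> rcases z2 b with rfl | rfl <;> simp at h ⊢
  exacts [h2 (by linear_combination h), h2 (by linear_combination -h)]

theorem exists_sg {c : F} (h : c * c = 1) : ∃ a, c = sg F a :=
  (mul_self_eq_one_iff.1 h).elim (fun h => ⟨0, by simp [h]⟩) fun h => ⟨1, by simp [h]⟩

end Sg

variable {F V E : Type*} [Field F] [AddCommGroup V] [Module F V] [AddCommGroup E]
  [Module (ZMod 2) E]

/-- An automorphism as an endomorphism. -/
def ce : (V ≃ₗ[F] V) →* End F V := LinearEquiv.automorphismGroup.toLinearMapMonoidHom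

theorem ce_apply (g : V ≃ₗ[F] V) (v : V) : ce g v = g v := rfl

theorem ce_inj {g h : V ≃ₗ[F] V} (e : ce g = ce h) : g = h :=
  LinearEquiv.ext fun v => LinearMap.congr_fun e v

theorem ce_unit (g : V ≃ₗ[F] V) : IsUnit (ce g) := (Group.isUnit g).map ce

@[simp] theorem ce_mul_inv (g : V ≃ₗ[F] V) : ce g * ce g⁻¹ = 1 := by
  rw [← map_mul, mul_inv_cancel, map_one]

@[simp] theorem ce_inv_mul (g : V ≃ₗ[F] V) : ce g⁻¹ * ce g = 1 := by
  rw [← map_mul, inv_mul_cancel, map_one]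

@[simp] theorem ce_mul_inv' (g : V ≃ₗ[F] V) (φ : End F V) : ce g * (ce g⁻¹ * φ) = φ := by
  rw [← mul_assoc, ce_mul_inv, one_mul]

@[simp] theorem ce_inv_mul' (g : V ≃ₗ[F] V) (φ : End F V) : ce g⁻¹ * (ce g * φ) = φ := by
  rw [← mul_assoc, ce_inv_mul, one_mul]

theorem exists_ce {φ : End F V} (h : IsUnit φ) : ∃ g : V ≃ₗ[F] V, ce g = φ := by
  obtain ⟨u, rfl⟩ := h
  exact ⟨LinearMap.GeneralLinearGroup.toLinearEquiv u, rfl⟩

theorem isUnit_smul {φ : End F V} (h : IsUnit φ) {c : F} (hc : c ≠ 0) : IsUnit (c • φ) := by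
  obtain ⟨u, rfl⟩ := h
  exact ⟨⟨c • u.val, c⁻¹ • u.inv, by simp [smul_smul, hc], by simp [smul_smul, hc]⟩, rfl⟩

/-- The endomorphism `φ` is an element of `X`. -/
def In (X : Subgroup (V ≃ₗ[F] V)) (φ : End F V) : Prop := ∃ g ∈ X, ce g = φ

/-- `X` contains the scalars. -/
def ZLe (X : Subgroup (V ≃ₗ[F] V)) : Prop := ∀ c : F, c ≠ 0 → In X (c • 1)

section In

variable {X Y : Subgroup (V ≃ₗ[F] V)} {φ ψ : End F V}

theorem in_ce {g : V ≃ₗ[F] V} : In X (ce g) ↔ g ∈ X :=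
  ⟨fun ⟨_, h, e⟩ => ce_inj e ▸ h, fun h => ⟨g, h, rfl⟩⟩

theorem in_one : In X 1 := ⟨1, X.one_mem, map_one _⟩

theorem In.mul (h : In X φ) (h' : In X ψ) : In X (φ * ψ) := by
  obtain ⟨g, hg, rfl⟩ := h
  obtain ⟨g', hg', rfl⟩ := h'
  exact ⟨g * g', X.mul_mem hg hg', map_mul _ _ _⟩

theorem In.pow (h : In X φ) (n : ℕ) : In X (φ ^ n) := by
  obtain ⟨g, hg, rfl⟩ := h
  exact ⟨g ^ n, X.pow_mem hg n, map_pow _ _ _⟩

theorem In.unit (h : In X φ) : IsUnit φ := by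
  obtain ⟨g, -, rfl⟩ := h
  exact ce_unit g

theorem In.inv (h : In X φ) (e : φ * ψ = 1) : In X ψ := by
  obtain ⟨g, hg, rfl⟩ := h
  exact ⟨g⁻¹, X.inv_mem hg, by rw [← mul_one (ce g⁻¹), ← e, ce_inv_mul']⟩

theorem In.mono (h : In X φ) (hXY : X ≤ Y) : In Y φ := by
  obtain ⟨g, hg, rfl⟩ := h
  exact ⟨g, hXY hg, rfl⟩

theorem In.smul (hZ : ZLe X) (h : In X φ) {c : F} (hc : c ≠ 0) : In X (c • φ) := by
  simpa using (hZ c hc).mul h

theorem In.of_smul (hZ : ZLe X) {c : F} (hc : c ≠ 0) (h : In X (c • φ)) : In X φ := by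
  simpa [smul_smul, hc] using h.smul hZ (inv_ne_zero hc)

theorem In.of_mul_left (h : In X φ) (h' : In X (φ * ψ)) : In X ψ := by
  obtain ⟨g, hg, rfl⟩ := h
  simpa using (in_ce.2 (X.inv_mem hg)).mul h'

theorem In.of_mul_right (h : In X ψ) (h' : In X (φ * ψ)) : In X φ := by
  obtain ⟨g, hg, rfl⟩ := h
  simpa [mul_assoc] using h'.mul (in_ce.2 (X.inv_mem hg))

theorem In.has (h : In X φ) : Has X φ := by
  obtain ⟨g, hg, rfl⟩ := h
  exact has_of_mem hg

theorem in_of_has (h : Has X φ) : In X φ := by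
  obtain ⟨g, hg, e⟩ := h
  exact ⟨g, hg, LinearMap.ext e⟩

theorem In.inf (h : In X φ) (h' : In Y φ) : In (X ⊓ Y) φ := by
  obtain ⟨g, hg, rfl⟩ := h
  exact in_ce.2 ⟨hg, in_ce.1 h'⟩

end In

/-- A Pauli system. -/
structure Pauli (F V E : Type*) [Field F] [AddCommGroup V] [Module F V] [AddCommGroup E]
    [Module (ZMod 2) E] where
  B : LinearMap.BilinForm (ZMod 2) E
  l : E → End F V
  q : E → ZMod 2
  alt : ∀ x, B x x = 0
  nd : ∀ x, (∀ y, B x y = 0) → x = 0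
  sq : ∀ x, l x * l x = sg F (q x) • 1
  comm : ∀ x y, l x * l y = sg F (B x y) • (l y * l x)
  add : ∀ x y, ∃ c : F, c ≠ 0 ∧ l (x + y) = c • (l x * l y)
  cent : ∀ φ : End F V, (∀ x, φ * l x = l x * φ) → ∃ c : F, φ = c • 1
  two : (2 : F) ≠ 0
  nt : Nontrivial V
  q0 : q 0 = 0
  qa : ∀ x y, q x = 0 → q (x + y) = q y + B x y
  qb : ∀ x y, B x y = 1 → q x = 1 → q y = 1 → q (x + y) = 1

namespace Pauli

variable (P : Pauli F V E) {φ ψ : End F V} {x y z x' y' a b : E}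

theorem symm (x y : E) : P.B x y = P.B y x := by
  have := P.alt (x + y)
  simp only [map_add, LinearMap.add_apply, P.alt, zero_add, add_zero] at this
  exact (add_eq_zero2.1 this).symm

/-- The symplectic space as pseudo-quadratic data. -/
def pq : PQ (ZMod 2) E (RingHom.id _) := PQ.ofAlt P.B P.alt

theorem sep : P.pq.B.SeparatingLeft := P.nd

theorem mem_perp_span {s : Set E} {x : E} :
    x ∈ perp P.pq (Submodule.span (ZMod 2) s) ↔ ∀ u ∈ s, P.B u x = 0 := H97.mem_perp_span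

theorem ne_zero_of_B (h : P.B x y = 1) : x ≠ 0 := by rintro rfl; simp at h

theorem ne_zero_of_q (h : P.q x = 1) : x ≠ 0 := by rintro rfl; simp [P.q0] at h

theorem exists_B (hx : x ≠ 0) : ∃ y, P.B x y = 1 := by
  by_contra h
  exact hx (P.nd x fun y => z2_ne_one.1 fun e => h ⟨y, e⟩)

theorem eq_of_B (h : ∀ w, P.B x w = P.B y w) : x = y :=
  add_eq_zero2.1 (P.nd _ fun w => by rw [map_add, LinearMap.add_apply, h, z2_add_self])

theorem l_unit (x : E) : IsUnit (P.l x) :=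
  ⟨⟨P.l x, sg F (P.q x) • P.l x, by rw [mul_smul_comm, P.sq, smul_smul]; simp,
    by rw [smul_mul_assoc, P.sq, smul_smul]; simp⟩, rfl⟩

include P in
theorem smul_inj (hφ : IsUnit φ) {c d : F} (h : c • φ = d • φ) : c = d := by
  have := P.nt
  exact smul_left_injective F hφ.ne_zero h

theorem l_l (x : E) (φ : End F V) : P.l x * (P.l x * φ) = sg F (P.q x) • φ := by
  rw [← mul_assoc, P.sq, smul_mul_assoc, one_mul]

theorem comm' (x y : E) (φ : End F V) :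
    P.l x * (P.l y * φ) = sg F (P.B x y) • (P.l y * (P.l x * φ)) := by
  rw [← mul_assoc, P.comm, smul_mul_assoc, mul_assoc]

theorem add' (x y : E) : ∃ c : F, c ≠ 0 ∧ P.l x * P.l y = c • P.l (x + y) := by
  obtain ⟨c, h, e⟩ := P.add x y
  exact ⟨c⁻¹, inv_ne_zero h, by rw [e, smul_smul, inv_mul_cancel₀ h, one_smul]⟩

theorem l_zero : ∃ c : F, c ≠ 0 ∧ P.l 0 = c • 1 := by
  obtain ⟨c, h⟩ := P.cent (P.l 0) fun x => by simpa using P.comm 0 x
  refine ⟨c, ?_, h⟩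
  rintro rfl
  have := P.nt
  exact (P.l_unit 0).ne_zero (by simpa using h)

theorem eq_of_l {c : F} (h : P.l x = c • P.l y) : x = y := P.eq_of_B fun w => by
  have h1 := P.comm x w
  have h2 : P.l x * P.l w = sg F (P.B y w) • (P.l w * P.l x) := by
    rw [h, smul_mul_assoc, P.comm y w, mul_smul_comm, smul_comm]
  exact sg_inj P.two (P.smul_inj ((P.l_unit w).mul (P.l_unit x)) (h1.symm.trans h2))

theorem eq_zero_of_l {c : F} (h : P.l x = c • 1) : x = 0 := by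
  obtain ⟨d, hd, e⟩ := P.l_zero
  exact P.eq_of_l (c := c * d⁻¹) (by rw [e, smul_smul, inv_mul_cancel_right₀ hd, h])

/-- Conjugation by `φ` takes `l x` to a multiple of `l y`. -/
def Mp (φ : End F V) (x y : E) : Prop := ∃ c : F, c ≠ 0 ∧ φ * P.l x = c • (P.l y * φ)

variable {P}

theorem Mp.mul (h : P.Mp φ y z) (h' : P.Mp ψ x y) : P.Mp (φ * ψ) x z := by
  obtain ⟨c, hc, e⟩ := h
  obtain ⟨d, hd, e'⟩ := h'
  exact ⟨d * c, mul_ne_zero hd hc, by
    rw [mul_assoc, e', mul_smul_comm, ← mul_assoc, e, smul_mul_assoc, smul_smul, mul_assoc]⟩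

theorem Mp.smul (h : P.Mp φ x y) (t : F) : P.Mp (t • φ) x y := by
  obtain ⟨c, hc, e⟩ := h
  exact ⟨c, hc, by rw [smul_mul_assoc, e, mul_smul_comm, smul_comm]⟩

theorem Mp.add (h : P.Mp φ x y) (h' : P.Mp φ x' y') : P.Mp φ (x + x') (y + y') := by
  obtain ⟨c, hc, e⟩ := h
  obtain ⟨d, hd, e'⟩ := h'
  obtain ⟨s, hs, e1⟩ := P.add x x'
  obtain ⟨t, ht, e2⟩ := P.add' y y'
  refine ⟨s * c * d * t, by simp [*], ?_⟩
  rw [e1, mul_smul_comm, ← mul_assoc φ, e, smul_mul_assoc, mul_assoc (P.l y), e', mul_smul_comm,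
    ← mul_assoc (P.l y), e2]
  simp only [smul_mul_assoc, smul_smul, mul_assoc]

theorem Mp.inv (h : P.Mp φ x y) (h1 : φ * ψ = 1) (h2 : ψ * φ = 1) : P.Mp ψ y x := by
  obtain ⟨c, hc, e⟩ := h
  refine ⟨c⁻¹, inv_ne_zero hc, ?_⟩
  have := congrArg (fun t => ψ * t * ψ) e
  simp only [mul_smul_comm, smul_mul_assoc, mul_assoc, h1, mul_one] at this
  rw [← mul_assoc, h2, one_mul] at this
  rw [this, smul_smul, inv_mul_cancel₀ hc, one_smul]

theorem Mp.inv' {g : V ≃ₗ[F] V} (h : P.Mp (ce g) x y) : P.Mp (ce g⁻¹) y x :=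
  h.inv (ce_mul_inv g) (ce_inv_mul g)

theorem Mp.uniq (hφ : IsUnit φ) (h : P.Mp φ x y) (h' : P.Mp φ x y') : y = y' := by
  obtain ⟨c, hc, e⟩ := h
  obtain ⟨d, hd, e'⟩ := h'
  refine P.eq_of_l (c := c⁻¹ * d) (hφ.mul_right_cancel ?_)
  rw [smul_mul_assoc, mul_smul, ← e', e, smul_smul, inv_mul_cancel₀ hc, one_smul]

theorem Mp.inj (hφ : IsUnit φ) (h : P.Mp φ x y) (h' : P.Mp φ x' y) : x = x' := by
  obtain ⟨g, rfl⟩ := exists_ce hφ
  exact h.inv'.uniq (ce_unit _) h'.inv'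

theorem Mp.B (hφ : IsUnit φ) (h : P.Mp φ x y) (h' : P.Mp φ x' y') : P.B y y' = P.B x x' := by
  obtain ⟨c, hc, e⟩ := h
  obtain ⟨d, hd, e'⟩ := h'
  have h1 := congrArg (φ * ·) (P.comm x x')
  simp only [mul_smul_comm] at h1
  rw [← mul_assoc, e, smul_mul_assoc, mul_assoc, e', ← mul_assoc φ, e', smul_mul_assoc,
    mul_assoc, e, mul_smul_comm, mul_smul_comm, P.comm'] at h1
  simp only [smul_smul] at h1
  refine sg_inj P.two (mul_left_cancel₀ (mul_ne_zero hc hd) ?_)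
  have := P.smul_inj ((P.l_unit y').mul ((P.l_unit y).mul hφ)) h1
  linear_combination this

theorem mp_zero (φ : End F V) : P.Mp φ 0 0 := by
  obtain ⟨c, -, e⟩ := P.l_zero
  exact ⟨1, one_ne_zero, by simp [e]⟩

theorem Mp.ne_zero (hφ : IsUnit φ) (h : P.Mp φ x y) (hx : x ≠ 0) : y ≠ 0 := by
  rintro rfl
  exact hx (h.inj hφ (mp_zero φ))

theorem mp_of_comm (h : φ * P.l x = P.l x * φ) : P.Mp φ x x := ⟨1, one_ne_zero, by simp [h]⟩

theorem mp_l (w x : E) : P.Mp (P.l w) x x := ⟨_, sg_ne_zero _, P.comm w x⟩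

theorem mp_one (x : E) : P.Mp 1 x x := mp_of_comm (by simp)

theorem Mp.sign (hφ : IsUnit φ) (h : P.Mp φ x x) :
    ∃ s, φ * P.l x = sg F s • (P.l x * φ) := by
  obtain ⟨c, hc, e⟩ := h
  have h1 : φ * (P.l x * P.l x) = (c * c) • (P.l x * (P.l x * φ)) := by
    rw [← mul_assoc, e, smul_mul_assoc, mul_assoc, e, mul_smul_comm, smul_smul]
  rw [P.sq, P.l_l, mul_smul_comm, mul_one, smul_smul] at h1
  obtain ⟨s, rfl⟩ := exists_sg (c := c) (mul_right_cancel₀ (sg_ne_zero (P.q x))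
    (by rw [← P.smul_inj hφ h1, one_mul]))
  exact ⟨s, e⟩

theorem tau_mul (ha : P.q a = 1) : (1 + P.l a) * (1 - P.l a) = (2 : F) • 1 := by
  have := P.sq a
  rw [ha, sg_one] at this
  rw [add_mul, mul_sub, mul_sub, this]
  simp only [mul_one, one_mul]
  module

theorem tau_mul' (ha : P.q a = 1) : (1 - P.l a) * (1 + P.l a) = (2 : F) • 1 := by
  rw [← tau_mul ha]; noncomm_ring

theorem tau_unit (ha : P.q a = 1) : IsUnit (1 + P.l a) :=
  ⟨⟨1 + P.l a, (2 : F)⁻¹ • (1 - P.l a),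
    by rw [mul_smul_comm, tau_mul ha, smul_smul, inv_mul_cancel₀ P.two, one_smul],
    by rw [smul_mul_assoc, tau_mul' ha, smul_smul, inv_mul_cancel₀ P.two, one_smul]⟩, rfl⟩

theorem tau_neg (ha : P.q a = 1) : 1 - P.l a = (-1 : F) • (P.l a * (1 + P.l a)) := by
  rw [mul_add, P.sq, ha, sg_one, mul_one]; module

theorem mp_tau (ha : P.q a = 1) (x : E) : P.Mp (1 + P.l a) x (x + P.B a x • a) := by
  rcases z2 (P.B a x) with h | h
  · rw [h, zero_smul, add_zero]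
    exact mp_of_comm (by rw [add_mul, mul_add, P.comm a x, h]; simp)
  · obtain ⟨c, hc, e⟩ := P.add x a
    refine ⟨-c⁻¹, by simpa, ?_⟩
    rw [h, one_smul, e, smul_mul_assoc, smul_smul, neg_mul, inv_mul_cancel₀ hc, add_mul, P.comm a x,
      h, mul_add, mul_assoc (P.l x) (P.l a) (P.l a), P.sq, ha]
    simp only [sg_one, mul_one, one_mul, mul_smul_comm]
    module

theorem mp_tau' (ha : P.q a = 1) {t : F} (ht : t * t = 1) (x : E) :
    P.Mp (1 + t • P.l a) x (x + P.B a x • a) := by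
  rcases mul_self_eq_one_iff.1 ht with rfl | rfl
  · simpa using mp_tau ha x
  · rw [neg_one_smul, ← sub_eq_add_neg, tau_neg ha]
    exact ((mp_l a _).mul (mp_tau ha x)).smul _

/-- `φ` normalises the Pauli group modulo scalars. -/
def Nm (P : Pauli F V E) (φ : End F V) : Prop := ∀ x, ∃ y, P.Mp φ x y

theorem Nm.mul (h : P.Nm φ) (h' : P.Nm ψ) : P.Nm (φ * ψ) := fun x =>
  (h' x).elim fun y hy => (h y).imp fun _ hz => hz.mul hy

theorem Nm.smul (h : P.Nm φ) (t : F) : P.Nm (t • φ) := fun x => (h x).imp fun _ hy => hy.smul t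

theorem nm_l (w : E) : P.Nm (P.l w) := fun x => ⟨x, mp_l w x⟩

theorem nm_one : P.Nm 1 := fun x => ⟨x, mp_one x⟩

theorem nm_tau (ha : P.q a = 1) : P.Nm (1 + P.l a) := fun x => ⟨_, mp_tau ha x⟩

theorem nm_tau' (ha : P.q a = 1) {t : F} (ht : t * t = 1) : P.Nm (1 + t • P.l a) := fun x =>
  ⟨_, mp_tau' ha ht x⟩

variable [Finite E]

theorem Nm.act (h : P.Nm φ) (hφ : IsUnit φ) :
    ∃ γ : E ≃ₗ[ZMod 2] E, ∀ x, P.Mp φ x (γ x) := by
  choose f hf using h
  let f' : E →+ E := AddMonoidHom.mk' f fun x y => (hf _).uniq hφ ((hf x).add (hf y))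
  have h1 : Function.Injective f := fun x y e => (hf x).inj hφ (e ▸ hf y)
  exact ⟨LinearEquiv.ofBijective (f'.toZModLinearMap 2)
    ⟨h1, Finite.injective_iff_surjective.1 h1⟩, hf⟩

theorem Nm.inv (h : P.Nm φ) (h1 : φ * ψ = 1) (h2 : ψ * φ = 1) : P.Nm ψ := fun y => by
  obtain ⟨γ, hγ⟩ := h.act ⟨⟨φ, ψ, h1, h2⟩, rfl⟩
  exact ⟨γ.symm y, by simpa using (hγ (γ.symm y)).inv h1 h2⟩

variable (P) in
/-- The normaliser of the Pauli group modulo scalars. -/
def N : Subgroup (V ≃ₗ[F] V) where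
  carrier := {g | P.Nm (ce g)}
  mul_mem' := fun {a b} ha hb => by
    change P.Nm _
    rw [map_mul]; exact Nm.mul ha hb
  one_mem' := by
    change P.Nm _
    rw [map_one]; exact nm_one
  inv_mem' := fun {a} ha => Nm.inv ha (ce_mul_inv a) (ce_inv_mul a)

theorem mem_N {g : V ≃ₗ[F] V} : g ∈ P.N ↔ P.Nm (ce g) := Iff.rfl

theorem in_N : In P.N φ ↔ IsUnit φ ∧ P.Nm φ :=
  ⟨fun h => ⟨h.unit, by obtain ⟨g, hg, rfl⟩ := h; exact hg⟩, fun ⟨h1, h2⟩ => by
    obtain ⟨g, rfl⟩ := exists_ce h1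
    exact in_ce.2 h2⟩

theorem Nm.of_mul_left (h : P.Nm φ) (hφ : IsUnit φ) (h' : P.Nm (φ * ψ)) : P.Nm ψ := by
  obtain ⟨g, rfl⟩ := exists_ce hφ
  simpa using Nm.mul (P.N.inv_mem (x := g) h) h'

theorem Nm.of_mul_right (h : P.Nm ψ) (hψ : IsUnit ψ) (h' : P.Nm (φ * ψ)) : P.Nm φ := by
  obtain ⟨g, rfl⟩ := exists_ce hψ
  simpa [mul_assoc] using Nm.mul h' (P.N.inv_mem (x := g) h)

variable (P) in
theorem exists_dual (s : E →ₗ[ZMod 2] ZMod 2) : ∃ y, ∀ x, s x = P.B y x := by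
  have h : P.B.Nondegenerate := ⟨P.nd, fun x h => P.nd x fun y => by rw [P.symm]; exact h y⟩
  obtain ⟨y, hy⟩ := (LinearMap.BilinForm.toDual P.B h).surjective s
  exact ⟨y, fun x => by rw [← hy]; rfl⟩

theorem eq_l_of_sign {y : E} (h : ∀ x, φ * P.l x = sg F (P.B y x) • (P.l x * φ)) :
    ∃ c : F, φ = c • P.l y := by
  obtain ⟨c, hc⟩ := P.cent (P.l y * φ) fun x => by
    rw [mul_assoc, h, mul_smul_comm, P.comm', smul_smul, sg_mul_self, one_smul]
  refine ⟨sg F (P.q y) * c, ?_⟩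
  have := congrArg (fun t => sg F (P.q y) • (P.l y * t)) hc
  simpa only [P.l_l, smul_smul, sg_mul_self, one_smul, mul_smul_comm, mul_one] using this

theorem centE (hφ : IsUnit φ) (h : ∀ x, P.Mp φ x x) : ∃ y, ∃ c : F, c ≠ 0 ∧ φ = c • P.l y := by
  choose s hs using fun x => (h x).sign hφ
  let s' : E →+ ZMod 2 := AddMonoidHom.mk' s fun x y => by
    obtain ⟨c, hc, e⟩ := P.add x y
    have h1 := hs (x + y)
    rw [e, mul_smul_comm, ← mul_assoc, hs, smul_mul_assoc, mul_assoc, hs, mul_smul_comm,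
      smul_mul_assoc, mul_assoc] at h1
    simp only [smul_smul] at h1
    have := P.smul_inj ((P.l_unit x).mul ((P.l_unit y).mul hφ)) h1
    exact sg_inj P.two (mul_left_cancel₀ hc (by rw [sg_add]; linear_combination -this))
  obtain ⟨y, hy⟩ := P.exists_dual (s'.toZModLinearMap 2)
  obtain ⟨c, hc⟩ := eq_l_of_sign (y := y) fun x => by rw [← hy]; exact hs x
  refine ⟨y, c, ?_, hc⟩
  rintro rfl
  have := P.nt
  exact hφ.ne_zero (by simpa using hc)

/-- The normaliser is generated by the scalars, the Pauli group and the elements `1 + l a`. -/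
theorem N_le {Y : Subgroup (V ≃ₗ[F] V)} (hL : ∀ x, x ≠ 0 → P.q x = 1) (hZ : ZLe Y)
    (hl : ∀ x, In Y (P.l x)) (ht : ∀ a, a ≠ 0 → In Y (1 + P.l a)) : P.N ≤ Y := fun g hg => by
  let K : Subgroup (E ≃ₗ[ZMod 2] E) :=
    { carrier := {γ | ∃ h ∈ Y, ∀ x, P.Mp (ce h) x (γ x)}
      mul_mem' := fun ⟨h, h1, h2⟩ ⟨h', h3, h4⟩ =>
        ⟨h * h', Y.mul_mem h1 h3, fun x => by rw [map_mul]; exact (h2 _).mul (h4 x)⟩
      one_mem' := ⟨1, Y.one_mem, fun x => by rw [map_one]; exact mp_one x⟩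
      inv_mem' := fun {γ} ⟨h, h1, h2⟩ => ⟨h⁻¹, Y.inv_mem h1, fun x => by
        simpa [le_apply_inv] using (h2 (γ⁻¹ x)).inv'⟩ }
  have hK : P.pq.Isom ≤ K := isom_le_of_transv P.sep fun c d => by
    rcases z2 c with rfl | rfl
    · simpa using hasT_zero_right d
    by_cases hd : d = 0
    · subst hd; exact hasT_zero_left _
    obtain ⟨h, h1, h2⟩ := ht d hd
    obtain ⟨γ, hγ⟩ := (nm_tau (hL d hd)).act (tau_unit (hL d hd))
    exact ⟨γ, ⟨h, h1, h2 ▸ hγ⟩, fun x => by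
      simpa using (hγ x).uniq (tau_unit (hL d hd)) (mp_tau (hL d hd) x)⟩
  obtain ⟨γ, hγ⟩ := Nm.act hg (ce_unit g)
  obtain ⟨h, h1, h2⟩ := hK (x := γ) ⟨fun x y => (hγ x).B (ce_unit g) (hγ y), fun _ => trivial⟩
  obtain ⟨y, c, hc, e⟩ := centE ((ce_unit h⁻¹).mul (ce_unit g)) fun x => (h2 x).inv'.mul (hγ x)
  exact in_ce.1 ((in_ce.2 (Y.inv_mem h1)).of_mul_left (e ▸ (hl y).smul hZ hc))

end Pauli

end H97c
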