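import Mathlib
import Cfsg.Agent.Base
import Cfsg.Agent.Lib.Cliff.Pauli

/-!
Overgroups of the normaliser of a Pauli system: transitivity, trivial intersection, conjugate
systems, the dimension of the space.
-/

set_option autoImplicit false
set_option linter.unusedSectionVars false
set_option linter.unusedVariables false

namespace H97c

open Module H97 H28

variable {F V E : Type*} [Field F] [AddCommGroup V] [Module F V] [AddCommGroup E]
  [Module (ZMod 2) E]

theorem mem_span1 {a x : E} : x ∈ Submodule.span (ZMod 2) ({a} : Set E) ↔ x = 0 ∨ x = a := by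
  rw [Submodule.mem_span_singleton]
  refine ⟨fun ⟨s, h⟩ => ?_, fun h => h.elim (fun h => ⟨0, by simp [h]⟩) fun h => ⟨1, by simp [h]⟩⟩
  rcases z2 s with rfl | rfl <;> simp [← h]

theorem mem_span2 {a b x : E} : x ∈ Submodule.span (ZMod 2) ({a, b} : Set E) ↔
    x = 0 ∨ x = a ∨ x = b ∨ x = a + b := by
  rw [Submodule.mem_span_pair]
  refine ⟨fun ⟨s, t, h⟩ => ?_, ?_⟩
  · rcases z2 s with rfl | rfl <;> rcases z2 t with rfl | rfl <;> simp [← h]
  · rintro (rfl | rfl | rfl | rfl)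
    exacts [⟨0, 0, by simp⟩, ⟨1, 0, by simp⟩, ⟨0, 1, by simp⟩, ⟨1, 1, by simp⟩]

theorem finrank_span_list (s : List E) :
    finrank (ZMod 2) (Submodule.span (ZMod 2) {x | x ∈ s}) ≤ s.length := by
  classical
  have := finrank_span_finset_le_card (R := ZMod 2) s.toFinset
  rw [Set.finrank, List.coe_toFinset] at this
  exact this.trans s.toFinset_card_le

namespace Pauli

variable {P : Pauli F V E} {X : Subgroup (V ≃ₗ[F] V)} {φ ψ : End F V} {x y z x' y' a b e f : E}
  [Finite E]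

theorem exS_of_B {T : Submodule (ZMod 2) E} (hx : x ∈ T) (hy : y ∈ T) (h : P.B x y = 1) :
    ∃ w ∈ T, P.q w = 1 := by
  rcases z2 (P.q x) with h1 | h1
  · rcases z2 (P.q y) with h2 | h2
    · exact ⟨x + y, T.add_mem hx hy, by rw [P.qa x y h1, h2, h, zero_add]⟩
    · exact ⟨y, hy, h2⟩
  · exact ⟨x, hx, h1⟩

variable (P) in
theorem exists_B_perp {U : Submodule (ZMod 2) E} (h : ¬ perp P.pq U ≤ U) :
    ∃ x ∈ perp P.pq U, ∃ y ∈ perp P.pq U, P.B x y = 1 := by
  by_contra h1
  push Not at h1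
  exact h fun x hx => perp_perp P.sep U ▸ mem_perp.2 fun y hy => z2_ne_one.1 (h1 y hy x hx)

variable (P) in
theorem exS {U : Submodule (ZMod 2) E} (h : ¬ perp P.pq U ≤ U) :
    ∃ w, P.q w = 1 ∧ ∀ u ∈ U, P.B u w = 0 := by
  obtain ⟨x, hx, y, hy, h1⟩ := P.exists_B_perp h
  obtain ⟨w, h2, h3⟩ := exS_of_B hx hy h1
  exact ⟨w, h3, mem_perp.1 h2⟩

variable (P) in
theorem not_perp_le (s : List E) (h : 2 * s.length < finrank (ZMod 2) E) :
    ¬ perp P.pq (Submodule.span (ZMod 2) {x | x ∈ s}) ≤ Submodule.span (ZMod 2) {x | x ∈ s} :=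
  fun h1 => by
    have := Submodule.finrank_mono h1
    have := finrank_perp P.sep (Submodule.span (ZMod 2) {x | x ∈ s})
    have := finrank_span_list s
    omega

variable (P) in
theorem not_perp_le' (s : List E) (h : 2 * s.length ≤ finrank (ZMod 2) E) (ha : a ∈ s) (hb : b ∈ s)
    (hab : P.B a b = 1) :
    ¬ perp P.pq (Submodule.span (ZMod 2) {x | x ∈ s}) ≤ Submodule.span (ZMod 2) {x | x ∈ s} :=
  fun h1 => by
    have := finrank_perp P.sep (Submodule.span (ZMod 2) {x | x ∈ s})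
    have := finrank_span_list s
    have h2 := Submodule.eq_of_le_of_finrank_le h1 (by omega)
    have h3 : P.B a b = 0 :=
      mem_perp.1 (h2.ge (Submodule.subset_span hb)) a (Submodule.subset_span ha)
    simp [h3] at hab

variable (P) in
theorem exS_list (s : List E) (h : 2 * s.length < finrank (ZMod 2) E) :
    ∃ w, P.q w = 1 ∧ ∀ u ∈ s, P.B u w = 0 :=
  (P.exS (P.not_perp_le s h)).imp fun _ h => ⟨h.1, fun u hu => h.2 u (Submodule.subset_span hu)⟩

variable (P) in
theorem exS_list' (s : List E) (h : 2 * s.length ≤ finrank (ZMod 2) E) (ha : a ∈ s) (hb : b ∈ s)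
    (hab : P.B a b = 1) : ∃ w, P.q w = 1 ∧ ∀ u ∈ s, P.B u w = 0 :=
  (P.exS (P.not_perp_le' s h ha hb hab)).imp fun _ h =>
    ⟨h.1, fun u hu => h.2 u (Submodule.subset_span hu)⟩

variable (P) in
theorem exists_B_notMem {U : Submodule (ZMod 2) E} (hx : x ∉ U) :
    ∃ y, P.B x y = 1 ∧ ∀ u ∈ U, P.B u y = 0 := by
  by_contra h
  push Not at h
  refine hx (perp_perp P.sep U ▸ mem_perp'.2 fun y hy => z2_ne_one.1 fun e => ?_)
  obtain ⟨u, h1, h2⟩ := h y e
  exact h2 (mem_perp.1 hy u h1)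

variable (P) in
theorem exists_B1 (hx : x ≠ 0) (ha : x ≠ a) : ∃ y, P.B x y = 1 ∧ P.B a y = 0 :=
  (P.exists_B_notMem (U := Submodule.span _ {a}) (by simp [mem_span1, hx, ha])).imp fun _ h =>
    ⟨h.1, h.2 a (Submodule.subset_span rfl)⟩

variable (P) in
theorem exists_B2 (hx : x ≠ 0) (ha : x ≠ a) (hb : x ≠ b) (hab : x ≠ a + b) :
    ∃ y, P.B x y = 1 ∧ P.B a y = 0 ∧ P.B b y = 0 :=
  (P.exists_B_notMem (U := Submodule.span _ {a, b}) (by simp [mem_span2, hx, ha, hb, hab])).imp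
    fun _ h => ⟨h.1, h.2 a (Submodule.subset_span (by simp)), h.2 b (Submodule.subset_span (by simp))⟩

variable (P) in
theorem eq_or_of_perp (h : ∀ w, P.B e w = 0 → P.B x w = 0) : x = 0 ∨ x = e := by
  by_contra h1
  push Not at h1
  obtain ⟨y, h2, h3⟩ := P.exists_B1 h1.1 h1.2
  simp [h y h3] at h2

/-- The elements `± l a` with `q a = 1`. -/
def TT (P : Pauli F V E) (φ : End F V) : Prop :=
  ∃ a, ∃ t : F, P.q a = 1 ∧ t * t = 1 ∧ φ = t • P.l a

theorem tt_l (ha : P.q a = 1) : P.TT (P.l a) := ⟨a, 1, ha, mul_one _, (one_smul _ _).symm⟩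

theorem TT.neg (h : P.TT φ) : P.TT (-φ) := by
  obtain ⟨a, t, h1, h2, rfl⟩ := h
  exact ⟨a, -t, h1, by rw [neg_mul_neg, h2], (neg_smul _ _).symm⟩

theorem tt_of {c : F} (ha : P.q a = 1) (h : φ = c • P.l a) (h1 : φ * φ = -1) : P.TT φ := by
  refine ⟨a, c, ha, ?_, h⟩
  rw [h, smul_mul_smul_comm, P.sq, ha, sg_one, smul_smul, ← neg_one_smul F (1 : End F V)] at h1
  linear_combination -P.smul_inj isUnit_one h1

theorem TT.nm (h : P.TT φ) : P.Nm (1 + φ) := by
  obtain ⟨a, t, h1, h2, rfl⟩ := h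
  exact nm_tau' h1 h2

theorem l_sq_of_one (ha : P.q a = 1) : P.l a * P.l a = -1 := by rw [P.sq, ha]; simp

theorem l_sq_of_zero (ha : P.q a = 0) : P.l a * P.l a = 1 := by rw [P.sq, ha]; simp

theorem l_comm (h : P.B x y = 0) : P.l x * P.l y = P.l y * P.l x := by rw [P.comm, h]; simp

theorem l_anti (h : P.B x y = 1) : P.l x * P.l y = -(P.l y * P.l x) := by rw [P.comm, h]; simp

theorem add3 (x y z : E) : ∃ c : F, c ≠ 0 ∧ P.l x * (P.l y * P.l z) = c • P.l (x + (y + z)) := by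
  obtain ⟨c, hc, e⟩ := P.add' y z
  obtain ⟨d, hd, e'⟩ := P.add' x (y + z)
  exact ⟨c * d, mul_ne_zero hc hd, by rw [e, mul_smul_comm, e', smul_smul]⟩

/-- `X` contains the scalars, the Pauli group and the products of two elements `1 + l a`. -/
structure Ctx (P : Pauli F V E) (X : Subgroup (V ≃ₗ[F] V)) : Prop where
  Z : ZLe X
  l : ∀ x, In X (P.l x)
  pair : ∀ a b, P.q a = 1 → P.q b = 1 → In X ((1 + P.l a) * (1 + P.l b))
  hq : ∀ φ x y, In X φ → P.Mp φ x y → P.q y = P.q x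

/-- The dimension hypothesis. -/
def HD (P : Pauli F V E) : Prop :=
  6 ≤ finrank (ZMod 2) E ∨ (4 ≤ finrank (ZMod 2) E ∧ ∀ x, x ≠ 0 → P.q x = 1)

theorem HD.four (h : P.HD) : 4 ≤ finrank (ZMod 2) E := h.elim (fun _ => by omega) And.left

/-- The centraliser in `X` of `l e` modulo scalars normalises the Pauli group. -/
def Cen (P : Pauli F V E) (X : Subgroup (V ≃ₗ[F] V)) (e : E) : Prop :=
  ∀ φ, In X φ → P.Mp φ e e → P.Nm φ

namespace Ctx

theorem pair' (h : P.Ctx X) (h1 : P.TT φ) (h2 : P.TT ψ) : In X ((1 + φ) * (1 + ψ)) := by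
  obtain ⟨a, s, ha, hs, rfl⟩ := h1
  obtain ⟨b, t, hb, ht, rfl⟩ := h2
  have key : In X ((1 + P.l a) * (1 + t • P.l b)) := by
    rcases mul_self_eq_one_iff.1 ht with rfl | rfl
    · simpa using h.pair a b ha hb
    · have := ((h.pair a b ha hb).mul (h.l b)).smul h.Z (c := -1) (by simp)
      rw [mul_assoc, add_mul 1 (P.l b), l_sq_of_one hb] at this
      convert this using 1
      simp only [neg_smul, one_smul, one_mul]
      noncomm_ring
  rcases mul_self_eq_one_iff.1 hs with rfl | rfl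
  · simpa using key
  · rw [neg_one_smul, ← sub_eq_add_neg, tau_neg ha, smul_mul_assoc, mul_assoc]
    exact ((h.l a).mul key).smul h.Z (by simp)

theorem trans1 (h : P.Ctx X) (h4 : 4 ≤ finrank (ZMod 2) E) (hB : P.B x y = 1)
    (hq : P.q x = P.q y) : ∃ φ, In X φ ∧ P.Nm φ ∧ P.Mp φ x y := by
  have h1 : P.q (x + y) = 1 := by
    rcases z2 (P.q x) with h1 | h1
    · rw [P.qa x y h1, ← hq, h1, hB, zero_add]
    · exact P.qb x y hB h1 (hq ▸ h1)
  obtain ⟨c, h2, h3⟩ := P.exS_list [y] (by simp; omega)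
  refine ⟨_, h.pair c (x + y) h2 h1, (nm_tau h2).mul (nm_tau h1), ?_⟩
  have h5 := mp_tau h1 x
  have h6 := mp_tau h2 y
  rw [map_add, LinearMap.add_apply, P.alt, P.symm, hB, zero_add, one_smul, ← add_assoc, add_self2,
    zero_add] at h5
  rw [P.symm, h3 y (by simp), zero_smul, add_zero] at h6
  exact h6.mul h5

theorem trans (h : P.Ctx X) (hD : P.HD) (hx : x ≠ 0) (hy : y ≠ 0) (hq : P.q x = P.q y) :
    ∃ φ, In X φ ∧ P.Nm φ ∧ P.Mp φ x y := by
  by_cases hxy : x = y
  · exact ⟨1, in_one, nm_one, hxy ▸ mp_one x⟩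
  obtain ⟨w, h1, h2, h3⟩ : ∃ w, P.B x w = 1 ∧ P.B y w = 1 ∧ P.q w = P.q x := by
    obtain ⟨u, u1, u2⟩ := P.exists_B1 hx hxy
    obtain ⟨v, v1, v2⟩ := P.exists_B1 hy (Ne.symm hxy)
    have e1 : P.B x (u + v) = 1 := by simp [u1, v2]
    have e2 : P.B y (u + v) = 1 := by simp [u2, v1]
    generalize u + v = w at e1 e2
    by_cases e3 : P.q w = P.q x
    · exact ⟨w, e1, e2, e3⟩
    rcases hD with hD | hD
    · obtain ⟨t, t1, t2⟩ := P.exS_list' [x, y, w] (a := x) (b := w) (by simpa) (by simp) (by simp) e1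
      rcases z2 (P.q x) with e4 | e4
      · rcases z2 (P.B x y) with e5 | e5
        · exact ⟨x + w, by simp [e1, P.alt], by simp [e2, P.symm y x, e5], by
            rw [P.qa x w e4, e1, e4, (z2_ne_zero (a := P.q w)).1 (e4 ▸ e3), z2_one_add_one]⟩
        · refine ⟨x + y + t, by simp [P.alt, e5, t2], by simp [P.alt, P.symm y x, e5, t2], ?_⟩
          rw [add_assoc, P.qa x _ e4, P.qa y t (hq ▸ e4), t1, e4]
          simp [e5, t2, z2_one_add_one]
      · exact ⟨w + t, by simp [e1, t2], by simp [e2, t2], by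
          rw [P.qa w t (z2_ne_one.1 (e4 ▸ e3)), t1, t2 w (by simp), add_zero, e4]⟩
    · exact absurd ((hD.2 w (P.ne_zero_of_B (P.symm x w ▸ e1))).trans (hD.2 x hx).symm) e3
  obtain ⟨φ, a1, a2, a3⟩ := h.trans1 hD.four h1 h3.symm
  obtain ⟨ψ, b1, b2, b3⟩ := h.trans1 hD.four (P.symm y w ▸ h2) (h3.trans hq)
  exact ⟨_, b1.mul a1, b2.mul a2, b3.mul a3⟩

theorem ti (h : P.Ctx X) (hD : P.HD) (hC : P.Cen X x) (hx : x ≠ 0) (hφ : In X φ)
    (h1 : P.Mp φ x y) : P.Nm φ := by
  obtain ⟨ψ, a1, a2, a3⟩ := h.trans hD (h1.ne_zero hφ.unit hx) hx (h.hq φ x y hφ h1)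
  exact a2.of_mul_left a1.unit (hC _ (a1.mul hφ) (a3.mul h1))

theorem cen_of (h : P.Ctx X) (he : e ≠ 0)
    (h1 : ∀ φ, In X φ → φ * P.l e = P.l e * φ → P.Nm φ) : P.Cen X e := fun φ hφ h2 => by
  obtain ⟨s, hs⟩ := h2.sign hφ.unit
  rcases z2 s with rfl | rfl
  · exact h1 φ hφ (by simpa using hs)
  · obtain ⟨f, hf⟩ := P.exists_B he
    refine (nm_l f).of_mul_left (P.l_unit f) (h1 _ ((h.l f).mul hφ) ?_)
    rw [mul_assoc, hs, ← mul_assoc (P.l e), l_anti hf]
    simp [mul_assoc]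

theorem cz (h : P.Ctx X) (h6 : 6 ≤ finrank (ZMod 2) E) (ha : P.q a = 0) (hb : P.q b = 0)
    (hab : P.B a b = 0) : In X (1 + P.l a + P.l b - P.l a * P.l b) := by
  obtain ⟨w, w1, w2⟩ := P.exS_list [a, b] (by simp; omega)
  have e1 := l_comm (w2 a (by simp))
  have e2 := l_comm (w2 b (by simp))
  have e3 := l_comm hab
  have e4 := l_sq_of_one w1
  have e5 := l_sq_of_zero ha
  have e6 := l_sq_of_zero hb
  have t : ∀ u, P.q u = 0 → P.B u w = 0 → P.TT (P.l u * P.l w) := fun u h1 h2 => by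
    obtain ⟨c, -, e⟩ := P.add' u w
    refine tt_of (by rw [P.qa u w h1, w1, h2, add_zero]) e ?_
    rw [mul_assoc, ← mul_assoc (P.l w), ← l_comm h2, mul_assoc, e4, ← mul_assoc, l_sq_of_zero h1,
      one_mul]
  have t3 : P.TT (P.l a * (P.l b * P.l w)) := by
    obtain ⟨c, -, e⟩ := P.add3 a b w
    refine tt_of (by
      rw [P.qa a _ ha, P.qa b _ hb, w1]; simp [w2, hab]) e ?_
    generalize P.l a = A, P.l b = B, P.l w = W at *
    have := Commute.mul_pow (a := A) (b := B * W) (Commute.mul_right e3 e1) 2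
    rw [Commute.mul_pow (a := B) (b := W) e2] at this
    simpa [pow_two, e4, e5, e6] using this
  refine In.of_smul h.Z P.two ((h.l w).of_mul_left ?_)
  convert (h.pair' (tt_l w1) (t a ha (w2 a (by simp)))).mul
    (h.pair' (t b hb (w2 b (by simp))) t3.neg) using 1
  generalize P.l a = A, P.l b = B, P.l w = W at *
  have f1 : ∀ t, W * (A * t) = A * (W * t) := fun t => by rw [← mul_assoc, ← e1, mul_assoc]
  have f2 : ∀ t, W * (B * t) = B * (W * t) := fun t => by rw [← mul_assoc, ← e2, mul_assoc]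
  have f3 : ∀ t, B * (A * t) = A * (B * t) := fun t => by rw [← mul_assoc, ← e3, mul_assoc]
  have f4 : ∀ t, W * (W * t) = -t := fun t => by rw [← mul_assoc, e4, neg_one_mul]
  have f5 : ∀ t, A * (A * t) = t := fun t => by rw [← mul_assoc, e5, one_mul]
  have f6 : ∀ t, B * (B * t) = t := fun t => by rw [← mul_assoc, e6, one_mul]
  simp only [two_smul, mul_add, add_mul, mul_sub, mul_assoc, mul_one, one_mul, mul_neg, neg_mul,
    ← e1, ← e2, f1, f2, f3, f5, e4, e5, e6]
  abel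

/-- In dimension at least six and linear type `1 + l a` itself lies in `X`. -/
theorem single (h : P.Ctx X) (h6 : 6 ≤ finrank (ZMod 2) E) (hL : ∀ x, x ≠ 0 → P.q x = 1)
    (ha : a ≠ 0) : In X (1 + P.l a) := by
  obtain ⟨b, b1, b2⟩ := SetLike.not_le_iff_exists.1 (P.not_perp_le [a] (by simp; omega))
  obtain ⟨c, c1, c2⟩ := SetLike.not_le_iff_exists.1 (P.not_perp_le [a, b] (by simp; omega))
  have e1 : P.B a b = 0 := P.mem_perp_span.1 b1 a (by simp)
  have e2 : P.B a c = 0 := P.mem_perp_span.1 c1 a (by simp)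
  have e3 : P.B b c = 0 := P.mem_perp_span.1 c1 b (by simp)
  simp only [List.mem_cons, List.not_mem_nil, or_false, Set.ofPred_eq_eq_singleton, mem_span1,
    not_or] at b2
  rw [show {x | x ∈ [a, b]} = {a, b} by ext; simp, mem_span2] at c2
  simp only [not_or] at c2
  have q1 := hL a ha
  have q2 := hL b b2.1
  have q3 := hL (a + b) fun e => b2.2 (add_eq_zero2.1 e).symm
  have q4 := hL c c2.1
  have q5 := hL (a + c) fun e => c2.2.1 (add_eq_zero2.1 e).symm
  have q6 := hL (b + c) fun e => c2.2.2.1 (add_eq_zero2.1 e).symm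
  have q7 := hL (a + b + c) fun e => c2.2.2.2 (add_eq_zero2.1 e).symm
  have h1 := (h.pair _ _ q2 q3).mul ((h.pair _ _ q4 q5).mul (h.pair _ _ q6 q7))
  obtain ⟨y, t, ht, e⟩ := centE ((tau_unit q1).mul h1.unit) fun x => by
    convert (mp_tau q1 _).mul (((mp_tau q2 _).mul (mp_tau q3 _)).mul
      (((mp_tau q4 _).mul (mp_tau q5 _)).mul ((mp_tau q6 _).mul (mp_tau q7 x)))) using 1
    simp only [map_add, map_smul, LinearMap.add_apply, P.alt, e1, e2, e3, P.symm b a, P.symm c a,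
      P.symm c b, smul_zero, add_zero]
    generalize P.B a x = α, P.B b x = β, P.B c x = γ
    match_scalars <;> (revert α β γ; decide)
  exact h1.of_mul_right (e ▸ (h.l y).smul h.Z ht)

end Ctx

variable (P) in
/-- The conjugate system. -/
def conj (g : V ≃ₗ[F] V) : Pauli F V E where
  B := P.B
  l x := ce g * P.l x * ce g⁻¹
  q := P.q
  alt := P.alt
  nd := P.nd
  sq x := by simp [mul_assoc, P.l_l]
  comm x y := by simp [mul_assoc, P.comm' x y]
  add x y := (P.add x y).imp fun c h => ⟨h.1, by simp [h.2, mul_assoc]⟩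
  cent φ h := by
    obtain ⟨c, hc⟩ := P.cent (ce g⁻¹ * φ * ce g) fun x => by
      have := congrArg (fun t => ce g⁻¹ * t * ce g) (h x)
      simpa [mul_assoc] using this
    have := congrArg (fun t => ce g * t * ce g⁻¹) hc
    exact ⟨c, by simpa [mul_assoc] using this⟩
  two := P.two
  nt := P.nt
  q0 := P.q0
  qa := P.qa
  qb := P.qb

theorem conj_l (g : V ≃ₗ[F] V) (x : E) : (P.conj g).l x = ce g * P.l x * ce g⁻¹ := rfl

theorem conj_mp {g : V ≃ₗ[F] V} : (P.conj g).Mp φ x y ↔ P.Mp (ce g⁻¹ * φ * ce g) x y := by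
  refine exists_congr fun c => and_congr_right fun _ => ⟨fun h => ?_, fun h => ?_⟩
  · have := congrArg (fun t => ce g⁻¹ * t * ce g) h
    simpa [conj_l, mul_assoc] using this
  · have := congrArg (fun t => ce g * t * ce g⁻¹) h
    simpa [conj_l, mul_assoc] using this

theorem conj_nm {g : V ≃ₗ[F] V} : (P.conj g).Nm φ ↔ P.Nm (ce g⁻¹ * φ * ce g) :=
  forall_congr' fun _ => exists_congr fun _ => conj_mp

/-- `g` normalises `X`. -/
def Nz (X : Subgroup (V ≃ₗ[F] V)) (g : V ≃ₗ[F] V) : Prop :=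
  ∀ φ, In X φ → In X (ce g * φ * ce g⁻¹) ∧ In X (ce g⁻¹ * φ * ce g)

theorem nz_of_mem {g : V ≃ₗ[F] V} (hg : g ∈ X) : Nz X g := fun φ h =>
  ⟨((in_ce.2 hg).mul h).mul (in_ce.2 (X.inv_mem hg)),
    ((in_ce.2 (X.inv_mem hg)).mul h).mul (in_ce.2 hg)⟩

theorem Ctx.conj (h : P.Ctx X) {g : V ≃ₗ[F] V} (hg : Nz X g) : (P.conj g).Ctx X where
  Z := h.Z
  l x := (hg _ (h.l x)).1
  pair a b ha hb := by
    convert (hg _ (h.pair a b ha hb)).1 using 1
    simp [conj_l, mul_add, add_mul, mul_assoc]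
  hq φ x y h1 h2 := h.hq _ x y (hg _ h1).2 (conj_mp.1 h2)

theorem Cen.conj (h : P.Cen X e) {g : V ≃ₗ[F] V} (hg : Nz X g) : (P.conj g).Cen X e :=
  fun φ h1 h2 => conj_nm.2 (h _ (hg _ h1).2 (conj_mp.1 h2))

variable (P) in
theorem sum_sg (x : E) [Fintype E] [DecidableEq E] :
    ∑ y, sg F (P.B x y) = if x = 0 then (Fintype.card E : F) else 0 := by
  split_ifs with hx
  · simp [hx]
  · obtain ⟨w, hw⟩ := P.exists_B hx
    have := Equiv.sum_comp (Equiv.addRight w) fun y => sg F (P.B x y)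
    simp only [Equiv.coe_addRight, map_add, sg_add, hw, sg_one, mul_neg, mul_one,
      Finset.sum_neg_distrib] at this
    exact mul_left_cancel₀ P.two (by linear_combination -this)

variable (P) in
include P in
theorem card_ne_zero [Fintype E] : (Fintype.card E : F) ≠ 0 := by
  rw [Module.card_eq_pow_finrank (K := ZMod 2), ZMod.card, Nat.cast_pow]
  exact pow_ne_zero _ P.two

variable (P) in
/-- The Pauli group spans the endomorphism algebra. -/
theorem exists_sum [Fintype E] (φ : End F V) : ∃ c : E → F, φ = ∑ y, c y • P.l y := by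
  classical
  let κ : E → End F V → End F V := fun x ψ => sg F (P.q x) • (P.l x * (ψ * P.l x))
  have k1 : ∀ x ψ, κ x ψ * P.l x = P.l x * ψ := fun x ψ => by
    simp only [κ, smul_mul_assoc, mul_assoc, P.sq, mul_smul_comm, smul_smul, sg_mul_self, one_smul,
      mul_one]
  have k2 : ∀ w x, P.l w * κ x φ = κ (w + x) φ * P.l w := fun w x => by
    obtain ⟨c, hc, e⟩ := P.add' w x
    refine (P.l_unit x).mul_right_cancel ?_
    rw [mul_assoc, k1, mul_assoc, e, mul_smul_comm, k1, ← mul_assoc, e, smul_mul_assoc]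
  have h : ∀ y, ∃ c : F, ∑ x, sg F (P.B x y) • κ x φ = c • P.l y :=
    fun y => eq_l_of_sign fun w => by
      rw [Finset.sum_mul, Finset.mul_sum, Finset.smul_sum, ← Equiv.sum_comp (Equiv.addLeft w)]
      refine Finset.sum_congr rfl fun x _ => ?_
      rw [mul_smul_comm, k2, Equiv.coe_addLeft, smul_mul_assoc, smul_smul, map_add,
        LinearMap.add_apply, sg_add, P.symm w y]
  choose c hc using h
  refine ⟨fun y => (Fintype.card E : F)⁻¹ * c y, ?_⟩
  simp only [mul_smul, ← hc, ← Finset.smul_sum]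
  rw [Finset.sum_comm]
  simp only [← Finset.sum_smul, P.sum_sg, κ]
  obtain ⟨d, hd, e⟩ := P.l_zero
  have e1 := P.sq 0
  rw [Finset.sum_eq_single 0 (fun x _ hx => by simp [hx]) (by simp), if_pos rfl, smul_smul,
    inv_mul_cancel₀ P.card_ne_zero, one_smul]
  rw [e, P.q0] at e1 ⊢
  simp only [smul_mul_assoc, mul_smul_comm, one_mul, mul_one, smul_smul, sg_zero] at e1 ⊢
  rw [P.smul_inj isUnit_one e1, one_smul]

variable (P) in
theorem linearIndependent : LinearIndependent F P.l := by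
  classical
  have := Fintype.ofFinite E
  refine Fintype.linearIndependent_iff.2 fun c h y => ?_
  have h1 : ∀ w, ∑ x, (c x * sg F (P.B (x + y) w)) • P.l x = 0 := fun w => by
    refine (P.l_unit w).mul_left_cancel ?_
    have := congrArg (fun t => sg F (P.B y w) • (t * P.l w)) h
    simp only [Finset.sum_mul, Finset.smul_sum, smul_mul_assoc, zero_mul, smul_zero] at this
    rw [mul_zero, ← this, Finset.mul_sum]
    refine Finset.sum_congr rfl fun x _ => ?_
    rw [P.comm x w, mul_smul_comm, map_add, LinearMap.add_apply, sg_add, smul_smul, smul_smul]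
    congr 1; ring
  have h2 := Finset.sum_eq_zero (s := Finset.univ) fun w _ => h1 w
  rw [Finset.sum_comm] at h2
  simp only [← Finset.sum_smul, ← Finset.mul_sum, P.sum_sg, add_eq_zero2] at h2
  rw [Finset.sum_eq_single y (fun x _ hx => by simp [hx]) (by simp), if_pos rfl] at h2
  have := P.smul_inj (P.l_unit y) (h2.trans (zero_smul F _).symm)
  exact (mul_eq_zero.1 this).resolve_right P.card_ne_zero

variable (P) in
include P in
theorem finrank_sq [FiniteDimensional F V] : finrank F V ^ 2 = 2 ^ finrank (ZMod 2) E := by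
  have := Fintype.ofFinite E
  have h := finrank_eq_card_basis (Basis.mk P.linearIndependent fun φ _ => by
    obtain ⟨c, rfl⟩ := P.exists_sum φ
    exact Submodule.sum_mem _ fun y _ => Submodule.smul_mem _ _ (Submodule.subset_span ⟨y, rfl⟩))
  rw [Module.finrank_linearMap, Module.card_eq_pow_finrank (K := ZMod 2), ZMod.card] at h
  rw [pow_two, h]

end Pauli

end H97c
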