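import Mathlib
import Cfsg.Agent.Base
import Cfsg.Agent.Lib.Cliff.Ctx
import Cfsg.Agent.Lib.ClassMax.OBase

/-!
A strongly closed symplectic elementary abelian `2`-subgroup whose normaliser controls its
fusion is normal.
-/

set_option autoImplicit false
set_option linter.unusedSectionVars false
set_option linter.unusedVariables false

namespace H97c

open Module H97 H28

variable {E : Type*} [AddCommGroup E] [Module (ZMod 2) E] [Finite E]

theorem exists_quad (B : LinearMap.BilinForm (ZMod 2) E) (alt : ∀ x, B x x = 0)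
    (symm : ∀ x y, B x y = B y x) : ∃ q : E → ZMod 2, ∀ x y, q (x + y) = q x + q y + B x y := by
  let b := finBasis (ZMod 2) E
  let β : LinearMap.BilinForm (ZMod 2) E :=
    b.constr (ZMod 2) fun i => b.constr (ZMod 2) fun j => if i < j then B (b i) (b j) else 0
  have hβ : ∀ i j, β (b i) (b j) = if i < j then B (b i) (b j) else 0 := fun i j => by
    simp only [β, Basis.constr_basis]
  have h : β + β.flip = B := b.ext fun i => b.ext fun j => by
    change β (b i) (b j) + β (b j) (b i) = _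
    rw [hβ, hβ]
    rcases lt_trichotomy i j with h | rfl | h
    · rw [if_pos h, if_neg h.not_gt, add_zero]
    · simp [alt]
    · rw [if_pos h, if_neg h.not_gt, zero_add, symm]
  refine ⟨fun x => β x x, fun x y => ?_⟩
  rw [← h]
  change _ = _ + (β x y + β y x)
  simp only [map_add, LinearMap.add_apply]
  ring

theorem final {Γ : Type*} [Group Γ] [Finite Γ] (B : LinearMap.BilinForm (ZMod 2) E)
    (alt : ∀ x, B x x = 0) (symm : ∀ x y, B x y = B y x) (ε : E → Γ)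
    (hadd : ∀ x y, ε (x + y) = ε x * ε y) (hinj : Function.Injective ε) (N : Subgroup Γ)
    (hN : ∀ g, g ∈ N ↔ ∀ x, ∃ y, g * ε x * g⁻¹ = ε y)
    (hB : ∀ g x y x' y', g * ε x * g⁻¹ = ε x' → g * ε y * g⁻¹ = ε y' → B x' y' = B x y)
    (hF : ∀ g x, x ≠ 0 → g * ε x * g⁻¹ ∈ N → g ∈ N) {x₁ y₁ x₂ y₂ : E} (h1 : B x₁ y₁ = 1)
    (h2 : B x₂ y₂ = 0) (h3 : x₂ ≠ 0) (h4 : y₂ ≠ 0) (h5 : x₂ + y₂ ≠ 0) (g : Γ) : g ∈ N := by
  classical
  by_contra hg
  have e0 : ε 0 = 1 := by simpa using hadd 0 0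
  have e2 : ∀ x, ε x * ε x = 1 := fun x => by rw [← hadd, add_self2, e0]
  have eN : ∀ x, ε x ∈ N := fun x => (hN _).2 fun y => ⟨y, by
    rw [← hadd, add_comm, hadd, mul_inv_cancel_right]⟩
  let D : Set Γ := {d | ∃ h x, x ≠ 0 ∧ d = h * ε x * h⁻¹}
  have dc : ∀ d ∈ D, ∀ h, h * d * h⁻¹ ∈ D := by
    rintro _ ⟨k, x, hx, rfl⟩ h
    exact ⟨h * k, x, hx, by group⟩
  have de : ∀ x, x ≠ 0 → ε x ∈ D := fun x hx => ⟨1, x, hx, by simp⟩
  have d2 : ∀ d ∈ D, d * d = 1 := by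
    rintro _ ⟨k, x, hx, rfl⟩
    rw [conj_mul, e2]; simp
  have f1 : ∀ d ∈ D, d ∈ N → ∃ y, d = ε y := by
    rintro _ ⟨k, x, hx, rfl⟩ h
    exact (hN k).1 (hF k x hx h) x
  have f2 : ∀ c x, x ≠ 0 → Commute c (ε x) → c ∈ N := fun c x hx h =>
    hF c x hx (by rw [h.eq, mul_inv_cancel_right]; exact eN x)
  have f3 : ∀ h x, x ≠ 0 → ∀ d ∈ D, Commute d (h * ε x * h⁻¹) → ∃ y, d = h * ε y * h⁻¹ :=
    fun h x hx d hd hc => by
      obtain ⟨y, hy⟩ := f1 _ (dc d hd h⁻¹) (f2 _ x hx (by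
        have := hc.conj h⁻¹
        simpa [mul_assoc] using this))
      exact ⟨y, by rw [← hy]; group⟩
  have mid : ∀ x y, x ≠ 0 → y ≠ 0 → ∃ m ∈ D, m * ε x * m⁻¹ = g * ε y * g⁻¹ ∧
      ∀ c, Commute c (ε x) → Commute c (g * ε y * g⁻¹) → Commute c m := fun x y hx hy => by
    have hb : g * ε y * g⁻¹ ∈ D := dc _ (de y hy) g
    have ha := de x hx
    have key : ∀ c, c ≠ 1 → Commute c (ε x) → Commute c (g * ε y * g⁻¹) → c * ε x ∈ D →
        c * (g * ε y * g⁻¹) ∈ D → False := fun c c1 c2 c3 c4 c5 => by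
      obtain ⟨u, hu⟩ := f1 _ c4 (N.mul_mem (f2 c x hx c2) (eN x))
      obtain ⟨v, hv⟩ := f3 g y hy _ c5 (c3.mul_left (Commute.refl _))
      have e1 : c = g * ε (v + y) * g⁻¹ := by
        rw [hadd, ← conj_mul, ← hv, mul_assoc c, d2 _ hb, mul_one]
      refine hg (hF g (v + y) (fun e => c1 (by rw [e1, e, e0]; simp)) ?_)
      rw [← e1]; exact f2 c x hx c2
    generalize hb' : g * ε y * g⁻¹ = b at hb key ⊢
    rcases H97o.dihedral_cases (e2 x) (d2 b hb) with ⟨k, hk⟩ | ⟨n, n1, -, n2, n3, n4⟩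
    · have h6 := H97o.dih_pow (e2 x) (d2 b hb)
      have h7 : ∀ j : ℕ, (ε x * b) ^ j * ε x * ((ε x * b) ^ j)⁻¹ = (ε x * b) ^ (2 * j) * ε x :=
        fun j => by
          rw [mul_assoc, show ε x * ((ε x * b) ^ j)⁻¹ = (ε x * b) ^ j * ε x by
            rw [mul_inv_eq_iff_eq_mul, mul_assoc, (h6 j).1]; group, two_mul, pow_add, mul_assoc]
      have h8 : (ε x * b) ^ (2 * k + 1) = 1 := by
        rw [pow_succ, ← mul_assoc, ← h7, hk, d2 b hb]
      refine ⟨(ε x * b) ^ k * ε x, ?_, (by group : _ = _).trans hk, fun c c1 c2 =>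
        ((c1.mul_right c2).pow_right k).mul_right c1⟩
      have := dc _ ha ((ε x * b) ^ (k * (k + 1)))
      rwa [h7, show 2 * (k * (k + 1)) = (2 * k + 1) * k + k by ring, pow_add, pow_mul, h8, one_pow,
        one_mul] at this
    · exfalso
      rcases n4 with ⟨⟨k, k1⟩, l, k2⟩ | ⟨k, -, k1, k2⟩
      · exact key _ n1 n2 n3 (k2 ▸ dc _ hb _) (k1 ▸ dc _ ha _)
      · exact key _ n1 n2 n3 (k1 ▸ dc _ ha _) (k2 ▸ dc _ hb _)
  let M := {m // m ∈ D ∧ g⁻¹ * m ∈ N}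
  have := Fintype.ofFinite M
  have := Fintype.ofFinite E
  choose φ hφ using fun (m : M) x => (hN _).1 m.2.2 x
  have hφ' : ∀ (m : M) x, m.1 * ε x * m.1⁻¹ = g * ε (φ m x) * g⁻¹ := fun m x => by
    rw [← hφ]; group
  have p0 : ∀ m x, x ≠ 0 → φ m x ≠ 0 := fun m x hx e => hx (hinj (by
    have := hφ m x
    rw [e, e0, conj_eq_one_iff] at this
    rw [this, e0]))
  have pN : ∀ m x y, x ≠ 0 → m * ε x * m⁻¹ = g * ε y * g⁻¹ → g⁻¹ * m ∈ N := fun m x y hx h =>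
    hF _ x hx (by rw [show g⁻¹ * m * ε x * (g⁻¹ * m)⁻¹ = ε y by
      rw [mul_inv_rev, mul_assoc g⁻¹, mul_assoc g⁻¹, ← mul_assoc (m * _), h]; group]; exact eN y)
  have uq : ∀ x y, x ≠ 0 → y ≠ 0 → ∃ m₀, ∀ m ∈ D, m * ε x * m⁻¹ = g * ε y * g⁻¹ → m = m₀ :=
    fun x y hx hy => by
      obtain ⟨m₀, a1, a2, a3⟩ := mid x y hx hy
      refine ⟨m₀, fun m b1 b2 => by_contra fun hne => ?_⟩
      have i0 := H97o.inv_eq_of_sq (d2 _ a1)
      have i1 := H97o.inv_eq_of_sq (d2 _ b1)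
      have sw : ∀ m ∈ D, m * ε x * m⁻¹ = g * ε y * g⁻¹ → m * (g * ε y * g⁻¹) * m⁻¹ = ε x :=
        fun m h1 h2 => by
          rw [← h2, show m * (m * ε x * m⁻¹) * m⁻¹ = (m * m) * ε x * (m * m)⁻¹ by group, d2 m h1]
          simp
      have c1 : Commute (m * m₀) (ε x) := by
        rw [Commute, SemiconjBy, ← mul_inv_eq_iff_eq_mul,
          show m * m₀ * ε x * (m * m₀)⁻¹ = m * (m₀ * ε x * m₀⁻¹) * m⁻¹ by group, a2, sw m b1 b2]
      have c2 : Commute (m * m₀) (g * ε y * g⁻¹) := by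
        rw [Commute, SemiconjBy, ← mul_inv_eq_iff_eq_mul, show m * m₀ * (g * ε y * g⁻¹) * (m * m₀)⁻¹ =
          m * (m₀ * (g * ε y * g⁻¹) * m₀⁻¹) * m⁻¹ by group, sw m₀ a1 a2, b2]
      have c3 := a3 _ c1 c2
      have c4 : Commute m m₀ := by
        have := c3.mul_left (Commute.refl m₀)
        rwa [mul_assoc, d2 _ a1, mul_one] at this
      obtain ⟨h, u, hu, rfl⟩ := id a1
      obtain ⟨v, rfl⟩ := f3 h u hu m b1 c4
      have hvu : v + u ≠ 0 := fun e => hne (by rw [add_eq_zero2.1 e])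
      have hD : h * ε v * h⁻¹ * (h * ε u * h⁻¹) ∈ D := ⟨h, v + u, hvu, by rw [hadd, conj_mul]⟩
      obtain ⟨w, hw⟩ := f1 _ hD (f2 _ x hx c1)
      have hw0 : w ≠ 0 := by
        rintro rfl
        rw [e0, conj_mul, ← hadd, conj_eq_one_iff, ← e0] at hw
        exact hvu (hinj hw)
      have := N.mul_mem (f2 _ w hw0 (hw ▸ c3.symm)) (N.inv_mem (pN _ x y hx a2))
      exact hg (by simpa [mul_assoc] using this)
  obtain ⟨q, hq⟩ := exists_quad B alt symm
  have bij : ∀ x (hx : x ≠ 0), Function.Bijective fun m : M => (⟨φ m x, p0 m x hx⟩ : {y : E // y ≠ 0}) :=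
    fun x hx => ⟨fun m m' e => by
      obtain ⟨m₀, h⟩ := uq x (φ m x) hx (p0 m x hx)
      exact Subtype.ext ((h _ m.2.1 (hφ' m x)).trans
        (h _ m'.2.1 (by rw [hφ', show φ m' x = φ m x from (congrArg Subtype.val e).symm])).symm),
      fun y => by
        obtain ⟨m, a1, a2, -⟩ := mid x y hx y.2
        refine ⟨⟨m, a1, pN m x y hx a2⟩, Subtype.ext (hinj ?_)⟩
        have := (hφ' ⟨m, a1, pN m x y hx a2⟩ x).symm.trans a2
        simpa using this⟩
  have s1 : ∀ x, x ≠ 0 → ∑ m, q (φ m x) = ∑ y : {y : E // y ≠ 0}, q y := fun x hx =>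
    (bij x hx).sum_comp fun y => q y
  have s2 : ∀ x y, x ≠ 0 → y ≠ 0 → x + y ≠ 0 →
      ∑ y : {y : E // y ≠ 0}, q y = (Fintype.card M : ZMod 2) * B x y := fun x y hx hy hxy => by
    have : ∀ m, q (φ m (x + y)) = q (φ m x) + q (φ m y) + B x y := fun m => by
      rw [show φ m (x + y) = φ m x + φ m y from hinj (by rw [hadd, ← hφ, ← hφ, ← hφ, hadd, conj_mul]),
        hq, hB _ _ _ _ _ (hφ m x) (hφ m y)]
    have h := s1 _ hxy
    simp only [this, Finset.sum_add_distrib, s1 x hx, s1 y hy, z2_add_self, zero_add,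
      Finset.sum_const, Finset.card_univ, nsmul_eq_mul] at h
    exact h.symm
  have t1 := s2 x₁ y₁ (by rintro rfl; simp at h1) (by rintro rfl; simp at h1)
    (fun e => by simp [add_eq_zero2.1 e, alt] at h1)
  rw [s2 x₂ y₂ h3 h4 h5, h1, h2, mul_zero, mul_one, Fintype.card_of_bijective (bij x₂ h3),
    Fintype.card_subtype_compl, Fintype.card_subtype_eq, Nat.cast_sub Fintype.card_pos,
    Module.card_eq_pow_finrank (K := ZMod 2), ZMod.card, Nat.cast_pow, Nat.cast_ofNat,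
    show (2 : ZMod 2) = 0 from rfl, zero_pow (by
      have : Nontrivial E := ⟨x₂, 0, h3⟩
      exact finrank_pos.ne')] at t1
  simp at t1

end H97c
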