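import Mathlib
import Cfsg.Agent.Base
import Cfsg.Agent.Lib.ClassMax.OFrameMax

/-!
Overgroups of the monomial group of an orthogonal frame over a prime field, in dimension at
least five.
-/

set_option autoImplicit false
set_option linter.unusedSectionVars false
set_option linter.unusedVariables false

namespace H97o

open Module Cfsg H12 QuadraticMap

variable {F V : Type*} [Field F] [Fintype F] [AddCommGroup V] [Module F V] {Q : QuadraticForm F V}
  [FiniteDimensional F V] {ι : Type*} [Fintype ι] [DecidableEq ι] {e : ι → V} {c : ι → V →ₗ[F] F}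
  {κ : F} {R : Subgroup (O Q)}

/-- An orthogonal frame of vectors of the same norm, with its coordinates. -/
structure Fr5 (Q : QuadraticForm F V) (e : ι → V) (c : ι → V →ₗ[F] F) (κ : F) : Prop where
  nd : Nondeg Q
  two : (2 : F) ≠ 0
  prime : (Fintype.card F).Prime
  hκ : κ ≠ 0
  sum : ∀ x, ∑ i, c i x • e i = x
  ce : ∀ i j, c i (e j) = if i = j then 1 else 0
  Qe : ∀ i, Q (e i) = κ
  Be : ∀ i x, polar Q (e i) x = 2 * κ * c i x
  five : 5 ≤ Fintype.card ι

namespace Fr5

theorem ext (h : Fr5 Q e c κ) {x y : V} (h1 : ∀ i, c i x = c i y) : x = y := by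
  rw [← h.sum x, ← h.sum y]
  exact Finset.sum_congr rfl fun i _ => by rw [h1]

theorem B_eq (h : Fr5 Q e c κ) (x y : V) : polar Q x y = 2 * κ * ∑ i, c i x * c i y := by
  conv_lhs => rw [← h.sum x]
  rw [B_sum_left, Finset.mul_sum]
  exact Finset.sum_congr rfl fun i _ => by rw [B_smul_left, h.Be]; ring

theorem Be' (h : Fr5 Q e c κ) (i : ι) (x : V) : polar Q x (e i) = 2 * κ * c i x := by
  rw [polar_comm, h.Be]

theorem sum_supp (h : Fr5 Q e c κ) {x : V} (hx : Q x = κ) : ∑ i ∈ supp c x, c i x ^ 2 = 1 := by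
  have := h.B_eq x x
  rw [B_self, hx] at this
  rw [Finset.sum_subset (Finset.subset_univ _) fun i _ hi => by rw [notMem_supp.1 hi]; ring]
  refine mul_left_cancel₀ (mul_ne_zero h.two h.hκ) ?_
  simp only [pow_two]
  rw [← this, mul_one]

theorem Q_eq (h : Fr5 Q e c κ) {x y : V} (h1 : ∀ i, c i x ^ 2 = c i y ^ 2) : Q x = Q y := by
  refine mul_left_cancel₀ h.two ?_
  rw [← B_self, ← B_self, h.B_eq, h.B_eq]
  simp only [← pow_two, h1]

theorem Qe_ne (h : Fr5 Q e c κ) (i : ι) : Q (e i) ≠ 0 := h.Qe i ▸ h.hκ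

theorem Q_sub (h : Fr5 Q e c κ) {a b : ι} (hab : a ≠ b) : Q (e a - e b) = 2 * κ := by
  rw [H12.Q_sub, h.Qe, h.Qe, h.Be, h.ce, if_neg hab]; ring

theorem c_refl (h : Fr5 Q e c κ) (a i : ι) (x : V) :
    c i ((refl Q (e a)).1 x) = if i = a then -c i x else c i x := by
  have := h.hκ
  rw [refl_apply, map_sub, map_smul, h.Qe, h.Be', h.ce, smul_eq_mul]
  split_ifs with h1
  · rw [h1]; field_simp; ring
  · ring

theorem c_sw (h : Fr5 Q e c κ) {a b : ι} (hab : a ≠ b) (i : ι) (x : V) :
    c i ((refl Q (e a - e b)).1 x) = c (Equiv.swap a b i) x := by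
  have := h.hκ
  have := h.two
  rw [refl_apply, map_sub, map_smul, h.Q_sub hab, polar_sub_right, h.Be', h.Be', map_sub, h.ce,
    h.ce, smul_eq_mul, Equiv.swap_apply_def]
  split_ifs with h1 h2
  · exact absurd (h1.symm.trans h2) hab
  · rw [h1]; field_simp; ring
  · subst i; field_simp; ring
  · ring

theorem sw_fix (h : Fr5 Q e c κ) {a b : ι} {x : V} (hx : c a x = c b x) :
    (refl Q (e a - e b)).1 x = x :=
  refl_apply_of_orth (by rw [polar_sub_right, h.Be', h.Be', hx, sub_self])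

theorem exists_zero (h : Fr5 Q e c κ) {x : V} (hx : (supp c x).card ≤ 3) :
    ∃ a b, a ≠ b ∧ c a x = 0 ∧ c b x = 0 := by
  obtain ⟨a, b, h1, h2, h3⟩ := (Finset.one_lt_card_iff (s := (supp c x)ᶜ)).1 (by
    have := h.five
    rw [Finset.card_compl]; omega)
  exact ⟨a, b, h3, by simpa [notMem_supp] using h1, by simpa [notMem_supp] using h2⟩

theorem mem_of_coord (h : Fr5 Q e c κ) {T : Submodule F V} {x : V} (hx : ∀ i, c i x ≠ 0 → e i ∈ T) :
    x ∈ T := by
  rw [← h.sum x]
  refine T.sum_mem fun i _ => ?_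
  by_cases h1 : c i x = 0
  · rw [h1, zero_smul]; exact T.zero_mem
  · exact T.smul_mem _ (hx i h1)

end Fr5

/-- A group containing the sign changes and the even permutations of the frame. -/
structure RR5 (Q : QuadraticForm F V) (e : ι → V) (c : ι → V →ₗ[F] F) (κ : F) (R : Subgroup (O Q)) :
    Prop extends Fr5 Q e c κ where
  m1 : ∀ i, refl Q (e i) ∈ R
  m2 : ∀ i j k l, i ≠ j → k ≠ l → refl Q (e i - e j) * refl Q (e k - e l) ∈ R

namespace RR5

theorem un_e (h : RR5 Q e c κ R) (i : ι) : Un R κ (e i) := ⟨h.Qe i, h.m1 i⟩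

theorem un_sw (h : RR5 Q e c κ R) {u : V} (hu : Un R κ u) {a b k l : ι} (hab : a ≠ b) (hkl : k ≠ l)
    (h1 : c k u = c l u) : Un R κ ((refl Q (e a - e b)).1 u) := by
  have := hu.apply (h.m2 a b k l hab hkl)
  rwa [O.mul_apply, h.sw_fix h1] at this

theorem un_sgn (h : RR5 Q e c κ R) {u : V} (hu : Un R κ u) {v : V} (hv : ∀ i, c i v ^ 2 = c i u ^ 2) :
    Un R κ v := by
  have key : ∀ s : Finset ι, ∀ v, (∀ i, c i v ^ 2 = c i u ^ 2) → (∀ i ∉ s, c i v = c i u) →
      Un R κ v := fun s => by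
    induction s using Finset.induction_on with
    | empty => exact fun v _ h1 => h.ext (fun i => h1 i (by simp)) ▸ hu
    | insert a s ha ih =>
      intro v h1 h2
      rcases sq_eq_sq_iff_eq_or_eq_neg.1 (h1 a) with h3 | h3
      · exact ih v h1 fun i hi => by
          by_cases h4 : i = a
          exacts [h4 ▸ h3, h2 i (by simp [hi, h4])]
      · have := (ih ((refl Q (e a)).1 v) (fun i => by rw [h.c_refl]; split_ifs <;> simp [h1])
          fun i hi => by
            rw [h.c_refl]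
            split_ifs with h4
            exacts [by rw [h4, h3, neg_neg], h2 i (by simp [hi, h4])]).apply (h.m1 a)
        rwa [refl_refl] at this
  exact key Finset.univ v hv (by simp)

theorem un_sw' (h : RR5 Q e c κ R) {u : V} (hu : Un R κ u) {a b k l : ι} (hab : a ≠ b) (hkl : k ≠ l)
    (h1 : c k u ^ 2 = c l u ^ 2) : Un R κ ((refl Q (e a - e b)).1 u) := by
  rcases sq_eq_sq_iff_eq_or_eq_neg.1 h1 with h2 | h2
  · exact h.un_sw hu hab hkl h2
  · refine h.un_sgn (h.un_sw (hu.apply (h.m1 l)) hab hkl (by simp [h.c_refl, hkl, h2])) fun i => ?_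
    rw [h.c_sw hab, h.c_sw hab, h.c_refl]
    split_ifs <;> ring

/-- All the reflections in the roots lie in `R`. -/
def Al (Q : QuadraticForm F V) (e : ι → V) (R : Subgroup (O Q)) : Prop :=
  ∀ a b, a ≠ b → refl Q (e a - e b) ∈ R

/-- The reflection in `e a - e b` lies in `R` up to a factor fixing `u`, `e a` and `e b`. -/
def Ok (Q : QuadraticForm F V) (e : ι → V) (R : Subgroup (O Q)) (u : V) (a b : ι) : Prop :=
  ∃ ρ, polar Q (e a) ρ = 0 ∧ polar Q (e b) ρ = 0 ∧ polar Q u ρ = 0 ∧
    refl Q (e a - e b) * refl Q ρ ∈ R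

theorem Al.ok (h : Al Q e R) (u : V) {a b : ι} (hab : a ≠ b) : Ok Q e R u a b :=
  ⟨0, by simp, by simp, by simp, by
    rw [show refl Q 0 = 1 from O.ext fun x => by simp [refl_apply], mul_one]; exact h a b hab⟩

theorem ok_of_sq (h : RR5 Q e c κ R) {u : V} {a b k l : ι} (hab : a ≠ b) (hkl : k ≠ l)
    (h1 : c k u ^ 2 = c l u ^ 2) (hak : k ≠ a) (hal : l ≠ a) (hbk : k ≠ b) (hbl : l ≠ b) :
    Ok Q e R u a b := by
  rcases sq_eq_sq_iff_eq_or_eq_neg.1 h1 with h2 | h2
  · exact ⟨e k - e l, by simp [h.Be, h.ce, hak.symm, hal.symm], by simp [h.Be, h.ce, hbk.symm, hbl.symm],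
      by simp [h.Be', h2], h.m2 a b k l hab hkl⟩
  · refine ⟨e k + e l, by simp [h.Be, h.ce, hak.symm, hal.symm],
      by simp [h.Be, h.ce, hbk.symm, hbl.symm], by simp [h.Be', h2], ?_⟩
    have := R.mul_mem (R.mul_mem (h.m1 l) (h.m2 a b k l hab hkl)) (R.inv_mem (h.m1 l))
    rwa [← conj_mul, refl_conj, refl_conj, refl_apply_of_orth (by simp [h.Be', h.ce, hal, hbl]),
      show (refl Q (e l)).1 (e k - e l) = e k + e l from h.ext fun i => by
        simp only [h.c_refl, map_sub, map_add, h.ce]; grind] at this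

theorem al_of_root (h : RR5 Q e c κ R) {v : V} (hv : Un R κ v) (h1 : 2 ≤ (supp c v).card)
    (h2 : ¬ NT c v) : Al Q e R := by
  have h3 : (supp c v).card = 2 := by
    by_contra h3
    exact h2 (Or.inl (by omega))
  obtain ⟨i, j, hij, h4⟩ := Finset.card_eq_two.1 h3
  have h5 : ∀ l, c l v ≠ 0 ↔ l = i ∨ l = j := fun l => by simp [← mem_supp, h4]
  have h6 : ∀ l, c l v ≠ 0 → 2 * c l v ^ 2 = 1 := fun l hl => by_contra fun a =>
    h2 (Or.inr ⟨h1, l, hl, a⟩)
  have hi := (h5 i).2 (by simp)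
  have h7 := (h.un_sgn hv (v := c i v • (e i - e j)) fun l => by
    have := h6 j ((h5 j).2 (by simp))
    have := h6 i hi
    have := h.two
    have := h5 l
    simp only [map_smul, map_sub, h.ce, smul_eq_mul]
    grind).2
  rw [refl_smul hi] at h7
  exact fun a b hab => (R.mul_mem_cancel_right h7).1 (h.m2 a b i j hab hij)

theorem q8 (h : RR5 Q e c κ R) {u : V} (hu : Un R κ u) {a b : ι} (hab : a ≠ b) (h1 : Ok Q e R u a b)
    (h2 : ¬ (c a u = 0 ∧ c b u = 0)) (h3 : c a u ^ 2 + c b u ^ 2 ≠ 1)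
    (h4 : 2 * (c a u ^ 2 + c b u ^ 2) ≠ 1) :
    (∀ v ∈ Submodule.span F ({e a, e b, u - c a u • e a - c b u • e b} : Set V), Q v = κ → Un R κ v) ∧
    ∀ d ∈ Submodule.span F ({e a, e b, u - c a u • e a - c b u • e b} : Set V),
      ∀ w ∈ Submodule.span F ({e a, e b, u - c a u • e a - c b u • e b} : Set V),
      Q d = 0 → polar Q d w = 0 → w ∈ TF R d := by
  obtain ⟨ρ, r1, r2, r3, r4⟩ := h1
  set y := u - c a u • e a - c b u • e b with hy
  have hκ := h.hκ
  have e1 : c a u • e a + c b u • e b + y = u := by rw [hy]; abel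
  have e2 : polar Q y (e a) = 0 := by simp [hy, h.Be', h.ce, hab]
  have e3 : polar Q y (e b) = 0 := by simp [hy, h.Be', h.ce, hab.symm]
  have e4 : polar Q (e a) (e b) = 0 := by simp [h.Be, h.ce, hab]
  have e5 : Q y = κ * (1 - (c a u ^ 2 + c b u ^ 2)) := by
    have := hu.1
    rw [← e1] at this
    simp only [Q_add, Q_smul, polar_add_left, B_smul_left, B_smul_right, B_symm e2, B_symm e3, e4,
      h.Qe] at this
    linear_combination this
  have e6 : ∀ x, polar Q x ρ = 0 → Commute (refl Q x) (refl Q ρ) := fun x hx =>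
    commute_refl_refl hx
  obtain ⟨h5, h6⟩ := eight h.nd h.prime h.two (Γ := comp R (Subgroup.zpowers (refl Q ρ)))
    (s := c a u) (t := c b u) (h.Qe_ne a) (by rw [h.Qe, h.Qe]) e4 e2 e3
    (e5 ▸ mul_ne_zero hκ (sub_ne_zero.2 h3.symm)) h2 (by rw [e1, hu.1]; exact hκ)
    (by rw [e1, hu.1, e5]; exact fun e => h4 (mul_left_cancel₀ hκ (by linear_combination e)))
    (mem_comp_zpowers (e6 _ r1) (Or.inl (h.m1 a)))
    (mem_comp_zpowers (e6 _ (by simp [r1, r2])) (Or.inr r4))
    (mem_comp_zpowers (e6 _ (by rwa [e1])) (Or.inl (e1.symm ▸ hu.2)))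
  refine ⟨fun v hv hq => ?_, fun d hd w hw h7 h8 => ⟨h8, fun t => ?_⟩⟩
  · obtain ⟨γ, ⟨-, σ, h7, h8⟩, ε, h9, h10⟩ := h5 v hv (hq.trans (h.Qe a).symm)
    have h11 := ((h.un_e a).apply h8).2
    rw [O.mul_apply, movIn_fix h.nd (Subgroup.zpowers_le.2 (refl_mem_movIn
      (Submodule.mem_span_singleton_self _)) h7) (fun w hw => by
        obtain ⟨t, rfl⟩ := Submodule.mem_span_singleton.1 hw
        simp [r1]), h10, refl_smul h9] at h11
    exact ⟨hq, h11⟩
  · obtain ⟨γ, ⟨h9, σ, h10, h11⟩, h12⟩ := h6 d hd _ (Submodule.smul_mem _ t hw) h7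
      (by rw [B_smul_right, h8, mul_zero])
    have := R.mul_mem h11 h11
    obtain ⟨n, rfl⟩ := id h10
    rwa [mul_assoc, ← mul_assoc _ γ, ← (h9 _ h10).eq, mul_assoc γ, ← mul_assoc γ, h12,
      ← (Commute.refl _).mul_zpow, refl_mul_self, one_zpow, mul_one] at this

theorem fin (h : RR5 Q e c κ R) {i j k : ι} (hij : i ≠ j) (hik : i ≠ k) (hjk : j ≠ k) {α β : F}
    (h0 : 1 + α ^ 2 + β ^ 2 = 0) (h1 : β • e j - α • e k ∈ TF R (e i + α • e j + β • e k))
    (h2 : ∀ l, l ≠ i → l ≠ j → l ≠ k → e l ∈ TF R (e i + α • e j + β • e k)) : Om Q ≤ R := by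
  have hd : Q (e i + α • e j + β • e k) = 0 := by
    simp only [Q_add, Q_smul, polar_add_left, B_smul_left, h.Qe, h.Be, h.ce, hij, hik,
      hjk, if_false, map_smul, smul_eq_mul]
    linear_combination κ * h0
  have hn : finrank F V ≠ 2 := fun hn => by
    have := finrank_span_three (F := F) (a := e i) (b := e j) (c := e k) fun s t u h3 =>
      ⟨by simpa [h.ce, hij, hik] using congrArg (c i) h3,
        by simpa [h.ce, hij.symm, hjk] using congrArg (c j) h3,
        by simpa [h.ce, hik.symm, hjk.symm] using congrArg (c k) h3⟩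
    have := (Submodule.span F ({e i, e j, e k} : Set V)).finrank_le
    omega
  refine Om_le_of_TF' h.nd (good_of_two_ne_zero h.nd h.two) hn hd (fun w hw => ?_) (h.m1 i) ?_
  · simp only [polar_add_left, B_smul_left, h.Be] at hw
    have h3 : c i w + α * c j w + β * c k w = 0 :=
      mul_left_cancel₀ (mul_ne_zero h.two h.hκ) (by linear_combination hw)
    have := Submodule.add_mem _ (Submodule.add_mem _ (Submodule.smul_mem _ (c i w) (self_mem_TF hd))
      (Submodule.smul_mem _ (α * c k w - β * c j w) h1))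
      (h.mem_of_coord (x := w - (c i w • (e i + α • e j + β • e k) +
        (α * c k w - β * c j w) • (β • e j - α • e k))) fun l hl => h2 l ?_ ?_ ?_)
    · rwa [add_sub_cancel] at this
    all_goals rintro rfl; apply hl
    · simp [h.ce, hij, hik]
    · simp [h.ce, hij.symm, hjk]; linear_combination c l w * h0 - α * h3
    · simp [h.ce, hik.symm, hjk.symm]; linear_combination c l w * h0 - β * h3
  · rw [refl_apply, polar_sub_right, B_sing hd, B_smul_right, h.Be', h.Qe]
    simp [h.ce, hij, hik, h.two, h.hκ]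

theorem of_three (h : RR5 Q e c κ R) (h3 : (3 : F) ≠ 0) {u : V} (hu : Un R κ u) {i j k : ι}
    (hij : i ≠ j) (hik : i ≠ k) (hjk : j ≠ k) (hs : ∀ l, l ≠ i → l ≠ j → l ≠ k → c l u = 0)
    (hi : c i u ≠ 0) (hi' : 2 * c i u ^ 2 ≠ 1) (hj : c j u ≠ 0) : Om Q ≤ R := by
  have hκ := h.hκ
  have h2 := h.two
  obtain ⟨m, hm⟩ := exists_notMem_list [i, j, k] (by have := h.five; simp; omega)
  obtain ⟨n, hn⟩ := exists_notMem_list [i, j, k, m] (by have := h.five; simp; omega)
  simp only [List.mem_cons, List.not_mem_nil, or_false, not_or] at hm hn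
  have e1 : u - c j u • e j - c k u • e k = c i u • e i := h.ext fun l => by
    by_cases h4 : l = i
    · simp [h.ce, h4, hij, hik]
    by_cases h5 : l = j
    · simp [h.ce, h5, hij.symm, hjk]
    by_cases h6 : l = k
    · simp [h.ce, h6, hik.symm, hjk.symm]
    simp [h.ce, h4, h5, h6, hs l h4 h5 h6]
  have hQ : ∀ s t w : F, Q (s • e i + t • e j + w • e k) = κ * (s ^ 2 + t ^ 2 + w ^ 2) :=
    fun s t w => by
      simp only [Q_add, Q_smul, polar_add_left, B_smul_left, h.Qe, h.Be, h.ce, hij, hik,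
        hjk, if_false, map_smul, smul_eq_mul]
      ring
  have e2 : c i u ^ 2 + c j u ^ 2 + c k u ^ 2 = 1 := mul_left_cancel₀ hκ (by
    rw [← hQ, ← e1, mul_one, ← hu.1]; congr 1; abel)
  obtain ⟨h4, h5⟩ := h.q8 hu hjk (h.ok_of_sq hjk hn.2.2.2
    (by rw [hs n hn.1 hn.2.1 hn.2.2.1, hs m hm.1 hm.2.1 hm.2.2])
    hn.2.1 hm.2.1 hn.2.2.1 hm.2.2) (fun h => hj h.1)
    (fun e => pow_ne_zero 2 hi (by linear_combination e2 - e))
    (fun e => hi' (by linear_combination 2 * e2 - e))
  rw [e1] at h4 h5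
  have hm' : ∀ s t w : F, s • e i + t • e j + w • e k ∈
      Submodule.span F ({e j, e k, c i u • e i} : Set V) := fun s t w =>
    Submodule.mem_span_triple.2 ⟨t, w, s / c i u, by
      rw [smul_smul, div_mul_cancel₀ _ hi]; abel⟩
  have h6 : ∀ α β : F, 1 + α ^ 2 + β ^ 2 = 0 → Q (e i + α • e j + β • e k) = 0 ∧
      β • e j - α • e k ∈ TF R (e i + α • e j + β • e k) := fun α β h6 => by
    have h7 := hQ 1 α β
    rw [one_smul, one_pow, h6, mul_zero] at h7
    refine ⟨h7, h5 _ (by simpa using hm' 1 α β) _ (by simpa [sub_eq_add_neg] using hm' 0 β (-α)) h7 ?_⟩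
    simp [h.Be, h.ce, hij, hik, hjk, hjk.symm]
    ring
  by_cases h7 : (5 : F) = 0
  · obtain ⟨h8, h9⟩ := h6 2 0 (by linear_combination h7)
    refine h.fin hij hik hjk (by linear_combination h7) h9 fun l l1 l2 l3 => ?_
    have := TF_fix (h.m2 k l n m (Ne.symm l3) hn.2.2.2) (by
      rw [O.mul_apply, h.sw_fix (a := n) (by simp [h.ce, hm, hn]),
        h.sw_fix (by simp [h.ce, l1, l2, hik.symm, hjk.symm])]) h9
    rw [O.mul_apply, h.sw_fix (a := n) (by simp [h.ce, hm, hn]), zero_smul F (e j), zero_sub,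
      map_neg, map_smul,
      refl_sub_apply (by rw [h.Qe, h.Qe]) (h.Q_sub (Ne.symm l3) ▸ mul_ne_zero h2 hκ)] at this
    exact (Submodule.smul_mem_iff _ h2).1 (neg_mem_iff.1 this)
  obtain ⟨α, β, h8⟩ := exists_binary_eq h2 one_ne_zero one_ne_zero (-1 : F)
  obtain ⟨h9, h10⟩ := h6 α β (by linear_combination h8)
  refine h.fin hij hik hjk (by linear_combination h8) h10 fun l l1 l2 l3 => ?_
  have h44 : (4 : F) ≠ 0 := by rw [show (4 : F) = 2 * 2 by norm_num]; exact mul_ne_zero h2 h2
  have h11 := h.un_sw (h4 _ (hm' (5 / 4) (3 / 4 * β) (-(3 / 4 * α))) (by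
    rw [hQ]; field_simp; linear_combination 9 * h8)) (Ne.symm l1) hn.2.2.2 (by simp [h.ce, hm, hn])
  rw [map_add, map_add, map_smul, map_smul, map_smul,
    refl_sub_apply (by rw [h.Qe, h.Qe]) (h.Q_sub (Ne.symm l1) ▸ mul_ne_zero h2 hκ),
    h.sw_fix (by simp [h.ce, hij, l2]), h.sw_fix (by simp [h.ce, hik, l3]),
    show (5 / 4 : F) • e l + (3 / 4 * β) • e j + -(3 / 4 * α) • e k =
      (5 / 4 : F) • e l + (3 / 4 : F) • (β • e j - α • e k) by module] at h11
  have h12 := mem_of_refl_mem (h11.1 ▸ hκ) (by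
      simp only [polar_add_right, polar_sub_right, B_smul_right, h.Be', map_sub, map_smul, h.ce,
        l2, l3, hjk, hjk.symm, if_false, if_true, smul_eq_mul]
      intro e
      refine mul_ne_zero (mul_ne_zero h2 hκ) h3 ?_
      field_simp at e
      linear_combination 2 * κ * 3 * h8 - e) h10 (TF_fix h11.2 (refl_apply_of_orth (by
      simp [h.Be', h.ce, l1, l2, l3, hij.symm, hik.symm, hjk, hjk.symm, mul_comm]
      left; ring)) h10)
  have := Submodule.sub_mem _ h12 (Submodule.smul_mem _ (3 / 4 : F) h10)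
  rwa [add_sub_cancel_right, Submodule.smul_mem_iff _ (div_ne_zero h7 h44)] at this

theorem of_four (h : RR5 Q e c κ R) (h3 : (3 : F) = 0) {u : V} (hu : Un R κ u) {i j k m : ι}
    (hij : i ≠ j) (hik : i ≠ k) (him : i ≠ m) (hjk : j ≠ k) (hjm : j ≠ m) (hkm : k ≠ m)
    (hs : supp c u = {i, j, k, m}) : Om Q ≤ R := by
  have hκ := h.hκ
  have h2 := h.two
  have h4 : ∀ l, c l u ^ 2 = if l = i ∨ l = j ∨ l = k ∨ l = m then 1 else 0 := fun l => by
    split_ifs with h4
    · exact sq_eq_one_of_three h.prime h3 (mem_supp.1 (by simpa [hs] using h4))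
    · rw [notMem_supp.1 (by simpa [hs, not_or] using h4)]; ring
  have h5 : ∀ (v : V) (p l : ι), p ≠ l → (∀ n, c n v ^ 2 = c (Equiv.swap p l n) u ^ 2) → Un R κ v :=
    fun v p l h5 h6 => h.un_sgn (h.un_sw' hu h5 hij (by simp [h4])) fun n => by
      rw [h6, h.c_sw h5]
  have h6 : ∀ t : F, t = 0 ∨ t = 1 ∨ t = -1 := fun t => or_iff_not_imp_left.2 fun ht =>
    sq_eq_one_iff.1 (sq_eq_one_of_three h.prime h3 ht)
  have hd : Q (e i + (1 : F) • e j + (1 : F) • e k) = 0 := by
    simp only [Q_add, one_smul, polar_add_left, h.Qe, h.Be, h.ce, hij, hik, hjk, if_false]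
    linear_combination κ * h3
  have h7 : ∀ l, l ≠ i → l ≠ j → l ≠ k → e l ∈ TF R (e i + (1 : F) • e j + (1 : F) • e k) :=
    fun l l1 l2 l3 => by
      refine mem_TF_of_refl hd (h.Qe_ne l) (by simp [h.Be', h.ce, l1, l2, l3]) fun t => ?_
      refine R.mul_mem ?_ (h.m1 l)
      by_cases ht : t = 0
      · simpa [ht] using h.m1 l
      have h8 := sq_eq_one_of_three h.prime h3 ht
      by_cases hl : l = m
      · refine (h.un_sgn hu fun n => ?_).2
        simp only [h4, map_add, map_smul, h.ce, smul_eq_mul]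
        grind
      · refine (h5 _ m l (Ne.symm hl) fun n => ?_).2
        simp only [h4, map_add, map_smul, h.ce, smul_eq_mul, Equiv.swap_apply_def]
        grind
  obtain ⟨l, hl⟩ := exists_notMem_list [i, j, k, m] (by have := h.five; simp; omega)
  simp only [List.mem_cons, List.not_mem_nil, or_false, not_or] at hl
  obtain ⟨l1, l2, l3, l4⟩ := hl
  have h8 : ∀ t : F, Un R κ ((1 : F) • e j - (1 : F) • e k + e m + e l +
      t • (e i + (1 : F) • e j + (1 : F) • e k)) := fun t => by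
    rcases h6 t with rfl | rfl | rfl
    · refine h5 _ i l (Ne.symm l1) fun n => ?_
      simp only [h4, map_add, map_sub, map_smul, h.ce, smul_eq_mul, Equiv.swap_apply_def]
      grind
    · refine h5 _ k l (Ne.symm l3) fun n => ?_
      simp only [h4, map_add, map_sub, map_smul, h.ce, smul_eq_mul, Equiv.swap_apply_def]
      grind
    · refine h5 _ j l (Ne.symm l2) fun n => ?_
      simp only [h4, map_add, map_sub, map_smul, h.ce, smul_eq_mul, Equiv.swap_apply_def]
      grind
  have h9 := h8 0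
  rw [zero_smul, add_zero] at h9
  have h10 := mem_TF_of_refl hd (h9.1 ▸ hκ) (by
    simp [h.Be', h.ce, l1, l2, l3, hij.symm, hik.symm, him.symm, hjk, hjk.symm, hjm.symm, hkm.symm])
    fun t => R.mul_mem (h8 t).2 h9.2
  refine h.fin hij hik hjk (by linear_combination h3) ?_ h7
  simpa using Submodule.sub_mem _ (Submodule.sub_mem _ h10 (h7 l l1 l2 l3))
    (h7 m him.symm hjm.symm hkm.symm)

theorem dt3 (h : RR5 Q e c κ R) {u : V} (hu : Un R κ u) (hs : 6 ≤ (supp c u).card) :
    ∃ v, Un R κ v ∧ 3 ≤ (supp c v).card ∧ (supp c v).card < (supp c u).card := by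
  have hκ := h.hκ
  have h2 := h.two
  obtain ⟨i, j, k, hi, hj, hk, hij, hik, hjk, hN⟩ : ∃ i j k, c i u ≠ 0 ∧ c j u ≠ 0 ∧ c k u ≠ 0 ∧
      i ≠ j ∧ i ≠ k ∧ j ≠ k ∧ c j u ^ 2 + c k u ^ 2 ≠ c i u ^ 2 := by
    obtain ⟨i, j, k, hi, hj, hk, hij, hik, hjk⟩ := Finset.two_lt_card_iff.1 (by omega : 2 < (supp c u).card)
    rw [mem_supp] at hi hj hk
    by_cases h1 : c j u ^ 2 + c k u ^ 2 = c i u ^ 2
    · refine ⟨j, i, k, hj, hi, hk, hij.symm, hjk, hik, fun h3 => ?_⟩
      exact mul_ne_zero h2 (pow_ne_zero 2 hk) (by linear_combination h1 + h3)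
    · exact ⟨i, j, k, hi, hj, hk, hij, hik, hjk, h1⟩
  set τ := refl Q (e i) * (refl Q (e j) * refl Q (e k)) with hτ
  have h3 : ∀ l x, c l (τ.1 x) = if l = i ∨ l = j ∨ l = k then -c l x else c l x := fun l x => by
    simp only [hτ, O.mul_apply, h.c_refl]
    grind
  set b := c i u • e i + c j u • e j + c k u • e k with hb
  have h4 : ∀ l, c l b = if l = i ∨ l = j ∨ l = k then c l u else 0 := fun l => by
    simp only [hb, map_add, map_smul, h.ce, smul_eq_mul]
    grind
  have h5 : ∀ v, Un R κ v → (∀ l, c l v ≠ 0 ↔ l = i ∨ l = j ∨ l = k) →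
      ∃ v, Un R κ v ∧ 3 ≤ (supp c v).card ∧ (supp c v).card < (supp c u).card := fun v hv h5 => by
    have : (supp c v).card = 3 := Finset.card_eq_three.2 ⟨i, j, k, hij, hik, hjk, by
      ext l; simp [mem_supp, h5]⟩
    exact ⟨v, hv, by omega, by omega⟩
  have h6 : ∀ (t : F) (x : V), Q (t • x) = Q (u - b + b) → t ≠ 0 ∧ Q (t • x) = κ := fun t x h6 => by
    rw [sub_add_cancel, hu.1] at h6
    exact ⟨by rintro rfl; exact hκ (by simpa using h6.symm), h6⟩
  have hτb : τ.1 b = -b := h.ext fun l => by rw [h3, map_neg, h4]; split_ifs <;> simp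
  have hτa : τ.1 (u - b) = u - b := h.ext fun l => by rw [h3, map_sub, h4]; split_ifs <;> simp
  have hτe : τ.1 (e i) = -e i := h.ext fun l => by
    rw [h3, map_neg, h.ce]; split_ifs <;> simp_all
  rcases refl_invol_cases h.nd h2 (τ := τ) (R.mul_mem (h.m1 i) (R.mul_mem (h.m1 j) (h.m1 k)))
    (O.ext fun x => h.ext fun l => by rw [O.mul_apply, h3, h3, O.one_apply]; split_ifs <;> simp)
    (fun v hv h7 => by
      have e1 := h3 i (e i)
      have e2 := h3 j (e i)
      have e3 := h3 j (e j)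
      simp only [h7, refl_apply, map_sub, map_smul, h.ce, smul_eq_mul, hij.symm, if_true, if_false,
        true_or, or_true] at e1 e2 e3
      generalize (Q v)⁻¹ * polar Q (e i) v = x, (Q v)⁻¹ * polar Q (e j) v = y at e1 e2 e3
      exact mul_ne_zero h2 h2 (by linear_combination 2 * e1 + x * c i v * e3 - y * c i v * e2)) hτa hτb (by rw [sub_add_cancel, hu.1]; exact hκ) (by rw [sub_add_cancel]; exact hu.2)
    with ⟨t, h7, h8⟩ | ⟨t, h7, h8⟩ | ⟨γ, h7, h8, h9, h10, h11⟩
  · obtain ⟨h9, h10⟩ := h6 t _ h7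
    have h11 : supp c (t • (u - b)) = supp c u \ {i, j, k} := by
      ext l
      simp only [mem_supp, map_smul, map_sub, h4, Finset.mem_sdiff, Finset.mem_insert,
        Finset.mem_singleton, smul_eq_mul]
      split_ifs with h11 <;> simp [h11, h9]
    have h12 := Finset.le_card_sdiff {i, j, k} (supp c u)
    have h13 : ({i, j, k} : Finset ι).card ≤ 3 := Finset.card_le_three
    refine ⟨_, ⟨h10, by rwa [refl_smul h9]⟩, by rw [h11]; omega, Finset.card_lt_card ?_⟩
    rw [h11]
    exact ⟨Finset.sdiff_subset, fun h14 => by simpa using h14 (mem_supp.2 hi)⟩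
  · obtain ⟨h9, h10⟩ := h6 t _ h7
    refine h5 _ ⟨h10, by rwa [refl_smul h9]⟩ fun l => ?_
    rw [map_smul, h4, smul_eq_mul]
    clear * - h9 hi hj hk
    grind
  · obtain ⟨s, t, hst⟩ := Submodule.mem_span_pair.1 (h10 (e i))
    have e1 : γ.1 (e i) = e i - s • (u - b) - t • b := by linear_combination (norm := module) hst
    have e2 := congrArg (fun g : O Q => g.1 (e i)) h11.eq
    simp only [O.mul_apply] at e2
    rw [hτe, map_neg, e1, map_sub _ (e i - _), map_sub _ (e i), map_smul, map_smul, hτa, hτb,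
      hτe] at e2
    rw [eq_zero_of_eq_neg h2 (x := s • (u - b)) (by linear_combination (norm := module) e2),
      sub_zero] at e1
    have e3 := O.map_B γ b (e i)
    rw [h9, e1, polar_neg_left, polar_sub_right, B_smul_right, h.Be'] at e3
    nth_rewrite 3 [hb] at e3
    simp only [polar_add_right, B_smul_right, h.Be', h4, true_or, or_true, if_true] at e3
    have e4 : t * (c i u ^ 2 + c j u ^ 2 + c k u ^ 2) = 2 * c i u :=
      mul_left_cancel₀ (mul_ne_zero h2 hκ) (by linear_combination e3)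
    refine h5 _ ((h.un_e i).apply h7) fun l => ?_
    rw [e1, map_sub, map_smul, h4, h.ce, smul_eq_mul]
    clear * - e4 hi hj hk hij hik hN h2
    grind

theorem red (h : RR5 Q e c κ R) (h3 : (3 : F) ≠ 0) {u : V} (hu : Un R κ u)
    (hs : 4 ≤ (supp c u).card) {a b : ι} (hab : a ≠ b) (hk : Ok Q e R u a b) (ha : c a u ≠ 0)
    (hb : c b u ≠ 0) (h4 : ¬ (c a u ^ 2 + c b u ^ 2 = 1 ∨ 2 * (c a u ^ 2 + c b u ^ 2) = 1)) :
    ∃ v, Un R κ v ∧ NT c v ∧ (supp c v).card < (supp c u).card ∧
      ∃ t : F, ∀ l, l ≠ a → l ≠ b → c l v = t * c l u := by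
  obtain ⟨h5, -⟩ := h.q8 hu hab hk
    (fun h => ha h.1) (fun e => h4 (Or.inl e)) fun e => h4 (Or.inr e)
  obtain ⟨α, t, h6, h7, h8⟩ := exists_conic h.two h3 (1 - (c a u ^ 2 + c b u ^ 2))
  set y := u - c a u • e a - c b u • e b with hy
  have e1 : ∀ m, c m (α • e a + t • y) = if m = a then α else if m = b then 0 else t * c m u :=
    fun m => by
      simp only [hy, map_add, map_sub, map_smul, h.ce, smul_eq_mul]
      grind
  have e2 : (supp c u \ {a, b}) ⊆ supp c (α • e a + t • y) := fun m => by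
    simp only [mem_supp, e1, Finset.mem_sdiff, Finset.mem_insert, Finset.mem_singleton]
    grind
  have e3 := Finset.le_card_sdiff {a, b} (supp c u)
  have e4 : ({a, b} : Finset ι).card ≤ 2 := Finset.card_le_two
  refine ⟨α • e a + t • y, h5 _ (Submodule.mem_span_triple.2 ⟨α, 0, t, by simp⟩) ?_, ?_,
    Finset.card_lt_card ⟨fun m => ?_, fun h9 => ?_⟩, t, fun m h9 h10 => by simp [e1, h9, h10]⟩
  · simp only [hy, Q_add, Q_sub, Q_smul, B_smul_left, B_smul_right, h.Be, h.Be', h.Qe,
      hu.1, map_sub, map_smul, h.ce, hab, hab.symm, if_true, if_false, smul_eq_mul]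
    linear_combination κ * h7
  · rcases h8 with h8 | h8
    · have := Finset.card_le_card (Finset.insert_subset (a := a) (mem_supp.2 (by rwa [e1, if_pos rfl])) e2)
      rw [Finset.card_insert_of_notMem (by simp)] at this
      exact Or.inl (by omega)
    · have := Finset.card_le_card e2
      obtain ⟨m, hm⟩ := Finset.card_pos.1 (by omega : 0 < (supp c (α • e a + t • y)).card)
      exact Or.inr ⟨by omega, m, mem_supp.1 hm, two_sq_ne_of_five h.prime h8 _⟩
  · simp only [mem_supp, e1]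
    grind
  · simpa [mem_supp, e1, hab.symm] using h9 (mem_supp.2 hb)

theorem dich (h : RR5 Q e c κ R) (hA : ¬ Al Q e R) {u : V} (hu : Un R κ u)
    (hs : 4 ≤ (supp c u).card) {i j : ι} (hij : i ≠ j) (hi : c i u ≠ 0) (hj : c j u ≠ 0)
    (hN : c i u ^ 2 ≠ c j u ^ 2) : ∃ v, Un R κ v ∧ NT c v ∧ (supp c v).card < (supp c u).card := by
  have hκ := h.hκ
  have h2 := h.two
  set τ := refl Q (e i) * refl Q (e j) with hτ
  have h3 : ∀ l x, c l (τ.1 x) = if l = i ∨ l = j then -c l x else c l x := fun l x => by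
    simp only [hτ, O.mul_apply, h.c_refl]
    grind
  set b := c i u • e i + c j u • e j with hb
  have h4 : ∀ l, c l b = if l = i ∨ l = j then c l u else 0 := fun l => by
    simp only [hb, map_add, map_smul, h.ce, smul_eq_mul]
    grind
  have h5 : ∀ v, Un R κ v → (∀ l, c l v ≠ 0 ↔ l = i ∨ l = j) →
      ∃ v, Un R κ v ∧ NT c v ∧ (supp c v).card < (supp c u).card := fun v hv h5 => by
    have : (supp c v).card = 2 := Finset.card_eq_two.2 ⟨i, j, hij, by ext l; simp [mem_supp, h5]⟩
    exact ⟨v, hv, by_contra fun a => hA (h.al_of_root hv this.ge a), by omega⟩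
  have h6 : ∀ (t : F) (x : V), Q (t • x) = Q (u - b + b) → t ≠ 0 ∧ Q (t • x) = κ := fun t x h6 => by
    rw [sub_add_cancel, hu.1] at h6
    exact ⟨by rintro rfl; exact hκ (by simpa using h6.symm), h6⟩
  have hτb : τ.1 b = -b := h.ext fun l => by rw [h3, map_neg, h4]; split_ifs <;> simp
  have hτa : τ.1 (u - b) = u - b := h.ext fun l => by rw [h3, map_sub, h4]; split_ifs <;> simp
  have hτe : τ.1 (e i) = -e i := h.ext fun l => by
    rw [h3, map_neg, h.ce]; split_ifs <;> simp_all
  rcases refl_invol_cases h.nd h2 (τ := τ) (R.mul_mem (h.m1 i) (h.m1 j))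
    (O.ext fun x => h.ext fun l => by rw [O.mul_apply, h3, h3, O.one_apply]; split_ifs <;> simp)
    (fun v hv h7 => by
      have e1 := h3 i (e i)
      have e2 := h3 j (e i)
      have e3 := h3 j (e j)
      simp only [h7, refl_apply, map_sub, map_smul, h.ce, smul_eq_mul, hij.symm, if_true, if_false,
        true_or, or_true] at e1 e2 e3
      generalize (Q v)⁻¹ * polar Q (e i) v = x, (Q v)⁻¹ * polar Q (e j) v = y at e1 e2 e3
      exact mul_ne_zero h2 h2 (by linear_combination 2 * e1 + x * c i v * e3 - y * c i v * e2))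
    hτa hτb (by rw [sub_add_cancel, hu.1]; exact hκ) (by rw [sub_add_cancel]; exact hu.2)
    with ⟨t, h7, h8⟩ | ⟨t, h7, h8⟩ | ⟨γ, h7, h8, h9, h10, h11⟩
  · obtain ⟨h9, h10⟩ := h6 t _ h7
    have h11 : supp c (t • (u - b)) = supp c u \ {i, j} := by
      ext l
      simp only [mem_supp, map_smul, map_sub, h4, Finset.mem_sdiff, Finset.mem_insert,
        Finset.mem_singleton, smul_eq_mul]
      split_ifs with h11 <;> simp [h11, h9]
    have h12 := Finset.le_card_sdiff {i, j} (supp c u)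
    have h13 : ({i, j} : Finset ι).card ≤ 2 := Finset.card_le_two
    have h14 : Un R κ (t • (u - b)) := ⟨h10, by rwa [refl_smul h9]⟩
    refine ⟨_, h14, by_contra fun a => hA (h.al_of_root h14 (by rw [h11]; omega) a),
      Finset.card_lt_card ?_⟩
    rw [h11]
    exact ⟨Finset.sdiff_subset, fun h14 => by simpa using h14 (mem_supp.2 hi)⟩
  · obtain ⟨h9, h10⟩ := h6 t _ h7
    refine h5 _ ⟨h10, by rwa [refl_smul h9]⟩ fun l => ?_
    rw [map_smul, h4, smul_eq_mul]
    clear * - h9 hi hj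
    grind
  · obtain ⟨s, t, hst⟩ := Submodule.mem_span_pair.1 (h10 (e i))
    have e1 : γ.1 (e i) = e i - s • (u - b) - t • b := by linear_combination (norm := module) hst
    have e2 := congrArg (fun g : O Q => g.1 (e i)) h11.eq
    simp only [O.mul_apply] at e2
    rw [hτe, map_neg, e1, map_sub _ (e i - _), map_sub _ (e i), map_smul, map_smul, hτa, hτb,
      hτe] at e2
    rw [eq_zero_of_eq_neg h2 (x := s • (u - b)) (by linear_combination (norm := module) e2),
      sub_zero] at e1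
    have e3 := O.map_B γ b (e i)
    rw [h9, e1, polar_neg_left, polar_sub_right, B_smul_right, h.Be'] at e3
    nth_rewrite 3 [hb] at e3
    simp only [polar_add_right, B_smul_right, h.Be', h4, true_or, or_true, if_true] at e3
    have e4 : t * (c i u ^ 2 + c j u ^ 2) = 2 * c i u :=
      mul_left_cancel₀ (mul_ne_zero h2 hκ) (by linear_combination e3)
    refine h5 _ ((h.un_e i).apply h7) fun l => ?_
    rw [e1, map_sub, map_smul, h4, h.ce, smul_eq_mul]
    clear * - e4 hi hj hij hN h2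
    grind

theorem step (h : RR5 Q e c κ R) (h3 : (3 : F) ≠ 0) {u : V} (hu : Un R κ u)
    (hs : 4 ≤ (supp c u).card) (hs' : (supp c u).card ≤ 5) :
    ∃ v, Un R κ v ∧ NT c v ∧ (supp c v).card < (supp c u).card := by
  have hκ := h.hκ
  have h2 := h.two
  have key : ∀ u, Un R κ u → 4 ≤ (supp c u).card → (supp c u).card ≤ 5 →
      (∃ v, Un R κ v ∧ NT c v ∧ (supp c v).card < (supp c u).card) ∨
      ((supp c u).card = 4 ∧ ∀ l, c l u ≠ 0 → 4 * c l u ^ 2 = 1) := fun u hu hs hs' => by
    refine or_iff_not_imp_left.2 fun h4 => ?_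
    by_cases hA : Al Q e R
    swap
    · have h5 : ∀ a ∈ supp c u, ∀ b ∈ supp c u, c b u ^ 2 = c a u ^ 2 := fun a ha b hb =>
        by_contra fun h5 => h4 (h.dich hA hu hs (by rintro rfl; exact h5 rfl) (mem_supp.1 hb)
          (mem_supp.1 ha) h5)
      have h6 : ∀ a ∈ supp c u, ((supp c u).card : F) * c a u ^ 2 = 1 := fun a ha => by
        rw [← h.sum_supp hu.1, Finset.sum_congr rfl (h5 a ha), Finset.sum_const, nsmul_eq_mul]
      rcases hs.eq_or_lt with h8 | h8
      · exact ⟨h8.symm, fun l hl => by simpa [← h8] using h6 l (mem_supp.2 hl)⟩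
      · obtain ⟨s, h9, h10⟩ := Finset.exists_subset_card_eq hs
        obtain ⟨a, b, k, l, hab, hak, hal, hbk, hbl, hkl, rfl⟩ := Finset.card_eq_four.1 h10
        have ha := h9 (show a ∈ _ by simp)
        have hb := h9 (show b ∈ _ by simp)
        have h11 := h6 a ha
        rw [show (supp c u).card = 5 by omega] at h11
        obtain ⟨v, h6, h7, h8, -⟩ := h.red h3 hu hs hab (h.ok_of_sq hab hkl
          (h5 l (h9 (by simp)) k (h9 (by simp))) hak.symm hal.symm hbk.symm hbl.symm)
          (mem_supp.1 ha) (mem_supp.1 hb) (by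
            rw [h5 a ha b hb]
            have := mem_supp.1 ha
            push_cast at h11
            grind)
        exact absurd ⟨v, h6, h7, h8⟩ h4
    have h5 : ∀ a b, a ≠ b → a ∈ supp c u → b ∈ supp c u →
        c a u ^ 2 + c b u ^ 2 = 1 ∨ 2 * (c a u ^ 2 + c b u ^ 2) = 1 := fun a b hab ha hb =>
      by_contra fun h5 => by
        obtain ⟨v, h6, h7, h8, -⟩ := h.red h3 hu hs hab (hA.ok u hab) (mem_supp.1 ha) (mem_supp.1 hb) h5
        exact h4 ⟨v, h6, h7, h8⟩
    have h6 := h.sum_supp hu.1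
    have h7 : ∀ l ∈ supp c u, c l u ^ 2 ≠ 0 := fun l hl => pow_ne_zero 2 (mem_supp.1 hl)
    rcases hs.eq_or_lt with h8 | h8
    · obtain ⟨i, j, k, m, hij, hik, him, hjk, hjm, hkm, h9⟩ := Finset.card_eq_four.1 h8.symm
      rw [h9] at h5 h6
      rw [Finset.sum_insert (by simp [hij, hik, him]), Finset.sum_insert (by simp [hjk, hjm]),
        Finset.sum_pair hkm] at h6
      obtain ⟨e1, e2, e3, e4⟩ := all_four h2 h6 (fun _ _ => id) (h5 i j hij (by simp) (by simp))
        (h5 i k hik (by simp) (by simp)) (h5 i m him (by simp) (by simp))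
        (h5 j k hjk (by simp) (by simp)) (h5 j m hjm (by simp) (by simp))
        (h5 k m hkm (by simp) (by simp))
      refine ⟨h8.symm, fun l hl => ?_⟩
      have := mem_supp.2 hl
      simp only [h9, Finset.mem_insert, Finset.mem_singleton] at this
      rcases this with rfl | rfl | rfl | rfl <;> assumption
    · obtain ⟨n, s, hn, h9, h10⟩ := Finset.card_eq_succ.1 (by omega : (supp c u).card = 4 + 1)
      obtain ⟨i, j, k, m, hij, hik, him, hjk, hjm, hkm, rfl⟩ := Finset.card_eq_four.1 h10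
      rw [← h9] at h5 h6 h7
      rw [Finset.sum_insert hn, Finset.sum_insert (by simp [hij, hik, him]),
        Finset.sum_insert (by simp [hjk, hjm]), Finset.sum_pair hkm] at h6
      simp only [Finset.mem_insert, Finset.mem_singleton, not_or] at hn
      exact (no_five h2 h3 (h7 n (by simp)) (h7 i (by simp)) (h7 j (by simp)) (h7 k (by simp))
        (h7 m (by simp)) h6 (fun _ _ => id) (h5 n i hn.1 (by simp) (by simp))
        (h5 n j hn.2.1 (by simp) (by simp)) (h5 n k hn.2.2.1 (by simp) (by simp))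
        (h5 n m hn.2.2.2 (by simp) (by simp)) (h5 i j hij (by simp) (by simp))
        (h5 i k hik (by simp) (by simp)) (h5 i m him (by simp) (by simp))
        (h5 j k hjk (by simp) (by simp)) (h5 j m hjm (by simp) (by simp))
        (h5 k m hkm (by simp) (by simp))).elim
  refine (key u hu hs hs').elim id fun ⟨h4, h5⟩ => ?_
  obtain ⟨i, j, k, m, hij, hik, him, hjk, hjm, hkm, h6⟩ := Finset.card_eq_four.1 h4
  obtain ⟨l, hl⟩ := exists_notMem_list [i, j, k, m] (by have := h.five; simp; omega)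
  simp only [List.mem_cons, List.not_mem_nil, or_false, not_or] at hl
  obtain ⟨l1, l2, l3, l4⟩ := hl
  have h7 : ∀ n, c n u ≠ 0 ↔ n = i ∨ n = j ∨ n = k ∨ n = m := fun n => by simp [← mem_supp, h6]
  have hl0 : c l u = 0 := by simpa [l1, l2, l3, l4] using h7 l
  have hm := h5 m (by simp [h7])
  have h44 : (4 : F) ≠ 0 := by rw [show (4 : F) = 2 * 2 by norm_num]; exact mul_ne_zero h2 h2
  have h8 := (h.un_sw' hu (Ne.symm l4) hij (mul_left_cancel₀ h44
    ((h5 i (by simp [h7])).trans (h5 j (by simp [h7])).symm))).apply hu.2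
  set w := (refl Q u).1 ((refl Q (e m - e l)).1 u) with hw
  have h9 : ∀ n, c n w = c (Equiv.swap m l n) u - 3 / 2 * c n u := fun n => by
    rw [hw, refl_apply, map_sub, map_smul, h.c_sw (Ne.symm l4), refl_apply, polar_sub_left,
      B_smul_left, B_self, hu.1, h.Q_sub (Ne.symm l4), polar_sub_right, polar_sub_left, h.Be, h.Be,
      h.Be', h.Be', hl0, smul_eq_mul]
    congr 2
    field_simp
    linear_combination -hm
  have h10 : supp c w = insert l (supp c u) := by
    ext n
    simp only [Finset.mem_insert, mem_supp, h9, Equiv.swap_apply_def]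
    grind
  have h11 : (supp c w).card = 5 := by
    rw [h10, Finset.card_insert_of_notMem (notMem_supp.2 hl0), h4]
  have hi := h5 i (by simp [h7])
  have hj := h5 j (by simp [h7])
  obtain ⟨v, h12, h13, h14, t, h15⟩ := h.red h3 h8 (by omega) him
    (h.ok_of_sq him hjk (by
      have := h5 k (by simp [h7])
      simp only [h9, Equiv.swap_apply_def]
      grind) hij.symm hik.symm hjm hkm)
    (mem_supp.1 (by simp [h10, h6])) (mem_supp.1 (by simp [h10, h6])) (by
      simp only [h9, Equiv.swap_apply_def]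
      grind)
  by_cases h16 : (supp c v).card < 4
  · exact ⟨v, h12, h13, by omega⟩
  rcases key v h12 (by omega) (by omega) with ⟨v', h17, h18, h19⟩ | ⟨h17, h18⟩
  · exact ⟨v', h17, h18, by omega⟩
  exfalso
  have e1 := h15 j hij.symm hjm
  have e2 := h15 l l1 l4
  have e3 := h18 j
  have e4 := h18 l
  have e5 : t ≠ 0 := by
    rintro rfl
    have := Finset.card_le_card (s := supp c v) (t := {i, m}) fun n hn => by
      have := h15 n
      simp only [mem_supp, Finset.mem_insert, Finset.mem_singleton] at hn ⊢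
      grind
    have := Finset.card_le_two (a := i) (b := m)
    omega
  simp only [h9, Equiv.swap_apply_def, hjm, Ne.symm l2, l4, if_false, if_true, hl0] at e1 e2
  have e6 : 2 * c j v = -(t * c j u) := by rw [e1]; field_simp; ring
  rw [mul_zero, sub_zero] at e2
  have e7 := e4 (e2 ▸ mul_ne_zero e5 ((h7 m).2 (by simp)))
  have e8 := e3 fun e => mul_ne_zero e5 ((h7 j).2 (by simp)) (by linear_combination e6 - 2 * e)
  rw [e2] at e7
  exact h3 (by
    linear_combination t ^ 2 * hj - t ^ 2 * hm + e7 - 4 * e8 + 4 * (2 * c j v - t * c j u) * e6)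

theorem of_nt (h : RR5 Q e c κ R) {u : V} (hu : Un R κ u) (h1 : NT c u) : Om Q ≤ R := by
  induction hn : (supp c u).card using Nat.strong_induction_on generalizing u with | _ n ih =>
  subst hn
  by_cases h6 : 6 ≤ (supp c u).card
  · obtain ⟨v, h2, h3, h4⟩ := h.dt3 hu h6
    exact ih _ h4 h2 (Or.inl h3) rfl
  have h2 := h.two
  have h4 := h.sum_supp hu.1
  have h5 : 2 ≤ (supp c u).card := by rcases h1 with h1 | h1 <;> omega
  by_cases h3 : (3 : F) = 0
  · rw [Finset.sum_congr rfl fun i hi => sq_eq_one_of_three h.prime h3 (mem_supp.1 hi),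
      Finset.sum_const, nsmul_eq_mul, mul_one] at h4
    obtain ⟨i, j, k, m, hij, hik, him, hjk, hjm, hkm, h7⟩ := Finset.card_eq_four.1
      (show (supp c u).card = 4 by
        generalize (supp c u).card = n at h4 h5 h6
        have : n < 6 := by omega
        interval_cases n <;> grind)
    exact h.of_four h3 hu hij hik him hjk hjm hkm h7
  by_cases h7 : 4 ≤ (supp c u).card
  · obtain ⟨v, h8, h9, h10⟩ := h.step h3 hu h7 (by omega)
    exact ih _ h10 h8 h9 rfl
  rcases h5.eq_or_lt with h8 | h8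
  · obtain ⟨-, i, hi, hi'⟩ := h1.resolve_left (by omega)
    obtain ⟨j, hj, hij⟩ := Finset.exists_mem_ne (by omega : 1 < (supp c u).card) i
    obtain ⟨k, hk⟩ := exists_notMem_list [i, j] (by have := h.five; simp; omega)
    simp only [List.mem_cons, List.not_mem_nil, or_false, not_or] at hk
    refine h.of_three h3 hu hij.symm (Ne.symm hk.1) (Ne.symm hk.2) (fun l l1 l2 _ => by_contra fun hl => ?_)
      hi hi' (mem_supp.1 hj)
    have := Finset.two_lt_card_iff.2 ⟨l, i, j, mem_supp.2 hl, mem_supp.2 hi, hj, l1, l2, hij.symm⟩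
    omega
  · obtain ⟨i, j, k, hij, hik, hjk, h9⟩ := Finset.card_eq_three.1 (by omega : (supp c u).card = 3)
    have h10 : ∀ l, c l u ≠ 0 ↔ l = i ∨ l = j ∨ l = k := fun l => by simp [← mem_supp, h9]
    rw [h9, Finset.sum_insert (by simp [hij, hik]), Finset.sum_pair hjk] at h4
    have hi := (h10 i).2 (by simp)
    have hj := (h10 j).2 (by simp)
    have hk := (h10 k).2 (by simp)
    by_cases e1 : 2 * c i u ^ 2 = 1
    · by_cases e2 : 2 * c j u ^ 2 = 1
      · exact absurd (mul_left_cancel₀ h2 (by linear_combination 2 * h4 - e1 - e2 :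
          2 * c k u ^ 2 = 2 * 0)) (pow_ne_zero 2 hk)
      · exact h.of_three h3 hu hij.symm hjk hik (fun l l1 l2 l3 => by simpa [l1, l2, l3] using h10 l)
          hj e2 hi
    · exact h.of_three h3 hu hij hik hjk (fun l l1 l2 l3 => by simpa [l1, l2, l3] using h10 l)
        hi e1 hj

end RR5

end H97o
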