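import Mathlib
import Cfsg.Agent.Base
import Cfsg.Agent.Lib.Cliff.OFive
import Cfsg.Agent.Lib.Orth12.Klein2
import Cfsg.Agent.Lib.QF.Classify

/-!
The normaliser of an elementary abelian group of order `16` in `PΩ₅(p)` and `PΩ₆(p)`.
-/

set_option autoImplicit false
set_option linter.unusedSectionVars false
set_option linter.unusedVariables false

namespace H97o

open Module Cfsg H12 QuadraticMap

variable {F V : Type*} [Field F] [Fintype F] [AddCommGroup V] [Module F V] {Q : QuadraticForm F V}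
  [FiniteDimensional F V] {ι : Type*} [Fintype ι] [DecidableEq ι] {e : ι → V} {c : ι → V →ₗ[F] F}
  {κ : F} {R X : Subgroup (O Q)}

namespace Fr5

theorem good (h : Fr5 Q e c κ) : Good Q := good_of_two_ne_zero h.nd h.two

theorem e_ne (h : Fr5 Q e c κ) (i : ι) : e i ≠ 0 := ne_zero_of_Q_ne (h.Qe_ne i)

theorem mem_span (h : Fr5 Q e c κ) {x : V} {i : ι} : x ∈ F ∙ e i ↔ ∀ l, l ≠ i → c l x = 0 :=
  ⟨fun h1 l hl => by
    obtain ⟨t, rfl⟩ := Submodule.mem_span_singleton.1 h1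
    simp [h.ce, hl],
  fun h1 => h.mem_of_coord fun l hl => by
    rw [by_contra fun h2 => hl (h1 l h2)]; exact Submodule.mem_span_singleton_self _⟩

theorem mem_H (h : Fr5 Q e c κ) {g : O Q} (hg : ∀ i, ∃ j, g.1 (e i) ∈ F ∙ e j) :
    g ∈ Hh Q fun i => F ∙ e i := by
  refine mem_Hh_of_maps (fun i j hij => by_contra fun h1 => ?_)
    (fun i j => by rw [finrank_span_singleton (h.e_ne i), finrank_span_singleton (h.e_ne j)])
    fun i => (hg i).imp fun j hj x hx => ?_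
  · have := h.mem_span.1 (hij ▸ Submodule.mem_span_singleton_self (e i) : e i ∈ F ∙ e j) i h1
    simp [h.ce] at this
  · obtain ⟨t, rfl⟩ := Submodule.mem_span_singleton.1 hx
    rw [map_smul]; exact Submodule.smul_mem _ _ hj

theorem H_elim (h : Fr5 Q e c κ) {g : O Q} (hg : g ∈ Hh Q fun i => F ∙ e i) :
    ∃ σ : Equiv.Perm ι, ∀ i, ∃ t : F, t ≠ 0 ∧ g.1 (e i) = t • e (σ i) := by
  obtain ⟨σ, hσ⟩ := Hh_elim hg
  refine ⟨σ, fun i => ?_⟩
  obtain ⟨t, ht⟩ := Submodule.mem_span_singleton.1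
    ((hσ i _).1 (Submodule.mem_span_singleton_self (e i)))
  refine ⟨t, ?_, ht.symm⟩
  rintro rfl
  exact O.apply_ne_zero g (h.e_ne i) (by rw [← ht, zero_smul])

theorem refl_mem (h : Fr5 Q e c κ) (a : ι) : refl Q (e a) ∈ Hh Q fun i => F ∙ e i :=
  h.mem_H fun i => ⟨i, h.mem_span.2 fun l hl => by simp [h.c_refl, h.ce, hl]⟩

theorem sw_mem (h : Fr5 Q e c κ) {a b : ι} (hab : a ≠ b) :
    refl Q (e a - e b) ∈ Hh Q fun i => F ∙ e i :=
  h.mem_H fun i => ⟨Equiv.swap a b i, h.mem_span.2 fun l hl => by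
    rw [h.c_sw hab, h.ce, if_neg fun h1 => hl (by rw [← h1, Equiv.swap_apply_self])]⟩

theorem rr_mem (h : Fr5 Q e c κ) (a b : ι) :
    refl Q (e a) * refl Q (e b) ∈ (Hh Q fun i => F ∙ e i) ⊓ Om Q :=
  ⟨Subgroup.mul_mem _ (h.refl_mem a) (h.refl_mem b), rr_mem_Om h.nd (by rw [h.Qe, h.Qe])⟩

theorem ss_mem (h : Fr5 Q e c κ) {a b k l : ι} (hab : a ≠ b) (hkl : k ≠ l) :
    refl Q (e a - e b) * refl Q (e k - e l) ∈ (Hh Q fun i => F ∙ e i) ⊓ Om Q :=
  ⟨Subgroup.mul_mem _ (h.sw_mem hab) (h.sw_mem hkl),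
    rr_mem_Om h.nd (by rw [h.Q_sub hab, h.Q_sub hkl])⟩

theorem two_le (h : Fr5 Q e c κ) {v : V} (hv : Q v = κ) {i : ι} (h1 : c i v ≠ 0)
    (h2 : c i v ^ 2 ≠ 1) : 2 ≤ (supp c v).card := by
  by_contra h3
  have := h.sum_supp hv
  rw [Finset.eq_singleton_iff_unique_mem.2 ⟨mem_supp.2 h1, fun x hx =>
    Finset.card_le_one.1 (by omega) x hx i (mem_supp.2 h1)⟩, Finset.sum_singleton] at this
  exact h2 this

theorem sg_rr (h : Fr5 Q e c κ) {a b : ι} (hab : a ≠ b) :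
    Sg c {a, b} (refl Q (e a) * refl Q (e b)) := fun l x => by
  simp only [O.mul_apply, h.c_refl, Finset.mem_insert, Finset.mem_singleton]
  grind

theorem sg_eq (h : Fr5 Q e c κ) {J : Finset ι} {z z' : O Q} (h1 : Sg c J z) (h2 : Sg c J z') :
    z = z' := O.ext fun x => h.ext fun l => by rw [h1, h2]

theorem sg_inj (h : Fr5 Q e c κ) {J J' : Finset ι} {z : O Q} (h1 : Sg c J z) (h2 : Sg c J' z) :
    J = J' := Finset.ext fun l => by
  have := (h1 l (e l)).symm.trans (h2 l (e l))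
  have h3 := h.two
  rw [h.ce, if_pos rfl] at this
  grind

theorem sg_empty (h : Fr5 Q e c κ) : Sg c ∅ (1 : O Q) := fun l x => by simp

theorem exists_sg (h : Fr5 Q e c κ) (m : ℕ) (J : Finset ι) (hJ : J.card = 2 * m) :
    ∃ z ∈ (Hh Q fun i => F ∙ e i) ⊓ Om Q, Sg c J z := by
  induction m generalizing J with
  | zero => exact ⟨1, Subgroup.one_mem _, Finset.card_eq_zero.1 hJ ▸ h.sg_empty⟩
  | succ m ih =>
    obtain ⟨a, b, ha, hb, hab⟩ := Finset.one_lt_card_iff.1 (by omega : 1 < J.card)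
    obtain ⟨z, h1, h2⟩ := ih (J \ {a, b}) (by
      rw [Finset.card_sdiff_of_subset (by simp [Finset.insert_subset_iff, ha, hb]),
        Finset.card_pair hab]; omega)
    refine ⟨_, Subgroup.mul_mem _ (h.rr_mem a b) h1, ?_⟩
    convert (h.sg_rr hab).mul h2
    ext l
    simp only [Finset.mem_symmDiff, Finset.mem_sdiff, Finset.mem_insert, Finset.mem_singleton]
    grind

theorem sg_mem (h : Fr5 Q e c κ) {J : Finset ι} {z : O Q} (hz : Sg c J z) {m : ℕ}
    (hJ : J.card = 2 * m) : z ∈ (Hh Q fun i => F ∙ e i) ⊓ Om Q ∧ z * z = 1 := by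
  obtain ⟨z', h1, h2⟩ := h.exists_sg m J hJ
  exact ⟨h.sg_eq h2 hz ▸ h1, h.sg_eq (hz.mul hz) (by simpa using h.sg_empty)⟩

end Fr5

theorem RR5.mem_or (h : RR5 Q e c κ R) {g : O Q} (hg : g ∈ R) :
    g ∈ (Hh Q fun i => F ∙ e i) ∨ Om Q ≤ R := by
  refine or_iff_not_imp_right.2 fun h1 => h.mem_H fun i => by_contra fun h2 => ?_
  have hu := (h.un_e i).apply hg
  set u := g.1 (e i) with hu'
  have h3 : ¬ NT c u := fun h3 => h1 (h.of_nt hu h3)
  obtain ⟨a, ha⟩ : ∃ a, c a u ≠ 0 := by_contra fun h4 =>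
    O.apply_ne_zero g (h.e_ne i) (h.ext fun l => by simpa using not_exists.1 h4 l)
  obtain ⟨b, hab, hb⟩ : ∃ b, b ≠ a ∧ c b u ≠ 0 := by_contra fun h4 =>
    h2 ⟨a, h.mem_span.2 fun l hl => by simpa [hl] using not_exists.1 h4 l⟩
  have h4 := Finset.one_lt_card_iff.2 ⟨a, b, mem_supp.2 ha, mem_supp.2 hb, hab.symm⟩
  have h5 : ¬ 3 ≤ (supp c u).card := fun h5 => h3 (Or.inl h5)
  have h6 : 2 * c b u ^ 2 = 1 := by_contra fun h6 => h3 (Or.inr ⟨h4, b, hb, h6⟩)
  obtain ⟨k, l, hkl, hk, hl⟩ := h.exists_zero (x := u) (by omega)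
  have hbk : b ≠ k := by rintro rfl; exact hb hk
  have h7 := (h.un_sw hu hbk hkl (hk.trans hl.symm)).apply (R.inv_mem hg)
  have h8 : 2 * c i ((g⁻¹).1 ((refl Q (e b - e k)).1 u)) = 1 := by
    have hκ := h.hκ
    have h8 := h.two
    have := h.Be i ((g⁻¹).1 ((refl Q (e b - e k)).1 u))
    rw [← O.B_apply_left, ← hu'] at this
    generalize c i ((g⁻¹).1 ((refl Q (e b - e k)).1 u)) = x at this ⊢
    rw [refl_apply, polar_sub_right, B_smul_right, B_self, hu.1, h.Q_sub hbk,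
      polar_sub_right, h.Be', h.Be', hk] at this
    field_simp at this
    linear_combination -2 * this - h6
  generalize (g⁻¹).1 ((refl Q (e b - e k)).1 u) = v at h7 h8
  have h9 : c i v ≠ 0 := fun e => by simp [e] at h8
  refine h1 (h.of_nt h7 (Or.inr ⟨h.two_le h7.1 h9 fun h10 => ?_, i, h9, fun h10 => ?_⟩))
  · have := sq_eq_one_of_three h.prime (by linear_combination (2 * c i v + 1) * h8 - 4 * h10) hb
    exact one_ne_zero (α := F) (by linear_combination h6 - 2 * this)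
  · exact one_ne_zero (α := F) (by linear_combination (2 * c i v + 1) * h8 - 2 * h10)

namespace Fr5

theorem mem_of_conj (h : Fr5 Q e c κ) (hH : (Hh Q fun i => F ∙ e i) ⊓ Om Q ≤ X) (hX : X ≤ Om Q)
    (hn : ¬ Om Q ≤ X) {g : O Q} (hg : g ∈ X) {a : ι} (h1 : refl Q (e a) * g * refl Q (e a) ∈ X) :
    g ∈ Hh Q fun i => F ∙ e i := by
  refine (RR5.mem_or (R := extBy X (refl Q (e a)) (refl_mul_self _)) ⟨h, fun i => Or.inr
    ⟨hH (h.rr_mem i a), hH (h.rr_mem a i)⟩, fun i j k l hij hkl => ?_⟩ (Or.inl ⟨hg, h1⟩)).resolve_right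
    fun h2 => hn (Om_le_of_extBy h.nd h.good hX (h.Qe_ne a) h2)
  have h2 := h.ss_mem hij hkl
  refine Or.inl ⟨hH h2, hH ⟨Subgroup.mul_mem _ (Subgroup.mul_mem _ (h.refl_mem a) h2.1)
    (h.refl_mem a), ?_⟩⟩
  have := Subgroup.Normal.conj_mem inferInstance _ h2.2 (refl Q (e a))
  rwa [refl_inv] at this

theorem mem_of_odd (h : Fr5 Q e c κ) (hH : (Hh Q fun i => F ∙ e i) ⊓ Om Q ≤ X) (hX : X ≤ Om Q)
    (hn : ¬ Om Q ≤ X) (ho : Odd (Fintype.card ι)) {g : O Q} (hg : g ∈ X) :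
    g ∈ Hh Q fun i => F ∙ e i := by
  obtain ⟨m, hm⟩ := ho
  obtain ⟨a⟩ := Fintype.card_pos_iff.1 (by omega : 0 < Fintype.card ι)
  obtain ⟨z, h1, h2⟩ := h.exists_sg m {a}ᶜ (by rw [Finset.card_compl, Finset.card_singleton]; omega)
  have h3 : ∀ x, (refl Q (e a)).1 x = -z.1 x := fun x => h.ext fun l => by
    rw [h.c_refl, map_neg, h2]; split_ifs <;> simp_all
  refine h.mem_of_conj hH hX hn hg (a := a) ?_
  rw [show refl Q (e a) * g * refl Q (e a) = z * g * z from O.ext fun x => by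
    simp only [O.mul_apply, h3, map_neg, neg_neg]]
  exact X.mul_mem (X.mul_mem (hH h1) hg) (hH h1)

theorem mem_of_span (h : Fr5 Q e c κ) (hH : (Hh Q fun i => F ∙ e i) ⊓ Om Q ≤ X) (hX : X ≤ Om Q)
    (hn : ¬ Om Q ≤ X) {g : O Q} (hg : g ∈ X) {i j : ι} (h1 : g.1 (e i) ∈ F ∙ e j) :
    g ∈ Hh Q fun i => F ∙ e i := by
  obtain ⟨t, ht⟩ := Submodule.mem_span_singleton.1 h1
  have h2 := refl_conj g (e i)
  rw [← ht, refl_smul (by rintro rfl; exact O.apply_ne_zero g (h.e_ne i) (by rw [← ht, zero_smul])),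
    mul_inv_eq_iff_eq_mul] at h2
  refine h.mem_of_conj hH hX hn hg (a := j) ?_
  rw [← h2, mul_assoc]
  exact X.mul_mem hg (hH (h.rr_mem i j))

theorem tri (h : Fr5 Q e c κ) (hH : (Hh Q fun i => F ∙ e i) ⊓ Om Q ≤ X) (hX : X ≤ Om Q)
    (hn : ¬ Om Q ≤ X) {g : O Q} (hg : g ∈ X) {t : O Q} (ht : t ∈ X) {i : ι}
    (h1 : t.1 (g.1 (e i)) = g.1 (e i)) (j : ι) : t.1 (g.1 (e j)) = g.1 (e j) ∨
      t.1 (g.1 (e j)) = -g.1 (e j) ∨ polar Q (g.1 (e j)) (t.1 (g.1 (e j))) = 0 := by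
  obtain ⟨σ, hσ⟩ := h.H_elim (h.mem_of_span hH hX hn (i := i) (j := i)
    (X.mul_mem (X.mul_mem (X.inv_mem hg) ht) hg) (by
      rw [O.mul_apply, O.mul_apply, h1, O.inv_apply_apply]
      exact Submodule.mem_span_singleton_self _))
  obtain ⟨s, -, hs⟩ := hσ j
  rw [O.mul_apply, O.mul_apply, O.inv_apply_eq_iff, map_smul] at hs
  by_cases h3 : σ j = j
  · rw [h3] at hs
    exact (eq_or_neg_of_smul (by rw [O.map_Q]; exact h.Qe_ne j) hs).imp id Or.inl
  · exact Or.inr (Or.inr (by rw [hs, B_smul_right, O.map_B, h.Be', h.ce, if_neg h3]; simp))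

theorem B_mov (h : Fr5 Q e c κ) {f u : V} (hf : Q f = κ) (hu : Q u ≠ 0) :
    polar Q f ((refl Q u).1 f) = 2 * κ - (Q u)⁻¹ * polar Q f u ^ 2 := by
  rw [refl_apply, polar_sub_right, B_smul_right, B_self, hf]; ring

theorem cen6 (h : Fr5 Q e c κ) (h6 : 6 ≤ Fintype.card ι) (hH : (Hh Q fun i => F ∙ e i) ⊓ Om Q ≤ X)
    (hX : X ≤ Om Q) (hn : ¬ Om Q ≤ X) {g : O Q} (hg : g ∈ X) {i j : ι} (hij : i ≠ j) {z : O Q}
    (hz : Sg c {i, j} z) (h1 : g * z = z * g) : g ∈ Hh Q fun i => F ∙ e i := by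
  have h2 := h.two
  have hκ := h.hκ
  by_contra hcon
  have h0 : ∀ a b, ¬ ∀ l, l ≠ b → c l (g.1 (e a)) = 0 := fun a b hl =>
    hcon (h.mem_of_span hH hX hn hg (h.mem_span.2 hl))
  have hQ : ∀ a, Q (g.1 (e a)) = κ := fun a => by rw [O.map_Q, h.Qe]
  have h3 : ∀ a l, c l (g.1 (z.1 (e a))) = if l ∈ ({i, j} : Finset ι) then -c l (g.1 (e a))
      else c l (g.1 (e a)) := fun a l => by rw [← O.mul_apply, h1, O.mul_apply, hz]
  have hi : ∀ l, l ≠ i → l ≠ j → c l (g.1 (e i)) = 0 := fun l l1 l2 => by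
    have := h3 i l
    rw [if_neg (by simp [l1, l2]), show z.1 (e i) = -e i from h.ext fun m => by
      rw [hz, map_neg, h.ce]; split_ifs <;> simp_all, map_neg, map_neg] at this
    exact eq_zero_of_eq_neg h2 this.symm
  have hk : ∀ k, k ≠ i → k ≠ j → c i (g.1 (e k)) = 0 ∧ c j (g.1 (e k)) = 0 := fun k k1 k2 => by
    have h4 : z.1 (e k) = e k := h.ext fun m => by
      rw [hz, h.ce]; split_ifs <;> simp_all
    have e1 := h3 k i
    have e2 := h3 k j
    rw [if_pos (by simp), h4] at e1 e2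
    exact ⟨eq_zero_of_eq_neg h2 e1, eq_zero_of_eq_neg h2 e2⟩
  have hα : c i (g.1 (e i)) ≠ 0 := fun e1 => h0 i j fun l hl => by
    by_cases h4 : l = i
    exacts [h4 ▸ e1, hi l h4 hl]
  have hβ : c j (g.1 (e i)) ≠ 0 := fun e1 => h0 i i fun l hl => by
    by_cases h4 : l = j
    exacts [h4 ▸ e1, hi l hl h4]
  obtain ⟨k, hk1⟩ := exists_notMem_list [i, j] (by simp; omega)
  simp only [List.mem_cons, List.not_mem_nil, or_false, not_or] at hk1
  obtain ⟨hki, hkj⟩ := hk k hk1.1 hk1.2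
  set f := g.1 (e k) with hf
  set u := g.1 (e i) with hu
  have hs : ∀ a b, a ≠ b → a ≠ i → a ≠ j → b ≠ i → b ≠ j → (c a f = 0 ∧ c b f = 0) ∨
      (∀ l, l ≠ a → l ≠ b → c l f = 0) ∨ 2 * (c a f ^ 2 + c b f ^ 2) = 1 := fun a b hab a1 a2 b1 b2 => by
    have h4 := h.sg_rr hab
    refine (h.tri hH hX hn hg (hH (h.rr_mem a b)) (i := i) (h.ext fun l => ?_) k).imp
      (fun h5 => ?_) (Or.imp (fun h5 l l1 l2 => ?_) fun h5 => ?_)
    · rw [h4]; split_ifs with h5
      · simp only [Finset.mem_insert, Finset.mem_singleton] at h5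
        rcases h5 with rfl | rfl
        exacts [by rw [hi l a1 a2, neg_zero], by rw [hi l b1 b2, neg_zero]]
      · rfl
    · have e1 := h4 a f
      have e2 := h4 b f
      rw [h5, if_pos (by simp)] at e1 e2
      exact ⟨eq_zero_of_eq_neg h2 e1, eq_zero_of_eq_neg h2 e2⟩
    · have e1 := h4 l f
      rw [h5, if_neg (by simp [l1, l2]), map_neg] at e1
      exact eq_zero_of_eq_neg h2 e1.symm
    · rw [O.mul_apply, refl_apply (v := e a), refl_apply (v := e b)] at h5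
      simp only [polar_sub_right, B_smul_right, B_self, h.Qe, h.Be', map_sub, map_smul, h.ce, hab,
        if_false, smul_zero, sub_zero] at h5
      rw [hQ] at h5
      field_simp at h5
      exact mul_left_cancel₀ (mul_ne_zero h2 hκ) (by linear_combination -h5)
  have hA : ∃ a b, a ≠ b ∧ a ≠ i ∧ a ≠ j ∧ b ≠ i ∧ b ≠ j ∧ c a f = c b f := by
    obtain ⟨a, h4⟩ := exists_notMem_list [i, j] (by simp; omega)
    obtain ⟨b, h5⟩ := exists_notMem_list [i, j, a] (by simp; omega)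
    obtain ⟨d, h7⟩ := exists_notMem_list [i, j, a, b] (by simp; omega)
    obtain ⟨m, h8⟩ := exists_notMem_list [i, j, a, b, d] (by simp; omega)
    simp only [List.mem_cons, List.not_mem_nil, or_false, not_or] at h4 h5 h7 h8
    have key : ∀ a b d, a ≠ b → a ≠ d → b ≠ d → a ≠ i → a ≠ j → b ≠ i → b ≠ j → d ≠ i → d ≠ j →
        c a f ≠ 0 → c b f ≠ 0 → c d f ≠ 0 →
        ∃ a b, a ≠ b ∧ a ≠ i ∧ a ≠ j ∧ b ≠ i ∧ b ≠ j ∧ c a f = c b f :=
      fun a b d ab ad bd a1 a2 b1 b2 d1 d2 a0 b0 d0 => by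
      have e1 := ((hs a b ab a1 a2 b1 b2).resolve_left fun e => a0 e.1).resolve_left
        fun e => d0 (e d ad.symm bd.symm)
      have e2 := ((hs a d ad a1 a2 d1 d2).resolve_left fun e => a0 e.1).resolve_left
        fun e => b0 (e b ab.symm bd)
      have e3 := ((hs b d bd b1 b2 d1 d2).resolve_left fun e => b0 e.1).resolve_left
        fun e => a0 (e a ab ad)
      have e4 : c a f ^ 2 = c b f ^ 2 := mul_left_cancel₀ h2 (by linear_combination e2 - e3)
      have e5 : c a f ^ 2 = c d f ^ 2 := mul_left_cancel₀ h2 (by linear_combination e1 - e3)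
      rcases sq_eq_sq_iff_eq_or_eq_neg.1 e4 with e6 | e6
      · exact ⟨a, b, ab, a1, a2, b1, b2, e6⟩
      rcases sq_eq_sq_iff_eq_or_eq_neg.1 e5 with e7 | e7
      · exact ⟨a, d, ad, a1, a2, d1, d2, e7⟩
      · exact ⟨b, d, bd, b1, b2, d1, d2, by linear_combination e6 - e7⟩
    by_contra h9
    have h10 : ∀ a b, a ≠ b → a ≠ i → a ≠ j → b ≠ i → b ≠ j → c a f = 0 → c b f ≠ 0 :=
      fun a b ab a1 a2 b1 b2 e1 e2 => h9 ⟨a, b, ab, a1, a2, b1, b2, e1.trans e2.symm⟩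
    have ab := Ne.symm h5.2.2
    have ad := Ne.symm h7.2.2.1
    have am := Ne.symm h8.2.2.1
    have bd := Ne.symm h7.2.2.2
    have bm := Ne.symm h8.2.2.2.1
    have dm := Ne.symm h8.2.2.2.2
    by_cases ha : c a f = 0
    · exact h9 (key b d m bd bm dm h5.1 h5.2.1 h7.1 h7.2.1 h8.1 h8.2.1
        (h10 a b ab h4.1 h4.2 h5.1 h5.2.1 ha) (h10 a d ad h4.1 h4.2 h7.1 h7.2.1 ha)
        (h10 a m am h4.1 h4.2 h8.1 h8.2.1 ha))
    by_cases hb : c b f = 0
    · exact h9 (key a d m ad am dm h4.1 h4.2 h7.1 h7.2.1 h8.1 h8.2.1 ha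
        (h10 b d bd h5.1 h5.2.1 h7.1 h7.2.1 hb) (h10 b m bm h5.1 h5.2.1 h8.1 h8.2.1 hb))
    by_cases hd : c d f = 0
    · exact h9 (key a b m ab am bm h4.1 h4.2 h5.1 h5.2.1 h8.1 h8.2.1 ha hb
        (h10 d m dm h7.1 h7.2.1 h8.1 h8.2.1 hd))
    · exact h9 (key a b d ab ad bd h4.1 h4.2 h5.1 h5.2.1 h7.1 h7.2.1 ha hb hd)
  obtain ⟨a, b, hab, a1, a2, b1, b2, h4⟩ := hA
  have h5 : c i u ^ 2 = c j u ^ 2 := by
    have h5 := h.tri hH hX hn hg (hH (h.ss_mem hij hab)) (i := k) (by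
      rw [O.mul_apply, h.sw_fix h4, h.sw_fix (hki.trans hkj.symm)]) i
    rw [O.mul_apply, h.sw_fix (a := a) ((hi a a1 a2).trans (hi b b1 b2).symm)] at h5
    have h7 := h.c_sw hij i u
    rw [Equiv.swap_apply_left] at h7
    rcases h5 with h5 | h5 | h5
    · rw [← h7, h5]
    · rw [← h7, h5, map_neg, neg_sq]
    · have h8 := h.sum_supp (hQ i)
      rw [Finset.sum_subset (s₂ := {i, j}) (fun l hl => by
        by_contra h9
        simp only [Finset.mem_insert, Finset.mem_singleton, not_or] at h9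
        exact mem_supp.1 hl (hi l h9.1 h9.2)) (fun l _ hl => by rw [notMem_supp.1 hl]; ring),
        Finset.sum_pair hij] at h8
      rw [h.B_mov (hQ i) (by rw [h.Q_sub hij]; exact mul_ne_zero h2 hκ), h.Q_sub hij,
        polar_sub_right, h.Be', h.Be'] at h5
      field_simp at h5
      exact absurd (mul_left_cancel₀ (mul_ne_zero (mul_ne_zero h2 h2) hκ)
        (by linear_combination h5 + 2 * κ * h8) : c i u * c j u = 0)
        (mul_ne_zero hα hβ)
  have h7 : ∀ l, ∃ m, (refl Q u).1 (e l) ∈ F ∙ e m := fun l => by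
    have h8 := h.sum_supp (hQ i)
    rw [Finset.sum_subset (s₂ := {i, j}) (fun l hl => by
      by_contra h9
      simp only [Finset.mem_insert, Finset.mem_singleton, not_or] at h9
      exact mem_supp.1 hl (hi l h9.1 h9.2)) (fun l _ hl => by rw [notMem_supp.1 hl]; ring),
      Finset.sum_pair hij] at h8
    refine ⟨Equiv.swap i j l, h.mem_span.2 fun m hm => ?_⟩
    rw [refl_apply, map_sub, map_smul, hQ, h.Be, h.ce, smul_eq_mul]
    have := hi m
    have := hi l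
    field_simp
    rw [Equiv.swap_apply_def] at hm
    grind
  have h8 : refl Q f ∈ Hh Q fun i => F ∙ e i := by
    obtain ⟨m, hm⟩ := h7 i
    have h9 : refl Q u * refl Q f ∈ X := by
      rw [hu, hf, ← rr_conj]
      exact X.mul_mem (X.mul_mem hg (hH (h.rr_mem i k))) (X.inv_mem hg)
    exact (Subgroup.mul_mem_cancel_left _ (h.mem_H h7)).1 (h.mem_of_span hH hX hn h9 (i := i) (j := m)
      (by rwa [O.mul_apply, refl_apply_of_orth (v := f) (by rw [h.Be, hki, mul_zero])]))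
  obtain ⟨σ, hσ⟩ := h.H_elim h8
  obtain ⟨p, hp⟩ : ∃ p, c p f ≠ 0 := by
    by_contra h9
    exact h0 k k fun l _ => by simpa using not_exists.1 h9 l
  obtain ⟨t, -, ht⟩ := hσ p
  have h9 : ∀ l, l ≠ p → l ≠ σ p → c l f = 0 := fun l l1 l2 => by
    have := congrArg (c l) ht
    rw [refl_apply, map_sub, map_smul, hQ, h.Be, h.ce, map_smul, h.ce, if_neg l1, if_neg l2] at this
    simpa [hκ, h2, hp] using this
  have h10 : c (σ p) f ≠ 0 := fun e1 => h0 k p fun l hl => by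
    by_cases h11 : l = σ p
    exacts [h11 ▸ e1, h9 l hl h11]
  have h11 : p ≠ σ p := fun e1 => h0 k p fun l hl => h9 l hl (e1 ▸ hl)
  generalize σ p = r at h9 h10 h11
  obtain ⟨d, h12⟩ := exists_notMem_list [i, j, p, r] (by simp; omega)
  obtain ⟨m, h13⟩ := exists_notMem_list [i, j, p, r, d] (by simp; omega)
  simp only [List.mem_cons, List.not_mem_nil, or_false, not_or] at h12 h13
  have hri : r ≠ i := by rintro rfl; exact h10 hki
  have hrj : r ≠ j := by rintro rfl; exact h10 hkj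
  have hd := h9 d h12.2.2.1 h12.2.2.2
  have h14 := h.tri hH hX hn hg (hH (h.ss_mem (Ne.symm h12.2.2.2) (Ne.symm h13.2.2.2.2))) (i := i) (by
    rw [O.mul_apply, h.sw_fix (a := d) ((hi d h12.1 h12.2.1).trans (hi m h13.1 h13.2.1).symm),
      h.sw_fix ((hi r hri hrj).trans (hi d h12.1 h12.2.1).symm)]) k
  rw [O.mul_apply, h.sw_fix (a := d) (hd.trans (h9 m h13.2.2.1 h13.2.2.2.1).symm)] at h14
  have h15 := h.c_sw (Ne.symm h12.2.2.2) d f
  rw [Equiv.swap_apply_right] at h15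
  rcases h14 with h14 | h14 | h14
  · exact h10 (by rw [← h15, h14, hd])
  · exact h10 (by rw [← h15, h14, map_neg, hd, neg_zero])
  · have h16 := h.sum_supp (hQ k)
    rw [Finset.sum_subset (s₂ := {p, r}) (fun l hl => by
      by_contra h17
      simp only [Finset.mem_insert, Finset.mem_singleton, not_or] at h17
      exact mem_supp.1 hl (h9 l h17.1 h17.2)) (fun l _ hl => by rw [notMem_supp.1 hl]; ring),
      Finset.sum_pair h11] at h16
    rw [h.B_mov (hQ k) (by rw [h.Q_sub (Ne.symm h12.2.2.2)]; exact mul_ne_zero h2 hκ),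
      h.Q_sub (Ne.symm h12.2.2.2), polar_sub_right, h.Be', h.Be', hd] at h14
    field_simp at h14
    exact hp (pow_eq_zero_iff two_ne_zero |>.1 (mul_left_cancel₀ (mul_ne_zero h2 hκ)
      (by linear_combination 2 * κ * h16 + h14)))

end Fr5

theorem exists_eigvec (h2 : (2 : F) ≠ 0) {A : Subgroup (O Q)} (hA : ∀ a ∈ A, a * a = 1)
    {W : Submodule F V} (hW : ∀ a ∈ A, ∀ x ∈ W, a.1 x ∈ W) {w : V} (hw : w ∈ W) (h0 : Q w ≠ 0) :
    ∃ v ∈ W, Q v ≠ 0 ∧ ∀ a ∈ A, a.1 v = v ∨ a.1 v = -v := by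
  classical
  have := finiteO Q
  have hc : ∀ a ∈ A, ∀ b ∈ A, ∀ x, a.1 (b.1 x) = b.1 (a.1 x) := fun a ha b hb x => by
    rw [← O.mul_apply, ← O.mul_apply, ← inv_eq_of_sq (hA _ (A.mul_mem ha hb)), mul_inv_rev,
      inv_eq_of_sq (hA a ha), inv_eq_of_sq (hA b hb)]
  have key : ∀ s : Finset (O Q), ∃ v ∈ W, Q v ≠ 0 ∧ ∀ a ∈ s, a ∈ A → a.1 v = v ∨ a.1 v = -v := by
    intro s
    induction s using Finset.induction_on with
    | empty => exact ⟨w, hw, h0, by simp⟩
    | insert a s _ ih =>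
      obtain ⟨v, h1, h3, h4⟩ := ih
      by_cases ha : a ∈ A
      swap
      · exact ⟨v, h1, h3, fun b hb hb' => h4 b ((Finset.mem_insert.1 hb).resolve_left
          fun e => ha (e ▸ hb')) hb'⟩
      have h5 : a.1 (a.1 v) = v := by rw [← O.mul_apply, hA a ha, O.one_apply]
      by_cases h6 : Q (v + a.1 v) = 0
      · refine ⟨v - a.1 v, W.sub_mem h1 (hW a ha v h1), fun h7 => h3 ?_, fun b hb hb' => ?_⟩
        · rw [Q_add, O.map_Q] at h6
          rw [H12.Q_sub, O.map_Q] at h7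
          exact mul_left_cancel₀ (mul_ne_zero h2 h2) (by linear_combination h6 + h7)
        · rcases Finset.mem_insert.1 hb with rfl | hb
          · right; rw [map_sub, h5, neg_sub]
          · rw [map_sub, hc b hb' a ha]
            refine (h4 b hb hb').imp (fun e => by rw [e]) fun e => by rw [e, map_neg]; abel
      · refine ⟨v + a.1 v, W.add_mem h1 (hW a ha v h1), h6, fun b hb hb' => ?_⟩
        rcases Finset.mem_insert.1 hb with rfl | hb
        · left; rw [map_add, h5, add_comm]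
        · rw [map_add, hc b hb' a ha]
          refine (h4 b hb hb').imp (fun e => by rw [e]) fun e => by rw [e, map_neg]; abel
  have := Fintype.ofFinite (O Q)
  obtain ⟨v, h1, h3, h4⟩ := key Finset.univ
  exact ⟨v, h1, h3, fun a ha => h4 a (Finset.mem_univ a) ha⟩

theorem B_proj (h2 : (2 : F) ≠ 0) {v : ι → V} (h1 : ∀ i, Q (v i) ≠ 0)
    (h3 : ∀ i j, i ≠ j → polar Q (v i) (v j) = 0) (x : V) (i : ι) :
    polar Q (v i) (x - ∑ j, ((2 * Q (v j))⁻¹ * polar Q (v j) x) • v j) = 0 := by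
  rw [polar_sub_right, B_sum_right, Finset.sum_eq_single i (fun j _ hj => by
    rw [B_smul_right, h3 i j hj.symm, mul_zero]) (by simp), B_smul_right, B_self]
  have := h1 i
  field_simp
  ring

theorem exists_eigbasis (hQ : Nondeg Q) (h2 : (2 : F) ≠ 0) {A : Subgroup (O Q)}
    (hA : ∀ a ∈ A, a * a = 1) (k : ℕ) (hk : k ≤ finrank F V) :
    ∃ v : Fin k → V, (∀ i, Q (v i) ≠ 0) ∧ (∀ i j, i ≠ j → polar Q (v i) (v j) = 0) ∧
      ∀ a ∈ A, ∀ i, a.1 (v i) = v i ∨ a.1 (v i) = -v i := by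
  induction k with
  | zero => exact ⟨Fin.elim0, by simp, by simp, by simp⟩
  | succ k ih =>
    obtain ⟨v, h1, h3, h4⟩ := ih (by omega)
    have hm : ∀ x, x ∈ (⨅ i, orth Q (v i)) ↔ ∀ i, polar Q (v i) x = 0 := fun x => by
      simp [Submodule.mem_iInf, mem_orth]
    obtain ⟨w, hw, h0⟩ : ∃ w ∈ (⨅ i, orth Q (v i)), Q w ≠ 0 := by
      by_contra h5
      push Not at h5
      have h6 : ⊤ ≤ Submodule.span F (Set.range v) := fun x _ => by
        have h7 : ∀ w ∈ ⨅ i, orth Q (v i), w = 0 := fun w h7 => hQ w fun y => by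
          have := B_of_ts h5 h7 ((hm _).2 (B_proj h2 h1 h3 y))
          rwa [polar_sub_right, B_sum_right, Finset.sum_eq_zero fun j _ => by
            rw [B_smul_right, B_symm ((hm _).1 h7 j), mul_zero], sub_zero] at this
        rw [sub_eq_zero.1 (h7 _ ((hm _).2 (B_proj h2 h1 h3 x)))]
        exact Submodule.sum_mem _ fun j _ => Submodule.smul_mem _ _ (Submodule.subset_span ⟨j, rfl⟩)
      have := Submodule.finrank_mono h6
      have := finrank_range_le_card (R := F) v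
      rw [finrank_top] at *
      simp only [Set.finrank, Fintype.card_fin] at this
      omega
    obtain ⟨u, h5, h6, h7⟩ := exists_eigvec h2 hA (fun a ha x hx => (hm _).2 fun i => by
      have := O.map_B a (v i) x
      rw [(hm _).1 hx] at this
      rcases h4 a ha i with e | e <;> simpa [e] using this) hw h0
    refine ⟨Fin.cons u v, Fin.cases h6 h1, fun i j => ?_, fun a ha => Fin.cases (h7 a ha) (h4 a ha)⟩
    induction i using Fin.cases <;> induction j using Fin.cases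
    exacts [by simp, fun _ => B_symm ((hm _).1 h5 _), fun _ => (hm _).1 h5 _,
      fun h => h3 _ _ fun e => h (congrArg Fin.succ e)]

theorem exists_fr5 (hQ : Nondeg Q) (h2 : (2 : F) ≠ 0) (hF : (Fintype.card F).Prime) {n : ℕ}
    (hn : finrank F V = n) (h5 : 5 ≤ n) {A : Subgroup (O Q)} (hO : A ≤ Om Q)
    (hA : ∀ a ∈ A, a * a = 1) (hc : 2 * Nat.card A = 2 ^ n) :
    ∃ (e : Fin n → V) (c : Fin n → V →ₗ[F] F) (κ : F), Fr5 Q e c κ ∧
      ∀ z, z ∈ A ↔ z ∈ Om Q ∧ ∀ i, z.1 (e i) = e i ∨ z.1 (e i) = -e i := by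
  classical
  have := finiteO Q
  have hG := good_of_two_ne_zero hQ h2
  obtain ⟨v, h1, h3, h4⟩ := exists_eigbasis hQ h2 hA n hn.ge
  have hs : ∀ x, ∑ j, ((2 * Q (v j))⁻¹ * polar Q (v j) x) • v j = x := fun x => by
    have h6 : Submodule.span F (Set.range v) = ⊤ :=
      (LinearMap.BilinForm.linearIndependent_of_iIsOrtho (B := polarBilin Q) (fun i j hij => h3 i j hij)
        fun i e => mul_ne_zero h2 (h1 i) (B_self Q (v i) ▸ e)).span_eq_top_of_card_eq_finrank'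
        (by simp [hn])
    refine (sub_eq_zero.1 (hQ _ fun y => ?_)).symm
    have h7 : Submodule.span F (Set.range v) ≤ orth Q _ :=
      Submodule.span_le.2 (by rintro _ ⟨i, rfl⟩; exact B_symm (B_proj h2 h1 h3 x i))
    exact h7 (h6 ▸ Submodule.mem_top)
  let D : Subgroup (O Q) :=
    { carrier := {g | ∀ i, g.1 (v i) = v i ∨ g.1 (v i) = -v i}
      mul_mem' := fun {a b} ha hb i => by
        rcases ha i with e1 | e1 <;> rcases hb i with e2 | e2 <;> simp [e1, e2]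
      one_mem' := fun i => Or.inl rfl
      inv_mem' := fun {a} ha i => (ha i).imp (fun e => by rw [O.inv_apply_eq_iff, e]) fun e => by
        rw [O.inv_apply_eq_iff, map_neg, e, neg_neg] }
  have hr : ∀ j, refl Q (v j) ∈ D := fun j i => by
    by_cases h6 : i = j
    exacts [Or.inr (h6 ▸ refl_apply_self (h1 i)), Or.inl (refl_apply_of_orth (h3 i j h6))]
  have hD : Nat.card D ≤ 2 ^ n := by
    have := Nat.card_le_card_of_injective (fun (g : D) (i : Fin n) => decide (g.1.1 (v i) = v i))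
      fun g g' h => Subtype.ext (O.ext fun x => by
        rw [← hs x, map_sum, map_sum]
        refine Finset.sum_congr rfl fun i _ => ?_
        have h6 := decide_eq_decide.1 (congrFun h i)
        have := g.2 i
        have := g'.2 i
        rw [map_smul, map_smul]
        grind)
    simpa using this
  let o : Fin n := ⟨0, by omega⟩
  have h6 : (A.subgroupOf D).index = 2 := by
    have e1 := (A.subgroupOf D).index_mul_card
    rw [Nat.card_congr (Subgroup.subgroupOfEquivOfLe (show A ≤ D from h4)).toEquiv] at e1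
    have e2 : (A.subgroupOf D).index ≠ 1 := fun e => refl_notMem_Om hQ hG (h1 o) (hO
      (Subgroup.subgroupOf_eq_top.1 (Subgroup.index_eq_one.1 e) (hr o)))
    have e3 : (A.subgroupOf D).index ≠ 0 := Subgroup.index_ne_zero_of_finite
    have e4 : (A.subgroupOf D).index ≤ 2 := Nat.le_of_mul_le_mul_right (by omega) (Nat.card_pos (α := A))
    omega
  have h7 : ∀ a ∈ D, a ∉ A → ∀ i, a * refl Q (v i) ∈ Om Q := fun a ha h7 i =>
    hO ((Subgroup.mul_mem_iff_of_index_two h6 (a := ⟨a, ha⟩) (b := ⟨_, hr i⟩)).2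
      (iff_of_false h7 fun e => refl_notMem_Om hQ hG (h1 i) (hO e)))
  have h8 : ∀ i, ∃ t : F, t ≠ 0 ∧ Q (v o) = t ^ 2 * Q (v i) := fun i => by
    have h8 := ((mem_Om_iff hQ hG _).1 (h7 _ (hr o) (fun e => refl_notMem_Om hQ hG (h1 o) (hO e)) i)).2
    rw [map_mul] at h8
    refine exists_sq_mul_of_isSquare_iff (h1 i) (h1 o) ?_
    by_cases e1 : IsSquare (Q (v i)) <;> by_cases e2 : IsSquare (Q (v o)) <;>
      simp_all [spin_refl_of_isSquare, spin_refl_of_not_isSquare]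
  choose t ht ht' using h8
  have hκ := mul_ne_zero h2 (h1 o)
  refine ⟨fun i => t i • v i, fun i => (2 * Q (v o))⁻¹ • polarBilin Q (t i • v i), Q (v o),
    ⟨hQ, h2, hF, h1 o, fun x => ?_, fun i j => ?_, fun i => by rw [Q_smul, ← ht'], fun i y => by
      rw [LinearMap.smul_apply, polarBilin_apply_apply, smul_eq_mul, mul_inv_cancel_left₀ hκ],
      by simpa⟩, fun z => ⟨fun hz => ⟨hO hz, fun i => ?_⟩, fun ⟨h9, h10⟩ => by_contra fun h11 => ?_⟩⟩
  · conv_rhs => rw [← hs x]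
    refine Finset.sum_congr rfl fun i _ => ?_
    rw [LinearMap.smul_apply, polarBilin_apply_apply, B_smul_left, smul_smul, smul_eq_mul, ht' i]
    have := ht i
    have := h1 i
    congr 1
    field_simp
  · rw [LinearMap.smul_apply, polarBilin_apply_apply, smul_eq_mul]
    split_ifs with hij
    · rw [hij, B_self, Q_smul, ← ht', inv_mul_cancel₀ hκ]
    · rw [B_smul_left, B_smul_right, h3 i j hij]; simp
  · exact (h4 z hz i).imp (fun e => by rw [map_smul, e]) fun e => by rw [map_smul, e, smul_neg]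
  · refine refl_notMem_Om hQ hG (h1 o) (((Om Q).mul_mem_cancel_left h9).1 (h7 z (fun i => ?_) h11 o))
    refine (h10 i).imp (fun e => smul_right_injective V (ht i) ?_) fun e =>
      smul_right_injective V (ht i) ?_
    · simpa using e
    · simpa using e

section Abstract

variable {H H' : Type*} [Group H] [Group H']

/-- `g` normalises `A`. -/
def Nr (A : Subgroup H) (g : H) : Prop := ∀ a ∈ A, g * a * g⁻¹ ∈ A

/-- The normaliser of an elementary abelian subgroup of order `16` is maximal or everything. -/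
def P5 (H : Type*) [Group H] : Prop := ∀ A X : Subgroup H, Nat.card A = 16 → (∀ a ∈ A, a * a = 1) →
  (∀ g, Nr A g → g ∈ X) → X = ⊤ ∨ ∀ g ∈ X, Nr A g

/-- Proper overgroups of the normaliser of a `2`-pure elementary abelian subgroup of order `16`
have the same involution centralisers. -/
def P6 (H : Type*) [Group H] : Prop := ∀ A X : Subgroup H, Nat.card A = 16 → (∀ a ∈ A, a * a = 1) →
  (∀ a ∈ A, ∀ b ∈ A, a ≠ 1 → b ≠ 1 → IsConj a b) → (∀ g, Nr A g → g ∈ X) →
  X = ⊤ ∨ ∀ z ∈ A, z ≠ 1 → ∀ g ∈ X, g * z = z * g → Nr A g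

theorem nr_comap (φ : H ≃* H') {A : Subgroup H'} {g : H} :
    Nr (A.comap φ.toMonoidHom) g ↔ Nr A (φ g) :=
  ⟨fun h a ha => by simpa using h (φ.symm a) (by simpa), fun h a ha => by simpa using h (φ a) ha⟩

theorem card_comap_equiv (φ : H ≃* H') (A : Subgroup H') :
    Nat.card (A.comap φ.toMonoidHom) = Nat.card A :=
  Nat.card_congr (φ.toEquiv.subtypeEquiv fun _ => Iff.rfl)

theorem P5.congr (φ : H ≃* H') (h : P5 H) : P5 H' := fun A X h1 h2 h3 =>
  (h (A.comap φ.toMonoidHom) (X.comap φ.toMonoidHom) (by rw [card_comap_equiv, h1])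
    (fun a ha => φ.injective (by simpa using h2 (φ a) ha))
    fun g hg => h3 _ ((nr_comap φ).1 hg)).imp
    (fun h4 => eq_top_iff.2 fun g _ => by simpa using (h4.ge (Subgroup.mem_top (φ.symm g))))
    fun h4 g hg => by simpa using (nr_comap φ).1 (h4 (φ.symm g) (by simpa))

theorem P6.congr (φ : H ≃* H') (h : P6 H) : P6 H' := fun A X h1 h2 h5 h3 =>
  (h (A.comap φ.toMonoidHom) (X.comap φ.toMonoidHom) (by rw [card_comap_equiv, h1])
    (fun a ha => φ.injective (by simpa using h2 (φ a) ha))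
    (fun a ha b hb a1 b1 => by
      simpa using φ.symm.toMonoidHom.map_isConj (h5 (φ a) ha (φ b) hb (by simpa) (by simpa)))
    fun g hg => h3 _ ((nr_comap φ).1 hg)).imp
    (fun h4 => eq_top_iff.2 fun g _ => by simpa using (h4.ge (Subgroup.mem_top (φ.symm g))))
    fun h4 z hz z1 g hg e => by
      simpa using (nr_comap φ).1 (h4 (φ.symm z) (by simpa) (by simpa) (φ.symm g) (by simpa)
        (by rw [← map_mul, e, map_mul]))

end Abstract

/-- The preimage in `O Q` of a subgroup of `PΩ`. -/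
def up (A : Subgroup (Om Q ⧸ Subgroup.center (Om Q))) : Subgroup (O Q) :=
  (A.comap (QuotientGroup.mk' _)).map (Om Q).subtype

theorem mem_up {A : Subgroup (Om Q ⧸ Subgroup.center (Om Q))} {g : Om Q} :
    g.1 ∈ up A ↔ (g : Om Q ⧸ Subgroup.center (Om Q)) ∈ A :=
  Subgroup.mem_map_iff_mem (Om Q).subtype_injective

theorem up_le (A : Subgroup (Om Q ⧸ Subgroup.center (Om Q))) : up A ≤ Om Q :=
  Subgroup.map_subtype_le _

theorem card_up (A : Subgroup (Om Q ⧸ Subgroup.center (Om Q))) :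
    Nat.card (up A) = Nat.card (Subgroup.center (Om Q)) * Nat.card A := by
  rw [up, Subgroup.card_map_of_injective (Om Q).subtype_injective]
  exact QuotientGroup.card_preimage_mk _ (A : Set (Om Q ⧸ Subgroup.center (Om Q)))

theorem Fr5.nr (h : Fr5 Q e c κ) {A : Subgroup (Om Q ⧸ Subgroup.center (Om Q))}
    (hA : ∀ z, z ∈ up A ↔ z ∈ Om Q ∧ ∀ i, z.1 (e i) = e i ∨ z.1 (e i) = -e i) {g : Om Q}
    (hg : g.1 ∈ Hh Q fun i => F ∙ e i) : Nr A (g : Om Q ⧸ Subgroup.center (Om Q)) := fun a ha => by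
  obtain ⟨a, rfl⟩ := QuotientGroup.mk_surjective a
  refine (mem_up (g := g * a * g⁻¹)).1 ((hA _).2 ⟨(g * a * g⁻¹).2, fun i => ?_⟩)
  obtain ⟨σ, hσ⟩ := h.H_elim (Subgroup.inv_mem _ hg)
  obtain ⟨t, -, ht⟩ := hσ i
  have h1 := congrArg g.1.1 ht
  rw [O.apply_inv_apply] at h1
  refine (((hA _).1 (mem_up.2 ha)).2 (σ i)).imp (fun h2 => ?_) fun h2 => ?_ <;>
    change g.1.1 (a.1.1 ((g.1⁻¹).1 (e i))) = _ <;> rw [ht, map_smul, h2]
  · exact h1.symm
  · rw [smul_neg, map_neg, ← h1]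

theorem Fr5.le_up (h : Fr5 Q e c κ) {A X : Subgroup (Om Q ⧸ Subgroup.center (Om Q))}
    (hA : ∀ z, z ∈ up A ↔ z ∈ Om Q ∧ ∀ i, z.1 (e i) = e i ∨ z.1 (e i) = -e i)
    (hX : ∀ g, Nr A g → g ∈ X) : (Hh Q fun i => F ∙ e i) ⊓ Om Q ≤ up X := fun g hg =>
  (mem_up (g := ⟨g, hg.2⟩)).2 (hX _ (h.nr hA hg.1))

theorem eq_top_of_up {X : Subgroup (Om Q ⧸ Subgroup.center (Om Q))} (h : Om Q ≤ up X) : X = ⊤ :=
  eq_top_iff.2 fun g _ => by
    obtain ⟨g, rfl⟩ := QuotientGroup.mk_surjective g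
    exact mem_up.1 (h g.2)

theorem exists_isHyp (hQ : Nondeg Q) (hn : 3 ≤ finrank F V) : ∃ e f, IsHyp Q e f := by
  obtain ⟨x, -, h1, h2⟩ := exists_sing_in Q ⊤ (by rwa [finrank_top])
  exact ⟨x, hQ.exists_hyp h1 h2⟩

theorem p5_Om (hQ : Nondeg Q) (h2 : (2 : F) ≠ 0) (hF : (Fintype.card F).Prime)
    (hn : finrank F V = 5) : P5 (Om Q ⧸ Subgroup.center (Om Q)) := fun A X h1 h3 h4 => by
  classical
  have hG := good_of_two_ne_zero hQ h2
  obtain ⟨x, y, hxy⟩ := exists_isHyp hQ (by omega)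
  have hZ := hxy.card_center_Om_of_not_mem hQ hG (by omega) (Or.inl
    (negO_not_mem_Om_of_odd hQ h2 (by rw [hn]; decide)))
  obtain ⟨e, c, κ, h, hA⟩ := exists_fr5 hQ h2 hF hn le_rfl (up_le A) (fun a ha => by
    lift a to Om Q using up_le A ha
    have := h3 _ (mem_up.1 ha)
    rw [← QuotientGroup.mk_mul, QuotientGroup.eq_one_iff, hZ, Subgroup.mem_bot] at this
    exact congrArg Subtype.val this) (by rw [card_up, h1, Subgroup.card_eq_one.2 hZ]; rfl)
  refine or_iff_not_imp_left.2 fun h5 g hg => ?_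
  obtain ⟨g, rfl⟩ := QuotientGroup.mk_surjective g
  exact h.nr hA (h.mem_of_odd (h.le_up hA h4) (up_le X) (fun h6 => h5 (eq_top_of_up h6))
    (by simp; decide) (mem_up.2 hg))

theorem anti_of_sq {G : Type*} [Group G] {n x y : G} (hn : ∀ g, n * g = g * n) (h1 : x * x = n)
    (h2 : y * y = n) (h3 : x * y * (x * y) = n) (h4 : n * n = 1) : x * y = n * (y * x) := by
  rw [← h1, mul_assoc, mul_right_inj] at h3
  refine mul_left_cancel (a := y) ?_
  rw [h3, ← mul_assoc, ← hn, mul_assoc, ← mul_assoc y, h2, ← mul_assoc, h4, one_mul]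

theorem sq_eq_one_of_conj {G H : Type*} [Group G] [Group H] (π : G →* H)
    (hπ : Function.Surjective π) {n : G} (hn : ∀ g, n * g = g * n) (hn' : n * n = 1)
    (hZ : ∀ g, π g = 1 → g = 1 ∨ g = n) {A : Subgroup H} (h1 : Nat.card A = 16)
    (h3 : ∀ a ∈ A, a * a = 1) (hc : ∀ a ∈ A, ∀ b ∈ A, a ≠ 1 → b ≠ 1 → IsConj a b) {a : G}
    (ha : π a ∈ A) : a * a = 1 := by
  classical
  by_contra h0
  have h5 := (hZ (a * a) (by rw [map_mul, h3 _ ha])).resolve_left h0
  have h6 : π a ≠ 1 := fun h6 => h0 (by rcases hZ a h6 with h7 | h7 <;> simp [h7, hn'])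
  have h7 : ∀ b, π b ∈ A → π b ≠ 1 → b * b = n := fun b hb h7 => by
    obtain ⟨g, hg⟩ := isConj_iff.1 (hc _ ha _ hb h6 h7)
    obtain ⟨g, rfl⟩ := hπ g
    have h8 : g * a * g⁻¹ * (g * a * g⁻¹) = n := by
      rw [conj_mul, h5, ← hn, mul_inv_cancel_right]
    rcases hZ (g * a * g⁻¹ * b⁻¹) (by simp [hg]) with h9 | h9
    · rwa [mul_inv_eq_one.1 h9] at h8
    · rwa [mul_inv_eq_iff_eq_mul.1 h9, mul_assoc, ← mul_assoc b, ← hn, ← mul_assoc, ← mul_assoc, hn',
        one_mul] at h8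
  have := Nat.finite_of_card_ne_zero (α := A) (by omega)
  have := Fintype.ofFinite A
  rw [Nat.card_eq_fintype_card] at h1
  obtain ⟨⟨b, hb⟩, h8⟩ := exists_notMem_list [1, (⟨_, ha⟩ : A)] (by simp; omega)
  obtain ⟨⟨w, hw⟩, h9⟩ := exists_notMem_list [1, (⟨_, ha⟩ : A), ⟨b, hb⟩, ⟨b, hb⟩ * ⟨_, ha⟩]
    (by simp; omega)
  obtain ⟨b, rfl⟩ := hπ b
  obtain ⟨w, rfl⟩ := hπ w
  simp only [List.mem_cons, List.not_mem_nil, or_false, not_or, Subtype.ext_iff, Subgroup.coe_mul,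
    Subgroup.coe_one] at h8 h9
  have h10 : ∀ u, π u ∈ A → π u ≠ 1 → π u ≠ π a → a * u = n * (u * a) := fun u hu u1 u2 =>
    anti_of_sq hn h5 (h7 u hu u1) (h7 (a * u) (by rw [map_mul]; exact A.mul_mem ha hu) fun h10 =>
      u2 (mul_left_cancel ((map_mul π a u).symm.trans (h10.trans (h3 _ ha).symm)))) hn'
  have e1 := h10 b hb h8.1 h8.2
  have e2 := h10 w hw h9.1 h9.2.1
  have e3 := h10 (b * w) (by rw [map_mul]; exact A.mul_mem hb hw) (fun h11 => h9.2.2.1
    (mul_left_cancel ((map_mul π b w).symm.trans (h11.trans (h3 _ hb).symm)))) fun h11 =>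
      h9.2.2.2 (by rw [← h11, map_mul, ← mul_assoc, h3 _ hb, one_mul])
  rw [← mul_assoc, e1, mul_assoc, mul_assoc, e2, mul_right_inj, ← mul_assoc, ← hn, mul_assoc,
    mul_assoc] at e3
  exact h0 (h5.trans (by simpa using e3))

theorem Fr5.cen6' (h : Fr5 Q e c κ) (h6 : 6 ≤ Fintype.card ι)
    (hH : (Hh Q fun i => F ∙ e i) ⊓ Om Q ≤ X) (hX : X ≤ Om Q) (hn : ¬ Om Q ≤ X) {g : O Q}
    (hg : g ∈ X) {J : Finset ι} (hJ : J.card = 2) {z : O Q} (hz : Sg c J z)
    (h1 : g * z = z * g ∨ g * z = negO Q * (z * g)) : g ∈ Hh Q fun i => F ∙ e i := by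
  have h2 := h.two
  obtain ⟨i, j, hij, rfl⟩ := Finset.card_eq_two.1 hJ
  refine h1.elim (h.cen6 h6 hH hX hn hg hij hz) fun h11 => ?_
  obtain ⟨a, ha⟩ := exists_notMem_list [i, j] (by simp; omega)
  obtain ⟨b, hb⟩ := exists_notMem_list [i, j, a] (by simp; omega)
  obtain ⟨d, hd⟩ := exists_notMem_list [i, j, a, b] (by simp; omega)
  simp only [List.mem_cons, List.not_mem_nil, or_false, not_or] at ha hb hd
  have h12 : ∀ a, a ≠ i → a ≠ j → g.1 (e a) ∈ Submodule.span F {e i, e j} := fun a a1 a2 =>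
    h.mem_of_coord fun l hl => Submodule.subset_span (by
      have : c l (g.1 (z.1 (e a))) = -c l (z.1 (g.1 (e a))) := by
        rw [← O.mul_apply, h11, O.mul_apply, negO_apply, map_neg, O.mul_apply]
      rw [hz, show z.1 (e a) = e a from h.ext fun m => by
        rw [hz, h.ce]; split_ifs <;> simp_all] at this
      split_ifs at this with h12
      · simp only [Finset.mem_insert, Finset.mem_singleton] at h12
        rcases h12 with rfl | rfl <;> simp
      · exact absurd (eq_zero_of_eq_neg h2 this) hl)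
  have := three_le_finrank (Q := Q) (h12 a ha.1 ha.2) (h12 b hb.1 hb.2.1) (h12 d hd.1 hd.2.1)
    (O.apply_ne_zero _ (h.e_ne a)) (v := g.1 (e b)) (w := g.1 (e d))
    (by simp [O.map_B, h.Be, h.ce, hb.2.2]) (by simp [O.map_Q, h.Qe, h2, h.hκ])
    (by simp [O.map_B, h.Be, h.ce, hd.2.2.1]) (by simp [O.map_B, h.Be, h.ce, hd.2.2.2])
    (by simp [O.map_Q, h.Qe, h2, h.hκ])
  have := finrank_span_pair_le (F := F) (e i) (e j)
  omega

theorem Fr5.cen6'' (h : Fr5 Q e c κ) (h6 : Fintype.card ι = 6)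
    (hH : (Hh Q fun i => F ∙ e i) ⊓ Om Q ≤ X) (hX : X ≤ Om Q) (hn : ¬ Om Q ≤ X) {g : O Q}
    (hg : g ∈ X) {z : O Q} (hz : z ∈ Om Q) (hz' : ∀ i, z.1 (e i) = e i ∨ z.1 (e i) = -e i)
    (z1 : z ≠ 1) (z2 : z ≠ negO Q) (h1 : g * z = z * g ∨ g * z = negO Q * (z * g)) :
    g ∈ Hh Q fun i => F ∙ e i := by
  classical
  have h7 : Sg c (Finset.univ.filter fun i => z.1 (e i) = -e i) z := fun l x => by
    have h7 := O.map_B z (e l) x
    refine mul_left_cancel₀ (mul_ne_zero h.two h.hκ) ?_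
    simp only [Finset.mem_filter, Finset.mem_univ, true_and]
    split_ifs with h8
    · rw [h8, polar_neg_left, h.Be, h.Be] at h7
      linear_combination -h7
    · rwa [(hz' l).resolve_right h8, h.Be, h.Be] at h7
  have h8 : ∀ {J z}, Sg c J z → Sg c Jᶜ (negO Q * z) := fun h8 l x => by
    rw [O.mul_apply, negO_apply, map_neg, h8]; split_ifs <;> simp_all
  generalize (Finset.univ.filter fun i => z.1 (e i) = -e i) = J at h7
  obtain ⟨m, hm⟩ : Even J.card := by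
    by_contra h10
    obtain ⟨m, hm⟩ := Nat.not_even_iff_odd.1 h10
    obtain ⟨i, hi⟩ := Finset.card_pos.1 (by omega : 0 < J.card)
    have h11 : Sg c {i} (refl Q (e i)) := fun l x => by simp [h.c_refl]
    refine refl_notMem_Om h.nd h.good (h.Qe_ne i) (((Om Q).mul_mem_cancel_right hz).1
      (h.sg_mem (h11.mul h7) (m := m) ?_).1.2)
    rw [show symmDiff {i} J = J.erase i by ext l; simp [Finset.mem_symmDiff]; grind,
      Finset.card_erase_of_mem hi]
    omega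
  have h11 : J.card ≠ 0 := fun h11 => z1 (h.sg_eq h7 (Finset.card_eq_zero.1 h11 ▸ h.sg_empty))
  have h12 := Finset.card_compl J
  have h13 : Jᶜ.card ≠ 0 := fun h13 => z2 (by
    have := h.sg_eq (h8 h7) (Finset.card_eq_zero.1 h13 ▸ h.sg_empty)
    rw [← one_mul z, ← negO_mul_self, mul_assoc, this, mul_one])
  by_cases h14 : J.card = 2
  · exact h.cen6' h6.ge hH hX hn hg h14 h7 h1
  · refine h.cen6' h6.ge hH hX hn hg (by omega) (h8 h7) ?_
    rw [← mul_assoc, ← negO_comm, mul_assoc, mul_assoc]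
    exact h1.imp (fun h => congrArg _ h) fun h => congrArg _ h

theorem p6_Om (hQ : Nondeg Q) (h2 : (2 : F) ≠ 0) (hF : (Fintype.card F).Prime)
    (hn : finrank F V = 6) (hneg : negO Q ∈ Om Q) : P6 (Om Q ⧸ Subgroup.center (Om Q)) :=
  fun A X h1 h3 hc h4 => by
  have hG := good_of_two_ne_zero hQ h2
  obtain ⟨x, y, hxy⟩ := exists_isHyp hQ (by omega)
  have hZ : ∀ g : Om Q, (g : Om Q ⧸ Subgroup.center (Om Q)) = 1 ↔ g.1 = 1 ∨ g.1 = negO Q :=
    fun g => by rw [QuotientGroup.eq_one_iff, hxy.mem_center_Om_iff hQ hG (by omega)]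
  obtain ⟨e, c, κ, h, hA⟩ := exists_fr5 hQ h2 hF hn (by omega) (up_le A) (fun a ha => by
    lift a to Om Q using up_le A ha
    exact congrArg Subtype.val (sq_eq_one_of_conj (QuotientGroup.mk' _)
      (QuotientGroup.mk'_surjective _) (n := ⟨_, hneg⟩) (fun g => Subtype.ext (negO_comm g.1))
      (Subtype.ext negO_mul_self) (fun g hg => ((hZ g).1 hg).imp Subtype.ext Subtype.ext) h1 h3 hc
      (mem_up.1 ha))) (by
      rw [card_up, h1, hxy.card_center_Om_of_mem hQ hG (by omega) h2 hneg]; rfl)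
  refine or_iff_not_imp_left.2 fun h5 z hz hz1 g hg h6 => ?_
  obtain ⟨g, rfl⟩ := QuotientGroup.mk_surjective g
  obtain ⟨z, rfl⟩ := QuotientGroup.mk_surjective z
  exact h.nr hA (h.cen6'' (by simp) (h.le_up hA h4) (up_le X) (fun h6 => h5 (eq_top_of_up h6))
    (mem_up.2 hg) z.2 ((hA _).1 (mem_up.2 hz)).2 (fun e => hz1 ((hZ z).2 (Or.inl e)))
    (fun e => hz1 ((hZ z).2 (Or.inr e))) (((hZ (g * z * (z * g)⁻¹)).1 (mul_inv_eq_one.2 h6)).imp
      mul_inv_eq_one.1 mul_inv_eq_iff_eq_mul.1))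

theorem p5_PSp (h2 : (2 : F) ≠ 0) (hF : (Fintype.card F).Prime) : P5 (Cfsg.PSp 2 F) :=
  (nonempty_POm_five (odd_card_iff.2 h2)).elim fun φ =>
    (p5_Om (nondeg_QOdd h2 2) h2 hF (finrank_odd 2)).congr φ

theorem p6_PSL (hF : (Fintype.card F).Prime) (h4 : Fintype.card F % 4 = 1) :
    P6 (Matrix.ProjectiveSpecialLinearGroup (Fin 4) F) :=
  have ho : Odd (Fintype.card F) := Nat.odd_iff.2 (by omega)
  nonempty_POm_six_plus.elim fun φ => (p6_Om (nondeg_QPlus 3) (odd_card_iff.1 ho) hF (finrank_plus 3)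
    ((negO_mem_Om_QPlus ho 3).2 (by rw [Nat.pow_mod, h4]))).congr φ

theorem p6_PSU {K : Type*} [Field K] [Fintype K] {q : ℕ} [H11.U.IsSq K q] (hq : q.Prime)
    (h4 : q % 4 = 3) : P6 (Cfsg.PSU 4 K q) := by
  have := Fact.mk hq
  have hc := ZMod.card q
  have ho : Odd (Fintype.card (ZMod q)) := Nat.odd_iff.2 (by omega)
  obtain ⟨b, hab⟩ := H66.exists_aniso (F := ZMod q)
  exact (nonempty_POm_six_minus hc hab).elim fun φ => (p6_Om (nondeg_QMinus hab 2)
    (odd_card_iff.1 ho) (by rwa [hc]) (finrank_minus 2)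
    ((negO_mem_Om_QMinus ho hab 2).2 (by rw [hc, Nat.pow_mod, h4]))).congr φ

end H97o
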