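import Mathlib
import Cfsg.Agent.Base
import Cfsg.Agent.Lib.Cliff.Final

/-!
If the centralisers in `X` of the elements of the Pauli group normalise it, so does `X`.
-/

set_option autoImplicit false
set_option linter.unusedSectionVars false
set_option linter.unusedVariables false

namespace H97c

open Module H97 H28

theorem ring_special {R : Type*} [Ring R] {A B C : R} (hA : A * A = -1) (hB : B * B = -1)
    (hC : C * C = -1) (hAB : B * A = A * B) (hCA : C * A = -(A * C)) (hCB : C * B = -(B * C)) :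
    (1 + C) * (1 + C * (A * B)) * A = B * ((1 + C) * (1 + C * (A * B))) ∧
    (1 + C) * (1 + C * (A * B)) * B = A * ((1 + C) * (1 + C * (A * B))) ∧
    (1 + C) * (1 + C * (A * B)) * C = C * ((1 + C) * (1 + C * (A * B))) ∧
    (1 + A) * (1 + B) * C * ((1 + B * C) * (1 - B * C * (A * B))) * (A * B) =
      (1 + C) * (1 + C * (A * B)) + (1 + C) * (1 + C * (A * B)) := by
  have f1 : ∀ t, A * (A * t) = -t := fun t => by rw [← mul_assoc, hA, neg_one_mul]
  have f2 : ∀ t, B * (B * t) = -t := fun t => by rw [← mul_assoc, hB, neg_one_mul]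
  have f4 : ∀ t, B * (A * t) = A * (B * t) := fun t => by rw [← mul_assoc, hAB, mul_assoc]
  have f5 : ∀ t, C * (A * t) = -(A * (C * t)) := fun t => by
    rw [← mul_assoc, hCA, neg_mul, mul_assoc]
  have f6 : ∀ t, C * (B * t) = -(B * (C * t)) := fun t => by
    rw [← mul_assoc, hCB, neg_mul, mul_assoc]
  refine ⟨?_, ?_, ?_, ?_⟩ <;>
  · simp only [mul_add, add_mul, mul_sub, sub_mul, mul_assoc, mul_one, one_mul, mul_neg, neg_mul,
      neg_neg, hA, hB, hC, hAB, hCA, hCB, f1, f2, f4, f5, f6]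
    try abel

variable {F V E : Type*} [Field F] [AddCommGroup V] [Module F V] [AddCommGroup E]
  [Module (ZMod 2) E] [Finite E]

namespace Pauli

variable {P P' : Pauli F V E} {X : Subgroup (V ≃ₗ[F] V)} {φ ψ : End F V} {x y x' y' a b b' : E}

/-- The elements of `P'` normalising `P`. -/
def sub (P P' : Pauli F V E) : Submodule (ZMod 2) E where
  carrier := {x | P.Nm (P'.l x)}
  add_mem' := fun {a b} ha hb => by
    obtain ⟨c, -, e⟩ := P'.add a b
    change P.Nm _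
    rw [e]; exact (Nm.mul ha hb).smul c
  zero_mem' := by
    obtain ⟨c, -, e⟩ := P'.l_zero
    change P.Nm _
    rw [e]; exact nm_one.smul c
  smul_mem' := fun c a ha => by
    rcases z2 c with rfl | rfl
    · obtain ⟨c, -, e⟩ := P'.l_zero
      change P.Nm _
      rw [zero_smul, e]; exact nm_one.smul c
    · rwa [one_smul]

/-- The two systems meet in the scalars. -/
def Dis (P P' : Pauli F V E) : Prop := ∀ x y (c : F), x ≠ 0 → P'.l x ≠ c • P.l y

theorem Dis.symm (h : P.Dis P') : P'.Dis P := fun x y c hx e => by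
  have := P.nt
  have hc : c ≠ 0 := by
    rintro rfl
    exact (P.l_unit x).ne_zero (by simpa using e)
  refine h y x c⁻¹ ?_ (by rw [e, smul_smul, inv_mul_cancel₀ hc, one_smul])
  rintro rfl
  obtain ⟨d, -, e'⟩ := P'.l_zero
  exact hx (P.eq_zero_of_l (by rw [e, e', smul_smul]))

theorem mp_swap (h : P.Mp (P'.l x) y y) : P'.Mp (P.l y) x x := by
  obtain ⟨c, hc, e⟩ := h
  exact ⟨c⁻¹, inv_ne_zero hc, by rw [e, smul_smul, inv_mul_cancel₀ hc, one_smul]⟩

theorem Dis.eq (h : P.Dis P') {c : F} {u : E} (hc : c ≠ 0) (e : P'.l x = c • (P.l u * P'.l x')) :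
    x = x' ∧ u = 0 := by
  obtain ⟨d, hd, e1⟩ := P'.add x x'
  rw [e, smul_mul_assoc, mul_assoc, P'.sq, mul_smul_comm, mul_one, smul_smul, smul_smul] at e1
  have h1 : x + x' = 0 := by_contra fun h1 => h _ _ _ h1 e1
  refine ⟨add_eq_zero2.1 h1, by_contra fun h2 => h.symm u 0 (d * c * sg F (P'.q x'))⁻¹ h2 ?_⟩
  rw [← h1, e1, smul_smul, inv_mul_cancel₀ (by simp [*, sg_ne_zero]), one_smul]

theorem Dis.comm (h : P.Dis P') (hx : x ∈ P.sub P') (hy : y ∈ P'.sub P) : P.Mp (P'.l x) y y := by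
  obtain ⟨y₁, c, hc, e⟩ := hx y
  obtain ⟨x₁, d, hd, e'⟩ := hy x
  obtain ⟨t, ht, e1⟩ := P.add' y y₁
  have h1 := congrArg (fun s => P.l y * s) e
  simp only [mul_smul_comm] at h1
  rw [← mul_assoc, e', smul_mul_assoc, mul_assoc, P.sq, ← mul_assoc, e1, mul_smul_comm, mul_one,
    smul_smul, smul_mul_assoc, smul_smul] at h1
  have h2 : d * sg F (P.q y) ≠ 0 := mul_ne_zero hd (sg_ne_zero _)
  obtain ⟨rfl, -⟩ := h.eq (x := x₁) (x' := x) (c := (d * sg F (P.q y))⁻¹ * (c * t))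
    (by simp [*, sg_ne_zero])
    (by rw [mul_smul, ← h1, smul_smul, inv_mul_cancel₀ h2, one_smul])
  exact mp_swap ⟨d, hd, e'⟩

theorem Mp.invol (h : P.Mp (P'.l x) y y') : P.Mp (P'.l x) y' y := by
  have := (h.smul (sg F (P'.q x))).inv (ψ := P'.l x)
    (by rw [smul_mul_assoc, P'.sq, smul_smul]; simp) (by rw [mul_smul_comm, P'.sq, smul_smul]; simp)
  exact this

/-- The hypotheses on two Pauli systems in `X`. -/
structure Two (P P' : Pauli F V E) (X : Subgroup (V ≃ₗ[F] V)) : Prop where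
  c : P.Ctx X
  c' : P'.Ctx X
  C : ∀ x, x ≠ 0 → P.Cen X x
  C' : ∀ x, x ≠ 0 → P'.Cen X x
  D : P.Dis P'

namespace Two

theorem symm (h : Two P P' X) : Two P' P X := ⟨h.c', h.c, h.C', h.C, h.D.symm⟩

theorem mem (h : Two P P' X) (hx : x ≠ 0) (h1 : P.Mp (P'.l x) y y) : y ∈ P'.sub P :=
  h.C' x hx _ (h.c.l y) (mp_swap h1)

theorem half (h : Two P P' X) (hx : x ∈ P.sub P') (h0 : x ≠ 0) :
    finrank (ZMod 2) E ≤ 2 * finrank (ZMod 2) (P'.sub P) ∧ ∃ y, y ∉ P'.sub P := by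
  constructor
  · obtain ⟨γ, hγ⟩ := Nm.act hx (P'.l_unit x)
    have h1 : LinearMap.ker (γ.toLinearMap + LinearMap.id) ≤ P'.sub P := fun y hy =>
      h.mem h0 (by simpa [show γ y = y from add_eq_zero2.1 hy] using hγ y)
    have h2 : LinearMap.range (γ.toLinearMap + LinearMap.id) ≤ P'.sub P := by
      rintro _ ⟨y, rfl⟩
      exact h.mem h0 (by simpa [add_comm] using (hγ y).invol.add (hγ y))
    have := LinearMap.finrank_range_add_finrank_ker (γ.toLinearMap + LinearMap.id)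
    have := Submodule.finrank_mono h1
    have := Submodule.finrank_mono h2
    omega
  · by_contra h1
    push Not at h1
    obtain ⟨y, c, -, e⟩ := centE (P'.l_unit x) fun y => h.D.comm hx (h1 y)
    exact h.D x y c h0 e

theorem lagr (h : Two P P' X) (hx : x ∈ P.sub P') (h0 : x ≠ 0) :
    perp P.pq (P'.sub P) = P'.sub P ∧ 2 * finrank (ZMod 2) (P'.sub P) = finrank (ZMod 2) E ∧
    2 * finrank (ZMod 2) (P.sub P') = finrank (ZMod 2) E ∧
    ∀ y, y ∉ P'.sub P → ∀ b ∈ P'.sub P, ∃ x ∈ P.sub P', P.Mp (P'.l x) y (y + b) := by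
  obtain ⟨h1, y₀, h2⟩ := h.half hx h0
  have h3 := finrank_perp P.sep (P'.sub P)
  obtain ⟨b₀, b1, b2⟩ : ∃ b ∈ P'.sub P, b ≠ 0 := exists_ne_zero_mem (by
    have : Nontrivial E := ⟨x, 0, h0⟩
    have := finrank_pos (R := ZMod 2) (M := E)
    omega)
  have h4 := (h.symm.half b1 b2).1
  have key : ∀ y, y ∉ P'.sub P → ∃ T : Submodule (ZMod 2) E, T ≤ perp P.pq (P'.sub P) ∧
      T ≤ P'.sub P ∧ finrank (ZMod 2) T = finrank (ZMod 2) (P.sub P') ∧
      ∀ b ∈ T, ∃ x ∈ P.sub P', P.Mp (P'.l x) y (y + b) := fun y hy => by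
    choose f hf using fun x : P.sub P' => x.2 y
    have f0 : ∀ x, f x + y ∈ P'.sub P := fun x => by
      by_cases hx : x.1 = 0
      · have := hf x
        obtain ⟨c, -, e⟩ := P'.l_zero
        rw [hx] at this
        rw [this.uniq (P'.l_unit 0) (e ▸ (mp_one y).smul c), add_self2]
        exact zero_mem _
      · exact h.mem hx (by simpa [add_comm] using (hf x).invol.add (hf x))
    let f' : P.sub P' →+ E := AddMonoidHom.mk' (fun x => f x + y) fun x x' => by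
      obtain ⟨c, -, e⟩ := P'.add x x'
      have h5 := (((hf x).add (h.D.comm x.2 (f0 x'))).mul
        (show P.Mp (P'.l x') y (y + (f x' + y)) by simpa [add_comm y, add_add_cancel2] using hf x')).smul c
      rw [← e] at h5
      rw [(hf (x + x')).uniq (P'.l_unit _) h5]
      abel
    have h5 : Function.Injective (f'.toZModLinearMap 2) := (injective_iff_map_eq_zero _).2
      fun x e => Subtype.ext (by_contra fun hx => hy (h.mem hx
        (by simpa [show f x = y from add_eq_zero2.1 e] using hf x)))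
    refine ⟨LinearMap.range (f'.toZModLinearMap 2), ?_, ?_, LinearMap.finrank_range_of_inj h5, ?_⟩
    · rintro _ ⟨x, rfl⟩
      refine mem_perp.2 fun u hu => ?_
      change P.B u (f x + y) = 0
      rw [map_add, (h.D.comm x.2 hu).B (P'.l_unit _) (hf x), z2_add_self]
    · rintro _ ⟨x, rfl⟩
      exact f0 x
    · rintro _ ⟨x, rfl⟩
      exact ⟨x, x.2, by
        change P.Mp _ y (y + (f x + y))
        simpa [add_comm y, add_add_cancel2] using hf x⟩
  obtain ⟨T, t1, t2, t3, -⟩ := key y₀ h2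
  have := Submodule.finrank_mono t1
  have t4 := Submodule.eq_of_le_of_finrank_le t1 (by omega)
  refine ⟨Submodule.eq_of_le_of_finrank_le (t4 ▸ t2) (by omega), by omega, by omega,
    fun y hy b hb => ?_⟩
  obtain ⟨T, t1, t2, t3, t5⟩ := key y hy
  exact t5 b ((Submodule.eq_of_le_of_finrank_le t2 (by omega)).ge hb)

theorem contra (h : Two P P' X) (hφ : In X φ) (h0 : x ≠ 0) (h1 : P'.l x * φ = φ * P'.l x) {u : E}
    {c : F} (hc : c ≠ 0) (e : P'.l x' * φ = c • (P.l u * (φ * P'.l x'))) : u = 0 := by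
  obtain ⟨y, d, hd, e'⟩ := h.C' x h0 φ hφ (mp_of_comm h1.symm) x'
  rw [e', mul_smul_comm, smul_smul, ← mul_assoc, ← smul_mul_assoc] at e
  exact (h.D.eq (mul_ne_zero hc hd) (hφ.unit.mul_right_cancel e)).2

end Two

/-- The sign with which `φ` commutes with `l b`. -/
def Sn (P : Pauli F V E) (φ : End F V) (b : E) (s : ZMod 2) : Prop :=
  φ * P.l b = sg F s • (P.l b * φ)

theorem Sn.add {s t : ZMod 2} (h : P.Sn φ a s) (h' : P.Sn φ b t) : P.Sn φ (a + b) (s + t) := by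
  obtain ⟨c, -, e⟩ := P.add a b
  rw [Sn, e, mul_smul_comm, ← mul_assoc, h, smul_mul_assoc, mul_assoc, h', sg_add]
  simp only [mul_smul_comm, smul_mul_assoc, smul_smul, mul_assoc, mul_comm]

theorem Sn.mul {s t : ZMod 2} (h : P.Sn φ a s) (h' : P.Sn ψ a t) {c : F} :
    P.Sn (c • (φ * ψ)) a (s + t) := by
  rw [Sn, smul_mul_assoc, mul_assoc, h', mul_smul_comm, ← mul_assoc, h, sg_add]
  simp only [mul_smul_comm, smul_mul_assoc, smul_smul, mul_assoc, mul_comm]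

theorem Sn.uniq {s t : ZMod 2} (hφ : IsUnit φ) (h : P.Sn φ a s) (h' : P.Sn φ a t) : s = t :=
  sg_inj P.two (P.smul_inj ((P.l_unit a).mul hφ) (h.symm.trans h'))

theorem Sn.zero (h : P.Sn φ a 0) : φ * P.l a = P.l a * φ := by simpa [Sn] using h

theorem Sn.one (h : P.Sn φ a 1) : φ * P.l a = -(P.l a * φ) := by simpa [Sn] using h

theorem Mp.key {s : ZMod 2} (h : P.Mp (P'.l x) y (y + b)) (h' : P.Sn (P'.l x) b s) :
    P.B y b = s := by
  obtain ⟨c, hc, e⟩ := h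
  obtain ⟨d, hd, e1⟩ := P.add y b
  rw [e1, smul_mul_assoc, smul_smul, mul_assoc] at e
  generalize c * d = t at e
  have u := P'.l_unit x
  have h1 : P'.l x * (P'.l x * P.l y) = (t * t * sg F s * sg F (P.q b)) • (P.l y * (P'.l x * P'.l x)) := by
    rw [e, mul_smul_comm, ← mul_assoc, e, smul_mul_assoc, mul_assoc, mul_assoc, ← mul_assoc (P'.l x),
      h', smul_mul_assoc, mul_smul_comm, mul_smul_comm, mul_assoc, P.l_l]
    simp only [mul_smul_comm, smul_smul, mul_assoc]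
  have h2 : P'.l x * (P.l y * P.l y) =
      (t * t * sg F (P.B b y) * sg F (P.q b)) • (P.l y * (P.l y * P'.l x)) := by
    rw [← mul_assoc, e, smul_mul_assoc, mul_assoc, mul_assoc, e, mul_smul_comm, mul_smul_comm,
      P.comm' b y, mul_smul_comm, P.l_l b]
    simp only [mul_smul_comm, smul_smul, mul_assoc]
  rw [P'.l_l, P'.sq, mul_smul_comm, mul_one, smul_smul] at h1
  rw [P.l_l, P.sq, mul_smul_comm, mul_one, smul_smul] at h2
  have e2 := mul_right_cancel₀ (sg_ne_zero (F := F) (P'.q x))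
    ((one_mul _).trans (P.smul_inj (P.l_unit y) h1))
  have e3 := mul_right_cancel₀ (sg_ne_zero (F := F) (P.q y)) ((one_mul _).trans (P.smul_inj u h2))
  rw [P.symm]
  refine sg_inj P.two ?_
  linear_combination sg F (P.B b y) * e2 - sg F s * e3

theorem sn_tau {s : ZMod 2} (hb : P.q b = 1) (h : P.Sn φ b s) :
    ∃ c : F, c ≠ 0 ∧ φ * (1 + P.l b) = c • (P.l (s • b) * ((1 + P.l b) * φ)) := by
  rcases z2 s with rfl | rfl
  · obtain ⟨c, hc, e⟩ := P.l_zero
    exact ⟨c⁻¹, inv_ne_zero hc, by simp [e, mul_add, add_mul, h.zero, smul_smul, hc]⟩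
  · refine ⟨-1, by simp, ?_⟩
    rw [one_smul, ← mul_assoc, ← smul_mul_assoc, ← tau_neg hb, mul_add, h.one]
    noncomm_ring

namespace Two

theorem pair (h : Two P P' X) (hb : P.q b = 1) (hb' : P.q b' = 1) (hbb : P.B b b' = 0)
    (hne : b ≠ b') (h0 : x ≠ 0) (h1 : P.Sn (P'.l x) b 0) (h2 : P.Sn (P'.l x) b' 0)
    (h3 : P.Sn (P'.l x') b 1) {s : ZMod 2} (h4 : P.Sn (P'.l x') b' s) : False := by
  obtain ⟨c, hc, e⟩ := sn_tau hb h3
  obtain ⟨d, hd, e'⟩ := sn_tau hb' h4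
  obtain ⟨t, ht, e1⟩ := P.add' b (s • b')
  have h5 : (1 + P.l b) * P.l (s • b') = P.l (s • b') * (1 + P.l b) := by
    rw [add_mul, mul_add, l_comm (by simp [hbb]), one_mul, mul_one]
  have := h.contra (h.c.pair b b' hb hb') h0 (x' := x') (u := b + s • b') (c := c * d * t)
    (by simp only [mul_add, add_mul, mul_one, one_mul, h1.zero, h2.zero, mul_assoc]
        rw [← mul_assoc, h1.zero, mul_assoc, h2.zero]) (by simp [*]) (by
    rw [← mul_assoc, e, one_smul, smul_mul_assoc, mul_assoc, mul_assoc, e', mul_smul_comm,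
      ← mul_assoc (1 + P.l b), h5, mul_smul_comm, mul_assoc, ← mul_assoc (P.l b), e1]
    simp only [smul_mul_assoc, smul_smul, mul_assoc])
  rcases z2 s with rfl | rfl
  · exact P.ne_zero_of_q hb (by simpa using this)
  · exact hne (add_eq_zero2.1 (by simpa using this))

theorem cz (h : Two P P' X) (h6 : 6 ≤ finrank (ZMod 2) E) (hb : P.q b = 0) (hb' : P.q b' = 0)
    (hbb : P.B b b' = 0) (hne : b ≠ b') (hb0 : b' ≠ 0) (h0 : x ≠ 0) (h1 : P.Sn (P'.l x) b 0)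
    (h2 : P.Sn (P'.l x) b' 0) (h3 : P.Sn (P'.l x') b 1) {s : ZMod 2} (h4 : P.Sn (P'.l x') b' s) :
    False := by
  have e1 := l_comm hbb
  have e2 := l_sq_of_zero hb
  have e3 := l_sq_of_zero hb'
  have f1 : ∀ t, P.l b' * (P.l b * t) = P.l b * (P.l b' * t) := fun t => by
    rw [← mul_assoc, ← e1, mul_assoc]
  have f2 : ∀ t, P.l b * (P.l b * t) = t := fun t => by rw [← mul_assoc, e2, one_mul]
  have f3 : ∀ t, P.l b' * (P.l b' * t) = t := fun t => by rw [← mul_assoc, e3, one_mul]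
  have f4 : ∀ t, P'.l x' * (P.l b * t) = -(P.l b * (P'.l x' * t)) := fun t => by
    rw [← mul_assoc, h3.one, neg_mul, mul_assoc]
  have h5 := fun u c => h.contra (h.c.cz h6 hb hb' hbb) h0 (x' := x') (u := u) (c := c) (by
    simp only [mul_add, add_mul, mul_sub, sub_mul, mul_one, one_mul, h1.zero, h2.zero, mul_assoc]
    rw [← mul_assoc, h1.zero, mul_assoc, h2.zero])
  rcases z2 s with rfl | rfl
  · refine hb0 (h5 b' 1 one_ne_zero ?_)
    simp only [mul_add, add_mul, mul_sub, sub_mul, mul_one, one_mul, one_smul, mul_assoc, f1, f3,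
      f4, h3.one, h4.zero]
    abel
  · obtain ⟨c, hc, e⟩ := P.add' b b'
    refine hne (add_eq_zero2.1 (h5 (b + b') (-c) (by simpa) ?_))
    rw [neg_smul, ← smul_mul_assoc, ← e]
    simp only [mul_add, add_mul, mul_sub, sub_mul, mul_one, one_mul, mul_assoc, f1, f2, f3,
      f4, h3.one, h4.one, mul_neg, neg_neg]
    abel

theorem special (h : Two P P' X) (hL : ∀ x, x ≠ 0 → P.q x = 1) {x₁ x₂ b₂ b₃ : E}
    (h1 : x₁ ∈ P.sub P') (h2 : x₂ ∈ P.sub P') (hb₂ : b₂ ≠ 0) (hb₃ : b₃ ≠ 0) (hne : b₂ ≠ b₃)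
    (hB : ∀ b, b ∈ P'.sub P ↔ b = 0 ∨ b = b₂ ∨ b = b₃ ∨ b = b₂ + b₃)
    (s1 : P.Sn (P'.l x₁) b₂ 1) (s2 : P.Sn (P'.l x₁) b₃ 1) (s3 : P.Sn (P'.l x₂) b₂ 0)
    (s4 : P.Sn (P'.l x₂) b₃ 1)
    (hinj : ∀ x ∈ P.sub P', P.Sn (P'.l x) b₂ 0 → P.Sn (P'.l x) b₃ 0 → x = 0) : False := by
  have hx₁ : x₁ ≠ 0 := by
    rintro rfl
    obtain ⟨c, -, e⟩ := P'.l_zero
    exact absurd (s1.uniq (P'.l_unit 0) (show P.Sn _ b₂ 0 by simp [Sn, e])) (by decide)
  obtain ⟨p1, -⟩ := h.lagr h1 hx₁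
  have m2 := (hB b₂).2 (by simp)
  have m3 := (hB b₃).2 (by simp)
  obtain ⟨p2, -⟩ := h.symm.lagr m2 hb₂
  have e23 : P.B b₂ b₃ = 0 := mem_perp.1 (p1.ge m3) b₂ m2
  have e32 : P.B b₃ b₂ = 0 := P.symm _ _ ▸ e23
  have q2 := hL b₂ hb₂
  have q3 := hL b₃ hb₃
  have act : ∀ y b b', P.B b y = 1 → P.B b' y = 0 → b ∈ P'.sub P → P.Sn (P'.l x₁) b 1 →
      P.Sn (P'.l x₁) b' 1 → (∀ u ∈ P'.sub P, u = 0 ∨ u = b ∨ u = b' ∨ u = b + b') →
      P.Mp (P'.l x₁) y (y + b) := fun y b b' a1 a2 a3 a4 a5 a6 => by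
    obtain ⟨y', hy'⟩ := h1 y
    have a7 := h.mem hx₁ (by simpa [add_comm] using hy'.invol.add hy' : P.Mp _ (y + y') (y + y'))
    rw [show y' = y + (y + y') by rw [← add_assoc, add_self2, zero_add]] at hy'
    generalize y + y' = u at a7 hy'
    rcases a6 u a7 with rfl | rfl | rfl | rfl
    · have := mem_perp.1 (p1.ge (h.mem hx₁ (by simpa using hy'))) b a3
      exact absurd (a1.symm.trans this) (by decide)
    · exact hy'
    · exact absurd ((hy'.key a5).symm.trans (P.symm _ _ ▸ a2)) (by decide)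
    · have := hy'.key (a4.add a5)
      rw [map_add, P.symm y, P.symm y, a1, a2] at this
      exact absurd this (by decide)
  obtain ⟨y₂, c1, c2⟩ := P.exists_B1 hb₂ hne
  obtain ⟨y₃, c3, c4⟩ := P.exists_B1 hb₃ hne.symm
  have a2 := act y₂ b₂ b₃ c1 c2 m2 s1 s2 fun u hu => (hB u).1 hu
  have a3 := act y₃ b₃ b₂ c3 c4 m3 s2 s1 fun u hu => by rw [add_comm]; have := (hB u).1 hu; tauto
  have a4 : ∀ y, P.Mp (P'.l x₁) y (y + P.B b₃ y • b₃ + P.B b₂ y • b₂) := fun y => by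
    have a5 : y + P.B b₂ y • y₂ + P.B b₃ y • y₃ ∈ P'.sub P := p1.le (mem_perp.2 fun u hu => by
      change P.B u _ = 0
      rcases (hB u).1 hu with rfl | rfl | rfl | rfl <;> simp [c1, c2, c3, c4, z2_add_self])
    have a6 : ∀ (s : ZMod 2) {u v}, P.Mp (P'.l x₁) u v → P.Mp (P'.l x₁) (s • u) (s • v) :=
      fun s u v a => by rcases z2 s with rfl | rfl <;> simp [mp_zero, a]
    convert ((h.D.comm h1 a5).add (a6 (P.B b₂ y) a2)).add (a6 (P.B b₃ y) a3) using 1 <;>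
    · generalize P.B b₂ y = α, P.B b₃ y = β
      match_scalars <;> (revert α β; decide)
  have t2 : IsUnit (1 + (-1 : F) • P.l b₂) := by
    rw [neg_one_smul, ← sub_eq_add_neg, tau_neg q2]
    exact isUnit_smul ((P.l_unit _).mul (tau_unit q2)) (by simp)
  have t3 : IsUnit (1 + (-1 : F) • P.l b₃) := by
    rw [neg_one_smul, ← sub_eq_add_neg, tau_neg q3]
    exact isUnit_smul ((P.l_unit _).mul (tau_unit q3)) (by simp)
  obtain ⟨y, c, hc, e⟩ := centE (t3.mul (t2.mul (P'.l_unit x₁))) fun y => by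
    convert (mp_tau' q3 (t := -1) (by simp) _).mul ((mp_tau' q2 (t := -1) (by simp) _).mul (a4 y))
      using 1
    simp only [map_add, map_smul, P.alt, e23, smul_zero, add_zero, add_add_cancel2]
  simp only [neg_one_smul, ← sub_eq_add_neg] at e
  have hm : P'.l x₁ = (c / 4) • ((1 + P.l b₂) * (1 + P.l b₃) * P.l y) := by
    have := congrArg (fun t => (4 : F)⁻¹ • ((1 + P.l b₂) * ((1 + P.l b₃) * t))) e
    simp only [← mul_assoc (1 + P.l b₃), tau_mul q3, smul_mul_assoc, one_mul, mul_smul_comm,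
      ← mul_assoc (1 + P.l b₂), tau_mul q2, smul_smul] at this
    rw [show (4 : F)⁻¹ * (2 * 2) = 1 from inv_mul_eq_one₀ (by
      rw [show (4 : F) = 2 * 2 by norm_num]; exact mul_ne_zero P.two P.two) |>.2 (by norm_num),
      one_smul] at this
    rw [this, div_eq_inv_mul]
  have hc4 : c / 4 ≠ 0 := by
    have := P.nt
    intro e0
    exact (P'.l_unit x₁).ne_zero (by rw [hm, e0, zero_smul])
  have u23 := (tau_unit q2).mul (tau_unit q3)
  have anti : ∀ b, P.B b₂ b = 0 → P.B b₃ b = 0 → P.Sn (P'.l x₁) b 1 → P.B y b = 1 :=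
    fun b z1 z2' s => (Sn.uniq (P'.l_unit _) s (by
      rw [hm, Sn, smul_mul_assoc, mul_assoc, P.comm y b]
      simp only [mul_smul_comm, add_mul, mul_add, one_mul, mul_one, mul_assoc, P.comm' b₂ b,
        P.comm' b₃ b, z1, z2', sg_zero, one_smul, smul_add, smul_comm (c / 4)])).symm
  have y2 := anti b₂ (P.alt _) e32 s1
  have y3 := anti b₃ e23 (P.alt _) s2
  have qy := hL y (P.ne_zero_of_B y2)
  obtain ⟨r1, r2, r3, r4⟩ := ring_special (l_sq_of_one q2) (l_sq_of_one q3) (l_sq_of_one qy)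
    (l_comm e32) (l_anti y2) (l_anti y3)
  have tt : P.TT (P.l y * (P.l b₂ * P.l b₃)) := by
    obtain ⟨d, -, e⟩ := P.add3 y b₂ b₃
    refine tt_of (hL _ (P.ne_zero_of_B (y := b₂) (by simp [y2, P.alt, e32]))) e ?_
    have k : Commute (P.l y) (P.l b₂ * P.l b₃) := by
      rw [Commute, SemiconjBy, ← mul_assoc, l_anti y2, neg_mul, mul_assoc, l_anti y3]
      simp [mul_assoc]
    have := k.mul_pow 2
    rw [Commute.mul_pow (l_comm e23)] at this
    simpa [pow_two, l_sq_of_one, q2, q3, qy] using this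
  have hin := h.c.pair' (tt_l qy) tt
  have hnm := (nm_tau qy).mul tt.nm
  have s3' := s3.zero
  have s4' := s4.one
  have cm : P'.l x₂ * P'.l x₁ = P'.l x₁ * P'.l x₂ := l_comm (mem_perp.1 (p2.ge h1) x₂ h2)
  have nC : P'.l x₂ * P.l y = P.l b₃ * P.l y * P'.l x₂ := by
    refine (isUnit_smul ((tau_unit q2).mul t3) hc4).mul_left_cancel ?_
    rw [hm] at cm
    have k : (1 + P.l b₃) = (1 - P.l b₃) * P.l b₃ := by
      rw [sub_mul, l_sq_of_one q3, one_mul]; abel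
    simp only [neg_one_smul, ← sub_eq_add_neg, smul_mul_assoc, mul_smul_comm] at cm ⊢
    rw [← mul_assoc _ (P.l b₃ * P.l y), ← mul_assoc _ (P.l b₃), mul_assoc _ _ (P.l b₃), ← k, ← cm]
    congr 1
    simp only [mul_add, add_mul, mul_sub, sub_mul, one_mul, mul_one, ← mul_assoc, s3']
    simp only [mul_assoc (P.l b₂), s4', mul_neg, neg_mul]
    abel
  set φ := (1 + P.l y) * (1 + P.l y * (P.l b₂ * P.l b₃)) with hφ
  obtain ⟨x₃, d, hd, e3⟩ := h.C' x₁ hx₁ φ hin (mp_of_comm (by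
    rw [hm, mul_smul_comm, smul_mul_assoc, ← mul_assoc, ← mul_assoc, mul_add φ, r1, mul_one,
      ← one_add_mul, mul_assoc _ φ, mul_add φ, r2, mul_one, ← one_add_mul, mul_assoc, mul_assoc, r3]
    simp only [mul_add, add_mul, one_mul, mul_one, mul_assoc, P.comm' b₃ b₂, e32, sg_zero, one_smul]
    congr 1
    abel)) x₂
  have h3 : x₃ ∈ P.sub P' := by
    have : P.Nm (d⁻¹ • (φ * P'.l x₂)) := (hnm.mul h2).smul _
    rw [e3, smul_smul, inv_mul_cancel₀ hd, one_smul] at this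
    exact hnm.of_mul_right hin.unit this
  have sw : ∀ {b b' s}, φ * P.l b = P.l b' * φ → P.Sn (P'.l x₂) b s → P.Sn (P'.l x₃) b' s :=
    fun {b b' s} a1 a2 => (isUnit_smul hin.unit hd).mul_right_cancel (by
      rw [mul_smul_comm, mul_assoc, ← a1, ← mul_assoc, ← smul_mul_assoc, ← e3, mul_assoc, a2,
        mul_smul_comm, ← mul_assoc, a1, mul_assoc, e3]
      simp only [mul_smul_comm, smul_mul_assoc, mul_assoc, smul_comm d])
  obtain ⟨t, ht, e4⟩ := P'.add x₁ x₂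
  obtain ⟨t', ht', e5⟩ := P'.add x₃ (x₁ + x₂)
  have h4 := hinj _ (add_mem h3 (add_mem h1 h2))
    (e5 ▸ (sw r2 s4).mul (c := t') (t := 1 + 0) (e4 ▸ s1.mul s3))
    (e5 ▸ (sw r1 s3).mul (c := t') (t := 1 + 1) (e4 ▸ s2.mul s4))
  rw [add_eq_zero2.1 h4, e4, smul_mul_assoc, mul_assoc (P'.l x₁), smul_smul,
    show P'.l x₂ * φ = (1 + P.l b₃ * P.l y) * (1 - P.l b₃ * P.l y * (P.l b₂ * P.l b₃)) * P'.l x₂ by
      have k : P'.l x₂ * (P.l y * (P.l b₂ * P.l b₃)) = -(P.l b₃ * P.l y * (P.l b₂ * P.l b₃) * P'.l x₂) := by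
        rw [← mul_assoc, nC, mul_assoc _ (P'.l x₂), ← mul_assoc (P'.l x₂), s3', mul_assoc (P.l b₂), s4']
        simp [mul_assoc]
      rw [hφ, ← mul_assoc, mul_add (P'.l x₂), nC, mul_one, ← one_add_mul, mul_assoc, mul_add (P'.l x₂), k,
        mul_assoc (1 + _), sub_mul, mul_one, one_mul, sub_eq_add_neg],
    ← mul_assoc, ← smul_mul_assoc] at e3
  have e6 := congrArg (· * (P.l b₂ * P.l b₃)) ((P'.l_unit x₂).mul_right_cancel e3)
  simp only [hm, smul_mul_assoc, r4, smul_smul] at e6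
  obtain ⟨w, hw, e7⟩ := P.add b₂ b₃
  refine hne (add_eq_zero2.1 (P.eq_zero_of_l (c := w * (d * t * (c / 4) * 2)) ?_))
  refine hin.unit.mul_left_cancel ?_
  rw [e7, mul_smul_comm, e6, ← two_smul F φ]
  simp only [smul_smul, mul_smul_comm, mul_one]

theorem eq_zero (h : Two P P' X) (hD : P.HD) (hx : x ∈ P.sub P') : x = 0 := by
  by_contra h0
  have h4 := hD.four
  obtain ⟨p1, p2, p3, p4⟩ := h.lagr hx h0
  have iso : ∀ b ∈ P'.sub P, ∀ b' ∈ P'.sub P, P.B b b' = 0 := fun b hb b' hb' =>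
    mem_perp.1 (p1.ge hb') b hb
  choose! s hs using fun x (hx : x ∈ P.sub P') b (hb : b ∈ P'.sub P) =>
    (h.D.comm hx hb).sign (P'.l_unit x)
  replace hs : ∀ x ∈ P.sub P', ∀ b ∈ P'.sub P, P.Sn (P'.l x) b (s x b) := hs
  obtain ⟨x', hx', w, hw, h1⟩ : ∃ x' ∈ P.sub P', ∃ w ∈ P'.sub P, s x' w = 1 := by
    by_contra h1
    push Not at h1
    obtain ⟨y, hy⟩ := (h.half hx h0).2
    refine hy (p1.le (mem_perp'.2 fun b hb => ?_))
    obtain ⟨x, a1, a2⟩ := p4 y hy b hb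
    exact (a2.key (hs x a1 b hb)).trans (z2_ne_one.1 (h1 x a1 b hb))
  have hw0 : w ≠ 0 := by
    rintro rfl
    obtain ⟨c, -, e⟩ := P.l_zero
    exact absurd (h1.symm.trans ((hs x' hx' 0 hw).uniq (P'.l_unit _)
      (show P.Sn _ 0 0 by simp [Sn, e]))) (by decide)
  have other : ∀ b, ∃ b' ∈ P'.sub P, b' ≠ 0 ∧ b' ≠ b := fun b => by
    by_contra h2
    push Not at h2
    have := Submodule.finrank_mono (show P'.sub P ≤ Submodule.span _ {b} from fun u hu =>
      mem_span1.2 (or_iff_not_imp_left.2 (h2 u hu)))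
    have := finrank_span_singleton_le (F := ZMod 2) b
    omega
  have sadd : ∀ x ∈ P.sub P', ∀ x' ∈ P.sub P', ∀ b ∈ P'.sub P, s (x + x') b = s x b + s x' b :=
    fun x hx x' hx' b hb => by
      obtain ⟨c, -, e⟩ := P'.add x x'
      exact (hs _ (add_mem hx hx') b hb).uniq (P'.l_unit _) (e ▸ (hs x hx b hb).mul (hs x' hx' b hb))
  have inj : ∀ b ∈ P'.sub P, ∀ b' ∈ P'.sub P, (∀ x ∈ P.sub P', s x b = 0 → s x b' = 0 → x = 0) →
      Function.Injective fun x : P.sub P' => (s x b, s x b') := fun b hb b' hb' h2 x y e =>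
    Subtype.ext (add_eq_zero2.1 (h2 _ (add_mem x.2 y.2)
      (by rw [sadd _ x.2 _ y.2 b hb, show s x b = s y b from (Prod.ext_iff.1 e).1, z2_add_self])
      (by rw [sadd _ x.2 _ y.2 b' hb', show s x b' = s y b' from (Prod.ext_iff.1 e).2,
        z2_add_self])))
  have card : Nat.card (P.sub P') = 2 ^ finrank (ZMod 2) (P.sub P') := by
    rw [Module.natCard_eq_pow_finrank (K := ZMod 2), Nat.card_zmod]
  have rad : 6 ≤ finrank (ZMod 2) E → ∀ b ∈ P'.sub P, ∀ b' ∈ P'.sub P,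
      ∃ x ∈ P.sub P', s x b = 0 ∧ s x b' = 0 ∧ x ≠ 0 := fun h6 b hb b' hb' => by
    by_contra h2
    push Not at h2
    have := Nat.card_le_card_of_injective _ (inj b hb b' hb' h2)
    rw [card, Nat.card_prod, Nat.card_zmod] at this
    have := Nat.pow_le_pow_right two_pos (show 3 ≤ finrank (ZMod 2) (P.sub P') by omega)
    omega
  by_cases h2 : ∀ b ∈ P'.sub P, P.q b = 0
  · have h6 : 6 ≤ finrank (ZMod 2) E := hD.resolve_right fun h6 =>
      absurd ((h6.2 w hw0).symm.trans (h2 w hw)) (by decide)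
    obtain ⟨b', a1, a2, a3⟩ := other w
    obtain ⟨x, c1, c2, c3, c4⟩ := rad h6 w hw b' a1
    exact h.cz h6 (h2 w hw) (h2 b' a1) (iso w hw b' a1) a3.symm a2 c4 (c2 ▸ hs x c1 w hw)
      (c3 ▸ hs x c1 b' a1) (h1 ▸ hs x' hx' w hw) (hs x' hx' b' a1)
  push Not at h2
  obtain ⟨b, hb, q1, s1⟩ : ∃ b ∈ P'.sub P, P.q b = 1 ∧ s x' b = 1 := by
    obtain ⟨b, hb, q1⟩ := h2
    rcases z2 (P.q w) with q2 | q2
    · rcases z2 (s x' b) with s1 | s1
      · exact ⟨w + b, add_mem hw hb, by rw [P.qa w b q2, z2_ne_zero.1 q1, iso w hw b hb, add_zero], by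
          rw [(hs x' hx' _ (add_mem hw hb)).uniq (P'.l_unit _)
            ((hs x' hx' w hw).add (hs x' hx' b hb)), h1, s1, add_zero]⟩
      · exact ⟨b, hb, z2_ne_zero.1 q1, s1⟩
    · exact ⟨w, hw, q2, h1⟩
  obtain ⟨b', hb', q2, hne⟩ : ∃ b' ∈ P'.sub P, P.q b' = 1 ∧ b ≠ b' := by
    obtain ⟨u, a1, a2, a3⟩ := other b
    rcases z2 (P.q u) with q2 | q2
    · exact ⟨u + b, add_mem a1 hb, by rw [P.qa u b q2, q1, iso u a1 b hb, add_zero],
        fun e => a2 (by simpa using e)⟩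
    · exact ⟨u, a1, q2, a3.symm⟩
  by_cases h3 : ∃ x ∈ P.sub P', s x b = 0 ∧ s x b' = 0 ∧ x ≠ 0
  · obtain ⟨x, c1, c2, c3, c4⟩ := h3
    exact h.pair q1 q2 (iso b hb b' hb') hne c4 (c2 ▸ hs x c1 b hb) (c3 ▸ hs x c1 b' hb')
      (s1 ▸ hs x' hx' b hb) (hs x' hx' b' hb')
  have h6 : ¬ 6 ≤ finrank (ZMod 2) E := fun h6 => h3 (rad h6 b hb b' hb')
  push Not at h3
  have bij := (Nat.bijective_iff_injective_and_card _).2 ⟨inj b hb b' hb' h3, by
    rw [card, Nat.card_prod, Nat.card_zmod, show finrank (ZMod 2) (P.sub P') = 2 by omega]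
    rfl⟩
  obtain ⟨x₁, e1⟩ := bij.2 (1, 1)
  obtain ⟨x₂, e2⟩ := bij.2 (0, 1)
  simp only [Prod.mk.injEq] at e1 e2
  have hb0 := P.ne_zero_of_q q1
  have hb0' := P.ne_zero_of_q q2
  refine h.special (hD.resolve_left h6).2 x₁.2 x₂.2 hb0 hb0' hne (fun u => ?_)
    (e1.1 ▸ hs _ x₁.2 b hb) (e1.2 ▸ hs _ x₁.2 b' hb') (e2.1 ▸ hs _ x₂.2 b hb)
    (e2.2 ▸ hs _ x₂.2 b' hb') fun x hx a1 a2 => h3 x hx ((hs x hx b hb).uniq (P'.l_unit _) a1)
      ((hs x hx b' hb').uniq (P'.l_unit _) a2)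
  rw [← mem_span2, Submodule.eq_of_le_of_finrank_le (S₁ := Submodule.span _ {b, b'})
    (S₂ := P'.sub P) (Submodule.span_le.2 (by rintro _ (rfl | rfl) <;> assumption)) ?_]
  have := finrank_span_eq_card (R := ZMod 2) (b := ![b, b']) (LinearIndependent.pair_iff.2
    fun s t e => by
      rcases z2 s with rfl | rfl <;> rcases z2 t with rfl | rfl <;> simp_all [add_eq_zero2])
  rw [Matrix.range_cons_cons_empty, Fintype.card_fin] at this
  omega

end Two

theorem dis_conj {g : V ≃ₗ[F] V} (h : ∀ x y, x ≠ 0 → ¬ P.Mp (ce g) x y) : P.Dis (P.conj g) :=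
  fun x y c hx e => by
    have := P.nt
    refine h x y hx ⟨c, ?_, by rw [← smul_mul_assoc, ← e, conj_l, mul_assoc _ _ (ce g)]; simp⟩
    rintro rfl
    exact ((P.conj g).l_unit x).ne_zero (by simpa using e)

/-- Fusion control. -/
theorem Ctx.fc (h : P.Ctx X) (hD : P.HD) (hC : ∀ x, x ≠ 0 → P.Cen X x) {g : V ≃ₗ[F] V}
    (hg : g ∈ X) (hx : x ≠ 0) (h1 : P.Nm (ce g * P.l x * ce g⁻¹)) : g ∈ P.N := by
  by_contra h2
  exact hx (Two.eq_zero ⟨h, h.conj (nz_of_mem hg), hC, fun x hx => (hC x hx).conj (nz_of_mem hg),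
    dis_conj fun x y hx h3 => h2 (h.ti hD (hC x hx) hx (in_ce.2 hg) h3)⟩ hD h1)

/-- The scalars. -/
def ZZ (X : Subgroup (V ≃ₗ[F] V)) : Subgroup X where
  carrier := {g | ∃ c : F, c ≠ 0 ∧ ce g.1 = c • 1}
  mul_mem' := fun ⟨c, h1, h2⟩ ⟨d, h3, h4⟩ =>
    ⟨c * d, mul_ne_zero h1 h3, by simp [h2, h4, smul_smul, mul_comm]⟩
  one_mem' := ⟨1, one_ne_zero, by simp⟩
  inv_mem' := fun {g} ⟨c, h1, h2⟩ => ⟨c⁻¹, inv_ne_zero h1, by
    have := ce_inv_mul g.1
    rw [h2, mul_smul_comm, mul_one] at this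
    rw [← this, smul_smul, inv_mul_cancel₀ h1, one_smul]; rfl⟩

instance ZZ_normal (X : Subgroup (V ≃ₗ[F] V)) : (ZZ X).Normal :=
  ⟨fun g ⟨c, h1, h2⟩ k => ⟨c, h1, by simp [h2]⟩⟩

theorem mk_eq_mk {g k : X} : (g : X ⧸ ZZ X) = k ↔ ∃ c : F, c ≠ 0 ∧ ce g.1 = c • ce k.1 := by
  rw [eq_comm, QuotientGroup.eq]
  refine exists_congr fun c => and_congr_right fun _ => ⟨fun h => ?_, fun h => ?_⟩
  · have := congrArg (ce k.1 * ·) h
    simpa using this
  · simp [h]

/-- If all the centralisers normalise the Pauli group then so does `X`. -/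
theorem Ctx.le_N [Finite F] [FiniteDimensional F V] (h : P.Ctx X) (hD : P.HD)
    (hC : ∀ x, x ≠ 0 → P.Cen X x) : X ≤ P.N := fun g hg => by
  have : Finite V := Module.finite_of_finite F
  have : Finite (V ≃ₗ[F] V) := Finite.of_injective _ DFunLike.coe_injective
  choose r hr hr' using h.l
  let ε : E → X ⧸ ZZ X := fun x => (⟨r x, hr x⟩ : X)
  have hε : ∀ (k : X) x y, (k : X ⧸ ZZ X) * ε x * (k : X ⧸ ZZ X)⁻¹ = ε y ↔ P.Mp (ce k.1) x y :=
    fun k x y => by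
      rw [mul_inv_eq_iff_eq_mul, ← QuotientGroup.mk_mul, ← QuotientGroup.mk_mul, mk_eq_mk]
      simp [hr', Mp]
  have hN : ∀ k : X, (k : X ⧸ ZZ X) ∈ (P.N.subgroupOf X).map (QuotientGroup.mk' _) ↔ k.1 ∈ P.N :=
    fun k => ⟨fun ⟨k', h1, h2⟩ => by
      obtain ⟨c, -, e⟩ := mk_eq_mk.1 h2.symm
      exact mem_N.2 (e ▸ Nm.smul h1 c), fun h1 => ⟨k, h1, rfl⟩⟩
  obtain ⟨x, h1⟩ : ∃ x : E, x ≠ 0 := by
    have := hD.four
    have := finrank_pos_iff.1 (by omega : 0 < finrank (ZMod 2) E)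
    exact exists_ne 0
  obtain ⟨y, h2⟩ := P.exists_B h1
  obtain ⟨z, h3, h4⟩ := SetLike.not_le_iff_exists.1
    (P.not_perp_le [x] (by have := hD.four; simp; omega))
  simp only [List.mem_cons, List.not_mem_nil, or_false, Set.ofPred_eq_eq_singleton, mem_span1,
    not_or] at h4
  refine (hN ⟨g, hg⟩).1 (final P.B P.alt P.symm ε (fun x y => ?_) (fun x y e => ?_) _
    (fun k => ?_) (fun k x y x' y' => ?_) (fun k x hx => ?_) h2
    (P.mem_perp_span.1 h3 x (by simp)) h1 h4.1 (fun e => h4.2 (add_eq_zero2.1 e).symm) _)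
  · rw [← QuotientGroup.mk_mul, mk_eq_mk]
    simpa [hr'] using P.add x y
  · obtain ⟨c, -, e⟩ := mk_eq_mk.1 e
    exact P.eq_of_l (by simpa [hr'] using e)
  · obtain ⟨k, rfl⟩ := QuotientGroup.mk_surjective k
    simp only [hN, hε]; rfl
  · obtain ⟨k, rfl⟩ := QuotientGroup.mk_surjective k
    simp only [hε]
    exact fun a b => a.B (ce_unit _) b
  · obtain ⟨k, rfl⟩ := QuotientGroup.mk_surjective k
    rw [← QuotientGroup.mk_mul, ← QuotientGroup.mk_inv, ← QuotientGroup.mk_mul, hN, hN]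
    exact fun a => h.fc hD hC k.2 hx (by simpa [mem_N, hr'] using a)

/-- An element normalising `X ≤ N` lies in `N`. -/
theorem Ctx.mem_N (h : P.Ctx X) (hD : P.HD) (hL : ∀ x, x ≠ 0 → P.q x = 1) (hX : X ≤ P.N)
    {g : V ≃ₗ[F] V} (hg : Nz X g) : g ∈ P.N := by
  have h1 : ∀ φ, In X φ → P.Nm φ := fun φ a => (in_N.1 (a.mono hX)).2
  by_cases h2 : ∃ x y, x ≠ 0 ∧ P.Mp (ce g) x y
  · obtain ⟨x, y, hx, h2⟩ := h2
    intro z
    by_cases hz : z = 0
    · exact ⟨0, by rw [hz]; exact mp_zero _⟩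
    obtain ⟨φ, a1, -, a2⟩ := h.trans hD hz hx ((hL z hz).trans (hL x hx).symm)
    obtain ⟨k, hk, rfl⟩ := a1
    obtain ⟨w, hw⟩ := h1 _ (hg _ (in_ce.2 (X.inv_mem hk))).1 y
    exact ⟨w, by simpa [mul_assoc] using hw.mul (h2.mul a2)⟩
  · push Not at h2
    obtain ⟨x, hx⟩ : ∃ x : E, x ≠ 0 := by
      have := hD.four
      have := finrank_pos_iff.1 (by omega : 0 < finrank (ZMod 2) E)
      exact exists_ne 0
    obtain ⟨y, c, -, e⟩ := centE ((P.conj g).l_unit x) fun y => (dis_conj h2).comm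
      (h1 _ ((h.conj hg).l x)) (conj_nm.2 (h1 _ (hg _ (h.l y)).2))
    exact absurd e (dis_conj h2 x y c hx)

end Pauli

end H97c
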