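import Mathlib
import Cfsg.Agent.Base
import Cfsg.Agent.Lib.Cliff.Global

/-!
The restriction of a Pauli system to an eigenspace, and the centraliser step in linear type.
-/

set_option autoImplicit false
set_option linter.unusedSectionVars false
set_option linter.unusedVariables false

namespace H97c

open Module H97 H28

variable {F V E : Type*} [Field F] [AddCommGroup V] [Module F V] [AddCommGroup E]
  [Module (ZMod 2) E] [Finite E]

namespace Pauli

variable {P : Pauli F V E} {X : Subgroup (V ≃ₗ[F] V)} {φ ψ : End F V} {x y z e f : E} {ε : F}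
  {v : V}

variable (P) in
/-- An eigenspace of `l e`. -/
def eig (e : E) (ε : F) : Submodule F V := LinearMap.ker (P.l e - ε • 1)

theorem mem_eig : v ∈ P.eig e ε ↔ P.l e v = ε • v := by simp [eig, sub_eq_zero]

variable (P) in
/-- The orthogonal complement of a hyperbolic pair. -/
def hp (e f : E) : Submodule (ZMod 2) E := perp P.pq (Submodule.span _ {e, f})

theorem mem_hp : x ∈ P.hp e f ↔ P.B e x = 0 ∧ P.B f x = 0 := by simp [hp, P.mem_perp_span]

theorem finrank_hp (h : P.B e f = 1) : finrank (ZMod 2) (P.hp e f) + 2 = finrank (ZMod 2) E := by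
  have := finrank_span_eq_card (R := ZMod 2) (b := ![e, f]) (LinearIndependent.pair_iff.2
    fun s t h1 => by
      have a := congrArg (P.B e) h1
      have b := congrArg (P.B f) h1
      simp [P.alt, h, P.symm f e] at a b
      exact ⟨b, a⟩)
  rw [Matrix.range_cons_cons_empty, Fintype.card_fin] at this
  have h1 := finrank_perp P.sep (Submodule.span _ {e, f})
  rw [this] at h1
  exact h1

theorem hp_dec (h : P.B e f = 1) (x : E) : x + P.B f x • e + P.B e x • f ∈ P.hp e f :=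
  mem_hp.2 (by simp [P.alt, h, P.symm f e, z2_add_self])

theorem l_apply (x : E) (v : V) : P.l x (P.l x v) = sg F (P.q x) • v :=
  LinearMap.congr_fun (P.sq x) v

theorem comm_apply (x y : E) (v : V) : P.l x (P.l y v) = sg F (P.B x y) • P.l y (P.l x v) :=
  LinearMap.congr_fun (P.comm x y) v

theorem l_ne_zero (x : E) (hv : v ≠ 0) : P.l x v ≠ 0 := fun h => by
  have := l_apply (P := P) x v
  rw [h, map_zero] at this
  exact smul_ne_zero (sg_ne_zero _) hv this.symm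

theorem mem_eig_of_comm (h : φ * P.l e = P.l e * φ) (hv : v ∈ P.eig e ε) : φ v ∈ P.eig e ε := by
  rw [mem_eig] at hv ⊢
  rw [← End.mul_apply, ← h, End.mul_apply, hv, map_smul]

theorem l_mem (h : P.B e x = 0) (hv : v ∈ P.eig e ε) : P.l x v ∈ P.eig e ε :=
  mem_eig_of_comm (l_comm h).symm hv

theorem l_mem' (h : P.B e x = 1) (hv : v ∈ P.eig e ε) : P.l x v ∈ P.eig e (-ε) := by
  rw [mem_eig] at hv ⊢
  rw [comm_apply, h, hv]; simp

theorem eps_ne (hε : ε * ε = sg F (P.q e)) : ε ≠ 0 := left_ne_zero_of_mul (hε ▸ sg_ne_zero _)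

theorem eps_neg (hε : ε * ε = sg F (P.q e)) : -ε * -ε = sg F (P.q e) := by rw [neg_mul_neg, hε]

theorem proj_mem (hε : ε * ε = sg F (P.q e)) (v : V) : P.l e v + ε • v ∈ P.eig e ε := by
  rw [mem_eig, map_add, l_apply, ← hε, map_smul]; module

theorem eig_dec (hε : ε * ε = sg F (P.q e)) (v : V) :
    ∃ a ∈ P.eig e ε, ∃ b ∈ P.eig e (-ε), v = a + b := by
  have := eps_ne hε
  have := P.two
  refine ⟨_, Submodule.smul_mem _ (2 * ε)⁻¹ (proj_mem hε v), _,
    Submodule.smul_mem _ (-(2 * ε)⁻¹) (proj_mem (eps_neg hε) v), ?_⟩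
  match_scalars <;> field_simp <;> ring

theorem ext_eig (hε : ε * ε = sg F (P.q e)) (h1 : ∀ v ∈ P.eig e ε, φ v = ψ v)
    (h2 : ∀ v ∈ P.eig e (-ε), φ v = ψ v) : φ = ψ := LinearMap.ext fun v => by
  obtain ⟨a, ha, b, hb, rfl⟩ := eig_dec hε v
  rw [map_add, map_add, h1 a ha, h2 b hb]

theorem eig_neg (hef : P.B e f = 1) (hv : v ∈ P.eig e (-ε)) : ∃ w ∈ P.eig e ε, v = P.l f w :=
  ⟨sg F (P.q f) • P.l f v, Submodule.smul_mem _ _ (by simpa using l_mem' hef hv), by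
    rw [map_smul, l_apply, smul_smul, sg_mul_self, one_smul]⟩

theorem eq_zero_of_eig (hε : ε * ε = sg F (P.q e)) (h1 : v ∈ P.eig e ε) (h2 : v ∈ P.eig e (-ε)) :
    v = 0 := by
  rw [mem_eig] at h1 h2
  exact (smul_eq_zero.1 (by linear_combination (norm := module) h2 - h1 : (2 * ε) • v = 0)).resolve_left
    (mul_ne_zero P.two (eps_ne hε))

theorem exists_eig (he : e ≠ 0) (hε : ε * ε = sg F (P.q e)) : ∃ v ∈ P.eig e ε, v ≠ 0 := by
  by_contra h
  push Not at h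
  exact he (P.eq_zero_of_l (c := -ε) (LinearMap.ext fun v => by
    simpa [← eq_neg_iff_add_eq_zero] using h _ (proj_mem hε v)))

theorem comm_of_gen (hef : P.B e f = 1) (h1 : φ * P.l e = P.l e * φ) (h2 : φ * P.l f = P.l f * φ)
    (h3 : ∀ x ∈ P.hp e f, φ * P.l x = P.l x * φ) (x : E) : φ * P.l x = P.l x * φ := by
  have h4 : ∀ (s : ZMod 2) u, φ * P.l u = P.l u * φ → P.Sn φ (s • u) 0 := fun s u h => by
    obtain ⟨c, -, e⟩ := P.l_zero
    rcases z2 s with rfl | rfl <;> simp [Sn, h, e]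
  have := ((h4 1 _ (h3 _ (hp_dec hef x))).add (h4 (P.B e x) f h2)).add (h4 (P.B f x) e h1)
  simpa [add_add_cancel2] using this.zero

theorem nm_of_gen (hef : P.B e f = 1) (h1 : ∃ y, P.Mp φ f y)
    (h2 : ∀ x, P.B e x = 0 → ∃ y, P.Mp φ x y) : P.Nm φ := fun x => by
  rcases z2 (P.B e x) with h | h
  · exact h2 x h
  · obtain ⟨y, hy⟩ := h1
    obtain ⟨z, hz⟩ := h2 (x + f) (by simp [h, hef, z2_one_add_one])
    exact ⟨_, by simpa [add_add_cancel2] using hz.add hy⟩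

variable (P) in
/-- The restriction to an eigenspace. -/
def res (hef : P.B e f = 1) (hε : ε * ε = sg F (P.q e)) : Pauli F (P.eig e ε) (P.hp e f) where
  B := P.B.restrict _
  l x := (P.l x).restrict fun _ hv => l_mem (mem_hp.1 x.2).1 hv
  q x := P.q x
  alt x := P.alt x
  nd x h := Subtype.ext (P.nd _ fun y => by
    have := h ⟨_, hp_dec hef y⟩
    simpa [P.symm x.1 e, P.symm x.1 f, mem_hp.1 x.2] using this)
  sq x := LinearMap.ext fun v => Subtype.ext (l_apply x.1 v.1)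
  comm x y := LinearMap.ext fun v => Subtype.ext (comm_apply x.1 y.1 v.1)
  add x y := (P.add x y).imp fun c h =>
    ⟨h.1, LinearMap.ext fun v => Subtype.ext (LinearMap.congr_fun h.2 v.1)⟩
  cent φ h := by
    have h0 := eps_ne hε
    have h2 := P.two
    let χ : End F V := (P.eig e ε).subtype ∘ₗ φ ∘ₗ
      ((2 * ε)⁻¹ • (P.l e + ε • 1)).codRestrict _ fun v => Submodule.smul_mem _ _ (proj_mem hε v)
    have a1 : ∀ v : P.eig e ε, χ v = φ v := fun v => congrArg (fun w => (φ w).1) (Subtype.ext (by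
      simp only [LinearMap.codRestrict_apply, LinearMap.smul_apply, LinearMap.add_apply,
        mem_eig.1 v.2, End.one_apply]
      match_scalars; field_simp; ring))
    have a2 : ∀ v ∈ P.eig e (-ε), χ v = 0 := fun v hv => by
      simp only [χ, LinearMap.comp_apply]
      rw [show LinearMap.codRestrict _ _ _ v = 0 from Subtype.ext (by simp [mem_eig.1 hv])]
      simp
    set χ' := χ + sg F (P.q f) • (P.l f * χ * P.l f) with hχ'
    have b1 : ∀ v : P.eig e ε, χ' v = φ v := fun v => by simp [hχ', a1, a2 _ (l_mem' hef v.2)]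
    have b2 : ∀ v : P.eig e ε, χ' (P.l f v) = P.l f (φ v) := fun v => by
      simp [hχ', a1, a2 _ (l_mem' hef v.2), l_apply, smul_smul]
    have ext : ∀ {s t : End F V}, (∀ v : P.eig e ε, s v = t v) →
        (∀ v : P.eig e ε, s (P.l f v) = t (P.l f v)) → s = t := fun c1 c2 =>
      ext_eig hε (fun v hv => c1 ⟨v, hv⟩) fun v hv => by
        obtain ⟨w, hw, rfl⟩ := eig_neg hef hv
        exact c2 ⟨w, hw⟩
    obtain ⟨c, hc⟩ := P.cent χ' (comm_of_gen hef
      (ext (fun v => by simp [mem_eig.1 v.2, b1, mem_eig.1 (φ v).2]) fun v => by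
        simp [mem_eig.1 (l_mem' hef v.2), b2, mem_eig.1 (l_mem' hef (φ v).2)])
      (ext (fun v => by simp [b1, b2]) fun v => by simp [l_apply, b1, b2]) fun x hx => by
        have c1 : ∀ v : P.eig e ε,
            (φ ⟨P.l x v, l_mem (mem_hp.1 hx).1 v.2⟩ : V) = P.l x (φ v) := fun v =>
          congrArg Subtype.val (LinearMap.congr_fun (h ⟨x, hx⟩) v)
        refine ext (fun v => ?_) fun v => ?_
        · rw [End.mul_apply, End.mul_apply, b1, ← c1, ← b1]
        · rw [End.mul_apply, End.mul_apply, b2, comm_apply x f, comm_apply x f, map_smul, ← c1, ← b2])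
    exact ⟨c, LinearMap.ext fun v => Subtype.ext (by rw [← b1, hc]; rfl)⟩
  two := P.two
  nt := by
    obtain ⟨v, h1, h2⟩ := exists_eig (P.ne_zero_of_B hef) hε
    exact ⟨⟨v, h1⟩, 0, fun h => h2 (congrArg Subtype.val h)⟩
  q0 := P.q0
  qa x y := P.qa x y
  qb x y := P.qb x y

variable {hef : P.B e f = 1} {hε : ε * ε = sg F (P.q e)}

@[simp] theorem res_l (x : P.hp e f) (v : P.eig e ε) : ((P.res hef hε).l x v : V) = P.l x v := rfl

theorem res_B (x y : P.hp e f) : (P.res hef hε).B x y = P.B x y := rfl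

theorem res_q (x : P.hp e f) : (P.res hef hε).q x = P.q x := rfl

theorem res_lin (hL : ∀ x, x ≠ 0 → P.q x = 1) (x : P.hp e f) (hx : x ≠ 0) :
    (P.res hef hε).q x = 1 := hL _ fun h => hx (Subtype.ext h)

/-- The restriction of an endomorphism commuting with `l e`. -/
def rs (h : φ * P.l e = P.l e * φ) (ε : F) : End F (P.eig e ε) :=
  φ.restrict fun _ hv => mem_eig_of_comm h hv

@[simp] theorem rs_apply (h : φ * P.l e = P.l e * φ) (v : P.eig e ε) : (rs h ε v : V) = φ v := rfl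

theorem comm_inv {g : V ≃ₗ[F] V} (h : ce g * ψ = ψ * ce g) : ce g⁻¹ * ψ = ψ * ce g⁻¹ := by
  have := congrArg (fun t => ce g⁻¹ * t * ce g⁻¹) h
  simpa [mul_assoc] using this.symm

theorem comm_mul {χ : End F V} (h : φ * χ = χ * φ) (h' : ψ * χ = χ * ψ) :
    φ * ψ * χ = χ * (φ * ψ) := by rw [mul_assoc, h', ← mul_assoc, h, mul_assoc]

theorem rs_unit (hφ : IsUnit φ) (h : φ * P.l e = P.l e * φ) : IsUnit (rs h ε) := by
  obtain ⟨g, rfl⟩ := exists_ce hφ
  exact ⟨⟨rs h ε, rs (comm_inv h) ε, LinearMap.ext fun v => Subtype.ext (le_apply_inv g v.1),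
    LinearMap.ext fun v => Subtype.ext (le_inv_apply_apply g v.1)⟩, rfl⟩

variable (P) in
/-- The group induced on an eigenspace of `l e` by the centraliser of `l e` in `X`. -/
def resG (X : Subgroup (V ≃ₗ[F] V)) (e : E) (ε : F) : Subgroup (P.eig e ε ≃ₗ[F] P.eig e ε) where
  carrier := {g | ∃ k ∈ X, ce k * P.l e = P.l e * ce k ∧ ∀ v : P.eig e ε, k v = g v}
  mul_mem' := fun ⟨k, h1, h2, h3⟩ ⟨k', h4, h5, h6⟩ => ⟨k * k', X.mul_mem h1 h4,
    by rw [map_mul]; exact comm_mul h2 h5, fun v => by rw [le_mul_apply, h6, h3]; rfl⟩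
  one_mem' := ⟨1, X.one_mem, by simp, fun _ => rfl⟩
  inv_mem' := fun {g} ⟨k, h1, h2, h3⟩ => ⟨k⁻¹, X.inv_mem h1, comm_inv h2, fun v => by
    rw [← le_apply_inv g v, ← h3, le_inv_apply_apply, le_inv_apply_apply]⟩

theorem in_resG {χ : End F (P.eig e ε)} : In (P.resG X e ε) χ ↔
    ∃ φ, In X φ ∧ φ * P.l e = P.l e * φ ∧ ∀ v : P.eig e ε, φ v = χ v := by
  constructor
  · rintro ⟨g, ⟨k, h1, h2, h3⟩, rfl⟩
    exact ⟨_, in_ce.2 h1, h2, h3⟩
  · rintro ⟨_, ⟨k, h1, rfl⟩, h2, h3⟩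
    obtain ⟨g, hg⟩ := exists_ce (rs_unit (ε := ε) (ce_unit k) h2)
    have : ∀ v : P.eig e ε, k v = g v := fun v => (congrArg Subtype.val (LinearMap.congr_fun hg v)).symm
    exact ⟨g, ⟨k, h1, h2, this⟩, LinearMap.ext fun v => Subtype.ext ((this v).symm.trans (h3 v))⟩

theorem in_rs (hφ : In X φ) (h : φ * P.l e = P.l e * φ) : In (P.resG X e ε) (rs h ε) :=
  in_resG.2 ⟨φ, hφ, h, fun _ => rfl⟩

theorem mp_rs (h : φ * P.l e = P.l e * φ) {x y : P.hp e f} : (P.res hef hε).Mp (rs h ε) x y ↔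
    ∃ c : F, c ≠ 0 ∧ ∀ v ∈ P.eig e ε, φ (P.l x v) = c • P.l y (φ v) :=
  exists_congr fun c => and_congr_right fun _ =>
    ⟨fun a v hv => congrArg Subtype.val (LinearMap.congr_fun a ⟨v, hv⟩),
      fun a => LinearMap.ext fun v => Subtype.ext (a v v.2)⟩

theorem tau_comm (h : P.B e x = 0) : (1 + P.l x) * P.l e = P.l e * (1 + P.l x) := by
  rw [add_mul, mul_add, l_comm h, one_mul, mul_one]

theorem zle_resG (h : ZLe X) : ZLe (P.resG X e ε) := fun c hc =>
  in_resG.2 ⟨_, h c hc, by simp, fun _ => rfl⟩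

theorem l_resG (h : ∀ x, In X (P.l x)) (x : P.hp e f) : In (P.resG X e ε) ((P.res hef hε).l x) :=
  in_resG.2 ⟨_, h x, (l_comm (mem_hp.1 x.2).1).symm, fun _ => rfl⟩

theorem pair_resG (h : P.Ctx X) (a b : P.hp e f) (ha : P.q a = 1) (hb : P.q b = 1) :
    In (P.resG X e ε) ((1 + (P.res hef hε).l a) * (1 + (P.res hef hε).l b)) :=
  in_resG.2 ⟨_, h.pair a b ha hb, comm_mul (tau_comm (mem_hp.1 a.2).1) (tau_comm (mem_hp.1 b.2).1),
    fun _ => rfl⟩

theorem hq_of_lin (hL : ∀ x, x ≠ 0 → P.q x = 1) (hφ : IsUnit φ) (h : P.Mp φ x y) :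
    P.q y = P.q x := by
  by_cases hx : x = 0
  · subst hx; rw [h.uniq hφ (mp_zero φ)]
  · rw [hL x hx, hL y (h.ne_zero hφ hx)]

theorem zle_N : ZLe P.N := fun c hc => in_N.2 ⟨isUnit_smul isUnit_one hc, nm_one.smul c⟩

theorem Ctx.inf_N (h : P.Ctx X) : P.Ctx (X ⊓ P.N) where
  Z c hc := (h.Z c hc).inf (zle_N c hc)
  l x := (h.l x).inf (in_N.2 ⟨P.l_unit x, nm_l x⟩)
  pair a b ha hb := (h.pair a b ha hb).inf
    (in_N.2 ⟨(tau_unit ha).mul (tau_unit hb), (nm_tau ha).mul (nm_tau hb)⟩)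
  hq φ x y a := h.hq φ x y (a.mono inf_le_left)

theorem Ctx.N_le_resG (h : P.Ctx X) (h6 : 6 ≤ finrank (ZMod 2) E) (hL : ∀ x, x ≠ 0 → P.q x = 1) :
    (P.res hef hε).N ≤ P.resG (X ⊓ P.N) e ε :=
  N_le (res_lin hL) (zle_resG h.inf_N.Z) (l_resG h.inf_N.l) fun a ha =>
    in_resG.2 ⟨_, h.inf_N.single h6 hL fun e => ha (Subtype.ext e), tau_comm (mem_hp.1 a.2).1,
      fun _ => rfl⟩

/-- Controlled Pauli elements. -/
theorem Ctx.ctrl (h : P.Ctx X) (hε : ε * ε = sg F (P.q e)) (hz : P.q z = 1) (hze : P.q (z + e) = 1)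
    (hB : P.B e z = 0) : ∃ ρ, In X ρ ∧ P.Nm ρ ∧ ρ * P.l e = P.l e * ρ ∧
      (∀ v ∈ P.eig e ε, ρ v = v) ∧ ∀ v ∈ P.eig e (-ε), ρ v = P.l z v := by
  have h0 := eps_ne hε
  have h2 := P.two
  obtain ⟨c, -, e1⟩ := P.add' z e
  have tt : P.TT (-(ε⁻¹ • (P.l z * P.l e))) := TT.neg (tt_of hze (by rw [e1, smul_smul]) (by
    rw [smul_mul_smul_comm, mul_assoc, ← mul_assoc (P.l e), l_comm hB, mul_assoc, P.sq, ← hε,
      mul_smul_comm, mul_one, mul_smul_comm, l_sq_of_one hz, smul_smul]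
    simp [show ε⁻¹ * ε⁻¹ * (ε * ε) = 1 by field_simp]))
  have a1 : ∀ v ∈ P.eig e ε, ((2 : F)⁻¹ • ((1 + P.l z) * (1 + -(ε⁻¹ • (P.l z * P.l e))))) v = v :=
    fun v hv => by
      simp only [LinearMap.smul_apply, End.mul_apply, LinearMap.add_apply, End.one_apply,
        LinearMap.neg_apply, mem_eig.1 hv, map_smul, map_add, map_neg, l_apply, hz, sg_one]
      match_scalars <;> field_simp <;> ring
  have a2 : ∀ v ∈ P.eig e (-ε),
      ((2 : F)⁻¹ • ((1 + P.l z) * (1 + -(ε⁻¹ • (P.l z * P.l e))))) v = P.l z v := fun v hv => by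
    simp only [LinearMap.smul_apply, End.mul_apply, LinearMap.add_apply, End.one_apply,
      LinearMap.neg_apply, mem_eig.1 hv, map_smul, map_add, map_neg, l_apply, hz, sg_one]
    match_scalars <;> field_simp <;> ring
  refine ⟨_, (h.pair' (tt_l hz) tt).smul h.Z (inv_ne_zero h2), ((nm_tau hz).mul tt.nm).smul _,
    ext_eig hε (fun v hv => ?_) fun v hv => ?_, a1, a2⟩
  · rw [End.mul_apply, End.mul_apply, a1 v hv, mem_eig.1 hv, map_smul, a1 v hv]
  · rw [End.mul_apply, End.mul_apply, a2 v hv, mem_eig.1 hv, map_smul, a2 v hv,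
      mem_eig.1 (l_mem hB hv)]

/-- No eigenspace carries a big group. -/
def NB (P : Pauli F V E) (X : Subgroup (V ≃ₗ[F] V)) : Prop :=
  ∀ e f ε (hef : P.B e f = 1) (hε : ε * ε = sg F (P.q e)), P.resG X e ε ≤ (P.res hef hε).N

theorem NB.elim (h : P.NB X) (hef : P.B e f = 1) (hε : ε * ε = sg F (P.q e)) (hφ : In X φ)
    (h1 : φ * P.l e = P.l e * φ) (hx : x ∈ P.hp e f) :
    ∃ y ∈ P.hp e f, ∃ c : F, c ≠ 0 ∧ ∀ v ∈ P.eig e ε, φ (P.l x v) = c • P.l y (φ v) := by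
  obtain ⟨y, hy⟩ := (in_N.1 ((in_rs hφ h1).mono (h e f ε hef hε))).2 ⟨x, hx⟩
  exact ⟨y, y.2, (mp_rs h1).1 hy⟩

theorem exists_eig2 (hef : P.B e f = 1) (hε : ε * ε = sg F (P.q e)) {e' : E} {ε' : F}
    (he' : e' ∈ P.hp e f) (h0 : e' ≠ 0) (hε' : ε' * ε' = sg F (P.q e')) :
    ∃ v ∈ P.eig e ε, v ∈ P.eig e' ε' ∧ v ≠ 0 := by
  obtain ⟨v, h1, h2⟩ := exists_eig (P := P.res hef hε) (e := ⟨e', he'⟩)
    (fun h => h0 (congrArg Subtype.val h)) hε'
  exact ⟨v, v.2, mem_eig.2 (congrArg Subtype.val (mem_eig.1 h1)), fun h => h2 (Subtype.ext h)⟩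

theorem mem_hp_swap {e' f' : E} (he' : e' ∈ P.hp e f) (hf' : f' ∈ P.hp e f) : f ∈ P.hp e' f' :=
  mem_hp.2 ⟨P.symm _ _ ▸ (mem_hp.1 he').2, P.symm _ _ ▸ (mem_hp.1 hf').2⟩

theorem NB.scalar (h : P.NB X) (h4 : 4 ≤ finrank (ZMod 2) E) (hL : ∀ x, x ≠ 0 → P.q x = 1)
    (hef : P.B e f = 1) (hε : ε * ε = -1) (hφ : In X φ) (h1 : ∀ v ∈ P.eig e ε, φ v = v) {t : F}
    (h2 : ∀ v ∈ P.eig e (-ε), φ v = t • v) : P.Nm φ := by
  have hε0 : ε * ε = sg F (P.q e) := by rw [hL e (P.ne_zero_of_B hef), sg_one, hε]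
  have cm : ∀ x, P.B e x = 0 → φ * P.l x = P.l x * φ := fun x hx => ext_eig hε0
    (fun v hv => by simp [h1 v hv, h1 _ (l_mem hx hv)])
    fun v hv => by simp [h2 v hv, h2 _ (l_mem hx hv)]
  obtain ⟨e', a1, f', a2, a3⟩ := P.exists_B_perp (P.not_perp_le' [e, f] (by simpa)
    (a := e) (b := f) (by simp) (by simp) hef)
  rw [show {x | x ∈ [e, f]} = {e, f} by ext; simp] at a1 a2
  have hε' : ε * ε = sg F (P.q e') := by rw [hL e' (P.ne_zero_of_B a3), sg_one, hε]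
  obtain ⟨y, -, c, hc, a4⟩ := h.elim a3 hε' hφ (cm e' (mem_hp.1 a1).1) (mem_hp_swap a1 a2)
  obtain ⟨v, v1, v2, v3⟩ := exists_eig2 hef hε0 a1 (P.ne_zero_of_B a3) hε'
  have b1 := a4 v v2
  have b2 := a4 _ (l_mem (mem_hp.1 (mem_hp_swap a1 a2)).1 v2)
  rw [h2 _ (l_mem' hef v1), h1 v v1] at b1
  rw [h1 _ (by simpa using l_mem' hef (l_mem' hef v1)), h2 _ (l_mem' hef v1), map_smul,
    comm_apply y f, smul_comm t, smul_comm c, smul_comm c, ← map_smul _ c, ← b1, map_smul,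
    smul_smul, smul_smul] at b2
  have b3 : sg F (P.B y f) * t * t = 1 := by
    have := smul_left_injective F (l_ne_zero f (l_ne_zero f v3)) ((one_smul F _).trans b2)
    exact this.symm
  refine nm_of_gen hef ?_ fun x hx => ⟨x, mp_of_comm (cm x hx)⟩
  have t0 : t ≠ 0 := right_ne_zero_of_mul_eq_one b3
  rcases z2 (P.B y f) with b4 | b4 <;> rw [b4] at b3
  · refine ⟨f, t, t0, ext_eig hε0 (fun v hv => ?_) fun v hv => ?_⟩
    · simp [h1 v hv, h2 _ (l_mem' hef hv)]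
    · simp [h2 v hv, h1 _ (by simpa using l_mem' hef hv), smul_smul,
        show t * t = 1 by simpa using b3]
  · obtain ⟨d, hd, b5⟩ := P.add' f e
    have e0 := eps_ne hε0
    refine ⟨f + e, t * ε⁻¹ * d, by simp [*], ?_⟩
    rw [mul_smul, ← smul_mul_assoc, ← b5]
    refine ext_eig hε0 (fun v hv => ?_) fun v hv => ?_
    · simp [h1 v hv, h2 _ (l_mem' hef hv), mem_eig.1 hv, smul_smul, e0]
    · simp only [End.mul_apply, LinearMap.smul_apply, h2 v hv, h1 _ (by simpa using l_mem' hef hv),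
        map_smul, mem_eig.1 hv, smul_smul]
      rw [show t * ε⁻¹ * (t * -ε) = 1 by
        field_simp; rw [sg_one] at b3; linear_combination b3, one_smul]

theorem NB.fix (h : P.NB X) (hc : P.Ctx X) (h6 : 6 ≤ finrank (ZMod 2) E)
    (hL : ∀ x, x ≠ 0 → P.q x = 1) (hef : P.B e f = 1) (hε : ε * ε = -1) (hφ : In X φ)
    (h0 : φ * P.l e = P.l e * φ) (h1 : ∀ v ∈ P.eig e ε, φ v = v) (hx : x ∈ P.hp e f)
    (hy : y ∈ P.hp e f) {c : F} (h2 : ∀ v ∈ P.eig e (-ε), φ (P.l x v) = c • P.l y (φ v))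
    (hx0 : x ≠ 0) (hy0 : y ≠ 0) : x = y := by
  by_contra hne
  have hε0 : ε * ε = sg F (P.q e) := by rw [hL e (P.ne_zero_of_B hef), sg_one, hε]
  have qx := hL x hx0
  have qy := hL y hy0
  obtain ⟨g, hg, rfl⟩ := hφ
  obtain ⟨e', a1, a2, a3, a4, a5, a6⟩ : ∃ e' ∈ P.hp e f, e' ≠ 0 ∧ P.B x e' = 0 ∧ P.B y e' = 0 ∧
      x ≠ e' ∧ x ≠ e' + y := by
    rcases z2 (P.B x y) with b | b
    · exact ⟨y, hy, hy0, b, P.alt y, hne, by rwa [add_self2]⟩
    · obtain ⟨w, w1, w2⟩ := (P.res hef hε0).exS_list' [⟨x, hx⟩, ⟨y, hy⟩] (a := ⟨x, hx⟩)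
        (b := ⟨y, hy⟩) (by have := finrank_hp hef; simp; omega) (by simp) (by simp) b
      have w3 : P.B x w = 0 := w2 ⟨x, hx⟩ (by simp)
      have w4 : P.B y w = 0 := w2 ⟨y, hy⟩ (by simp)
      refine ⟨w, w.2, P.ne_zero_of_q w1, w3, w4, fun e => ?_, fun e => ?_⟩
      · rw [← e, P.symm, b] at w4; exact absurd w4 (by decide)
      · have := P.alt x
        nth_rewrite 2 [e] at this
        simp [w3, b] at this
  obtain ⟨w, w1, w2, w3⟩ := (P.res hef hε0).exists_B2 (x := ⟨x, hx⟩) (a := ⟨e', a1⟩) (b := ⟨y, hy⟩)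
    (fun e => hx0 (congrArg Subtype.val e)) (fun e => a5 (congrArg Subtype.val e))
    (fun e => hne (congrArg Subtype.val e)) fun e => a6 (congrArg Subtype.val e)
  obtain ⟨f', hf'⟩ := (P.res hef hε0).exists_B (x := ⟨e', a1⟩) fun e => a2 (congrArg Subtype.val e)
  simp only [res_B] at w1 w2 w3 hf'
  have hε' : ε * ε = sg F (P.q e') := by rw [hL e' a2, sg_one, hε]
  have hx1 := (mem_hp.1 hx).1
  have hy1 := (mem_hp.1 hy).1
  have t1 := hc.single h6 hL hx0
  have t2 : In X (1 - P.l x) := tau_neg qx ▸ ((hc.l x).mul t1).smul hc.Z (by simp)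
  have tm : ∀ {δ}, ∀ v ∈ P.eig e δ, (1 - P.l x) v ∈ P.eig e δ := fun v hv =>
    sub_mem hv (l_mem hx1 hv)
  have hω := (((in_ce.2 hg).mul t1).mul (in_ce.2 (X.inv_mem hg))).mul t2
  set ω := ce g * (1 + P.l x) * ce g⁻¹ * (1 - P.l x) with hω'
  have o1 : ∀ v ∈ P.eig e ε, ω v = (2 : F) • v := fun v hv => by
    have b1 : ce g⁻¹ ((1 - P.l x) v) = (1 - P.l x) v := by
      nth_rewrite 1 [← h1 _ (tm v hv)]
      exact le_inv_apply_apply g _
    rw [hω', End.mul_apply, End.mul_apply, b1, End.mul_apply, ← End.mul_apply (1 + P.l x), tau_mul qx,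
      h1 _ (by simpa using Submodule.smul_mem _ _ hv)]
    rfl
  have o2 : ∀ v ∈ P.eig e (-ε), ω v = (1 + c • P.l y) ((1 - P.l x) v) := fun v hv => by
    rw [hω', End.mul_apply, End.mul_apply, End.mul_apply, LinearMap.add_apply, map_add,
      h2 _ (mem_eig_of_comm (comm_inv h0) (tm v hv))]
    simp [ce_apply]
  have cm : ω * P.l e' = P.l e' * ω := ext_eig hε0
    (fun v hv => by simp [o1 v hv, o1 _ (l_mem (mem_hp.1 a1).1 hv)]) fun v hv => by
      simp [o2 v hv, o2 _ (l_mem (mem_hp.1 a1).1 hv), comm_apply x e', comm_apply y e', a3, a4]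
  obtain ⟨z, -, d, hd, b1⟩ := h.elim hf' hε' hω cm (mem_hp_swap a1 f'.2)
  obtain ⟨v, v1, v2, v3⟩ := exists_eig2 hef hε0 a1 a2 hε'
  have b2 := b1 v v2
  have b3 := b1 _ (l_mem w2 v2)
  have hw := mem_hp.1 w.2
  rw [o2 _ (l_mem' hef v1), o1 v v1, map_smul, smul_smul] at b2
  rw [o2 _ (l_mem' hef (l_mem hw.1 v1)), o1 _ (l_mem hw.1 v1), map_smul, smul_smul, comm_apply z w,
    smul_comm, ← map_smul _ (d * 2), ← b2, comm_apply f w, hw.2] at b3
  have v4 := l_ne_zero (P := P) f v3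
  have v5 := l_mem' hef v1
  generalize P.l f v = u at b3 v4 v5
  have c2 : c * c = 1 := by
    have b4 := h2 _ (l_mem hx1 v5)
    rw [l_apply, h2 _ v5, map_smul, map_smul, l_apply, qx, qy, smul_smul, smul_smul] at b4
    have := smul_left_injective F (fun e => v4 (g.injective (e.trans (map_zero g).symm))) b4
    rw [sg_one] at this
    linear_combination this
  have u1 : IsUnit (P.l w * (1 + c • P.l y)) := (P.l_unit w).mul (by
    rcases mul_self_eq_one_iff.1 c2 with rfl | rfl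
    · simpa using tau_unit qy
    · rw [neg_one_smul, ← sub_eq_add_neg, tau_neg qy]
      exact isUnit_smul ((P.l_unit _).mul (tau_unit qy)) (by simp))
  obtain ⟨k, hk⟩ := exists_ce u1
  have b5 : u + P.l x u = sg F (P.B z w) • (u - P.l x u) := k.injective (by
    rw [← ce_apply, ← ce_apply, hk, map_smul, End.mul_apply, End.mul_apply]
    refine Eq.trans ?_ b3
    simp [comm_apply x w, comm_apply y w, w1, w3])
  rcases z2 (P.B z w) with b6 | b6 <;> rw [b6] at b5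
  · exact smul_ne_zero P.two (l_ne_zero x v4) (by
      rw [sg_zero] at b5; linear_combination (norm := module) b5)
  · exact smul_ne_zero P.two v4 (by rw [sg_one] at b5; linear_combination (norm := module) b5)

/-- The centraliser step in linear type. -/
theorem NB.cen (h : P.NB X) (hc : P.Ctx X) (h6 : 6 ≤ finrank (ZMod 2) E)
    (hL : ∀ x, x ≠ 0 → P.q x = 1) (hε : ε * ε = -1) (he : e ≠ 0) : P.Cen X e := by
  refine hc.cen_of he fun φ hφ h0 => ?_
  obtain ⟨f, hef⟩ := P.exists_B he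
  have hε0 : ε * ε = sg F (P.q e) := by rw [hL e he, sg_one, hε]
  obtain ⟨_, ⟨k, ⟨k1, k2⟩, rfl⟩, k3, k4⟩ := in_resG.1
    (((in_rs hφ h0).mono (h e f ε hef hε0)).mono (hc.N_le_resG h6 hL))
  refine Nm.of_mul_left (P.N.inv_mem k2) (ce_unit _) ?_
  have h1 : ∀ v ∈ P.eig e ε, (ce k⁻¹ * φ) v = v := fun v hv => by
    rw [End.mul_apply, ← show ce k v = φ v from k4 ⟨v, hv⟩]
    exact le_inv_apply_apply k v
  have h2 := (in_ce.2 (X.inv_mem k1)).mul hφ
  have h3 := comm_mul (comm_inv k3) h0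
  generalize ce k⁻¹ * φ = ψ at h1 h2 h3
  have u := rs_unit (ε := -ε) h2.unit h3
  obtain ⟨z, c, hc0, h4⟩ := centE (P := P.res hef (eps_neg hε0)) u fun x => by
    obtain ⟨y, hy⟩ := (in_N.1 ((in_rs h2 h3).mono (h e f _ hef (eps_neg hε0)))).2 x
    by_cases hx : x = 0
    · rw [hx]; exact mp_zero _
    obtain ⟨c, -, a⟩ := (mp_rs h3).1 hy
    exact Subtype.ext (h.fix hc h6 hL hef hε h2 h3 h1 x.2 y.2 a (fun e => hx (Subtype.ext e))
      fun e => hy.ne_zero u hx (Subtype.ext e)) ▸ hy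
  have h5 : ∀ v ∈ P.eig e (-ε), ψ v = c • P.l z v := fun v hv =>
    congrArg Subtype.val (LinearMap.congr_fun h4 ⟨v, hv⟩)
  by_cases hz : z.1 = 0
  · obtain ⟨d, -, a⟩ := P.l_zero
    exact h.scalar (by omega) hL hef hε h2 h1 (t := c * d) fun v hv => by
      simp [h5 v hv, hz, a, smul_smul]
  have hz1 := mem_hp.1 z.2
  obtain ⟨ρ, r1, r2, -, r3, r4⟩ := hc.ctrl hε0 (hL _ hz) (hL _ (P.ne_zero_of_B (y := f) (by
    simp [hef, P.symm z.1 f, hz1.2]))) hz1.1
  refine r2.of_mul_left r1.unit (h.scalar (by omega) hL hef hε (r1.mul h2)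
    (fun v hv => by simp [h1 v hv, r3 v hv]) (t := -c) fun v hv => ?_)
  simp [h5 v hv, r4 _ (l_mem hz1.1 hv), l_apply, hL _ hz]

theorem NB.le_N [Finite F] [FiniteDimensional F V] (h : P.NB X) (hc : P.Ctx X)
    (h6 : 6 ≤ finrank (ZMod 2) E) (hL : ∀ x, x ≠ 0 → P.q x = 1) (hε : ε * ε = -1) : X ≤ P.N :=
  hc.le_N (Or.inl h6) fun _ he => h.cen hc h6 hL hε he

end Pauli

end H97c
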