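import Mathlib
import Cfsg.Agent.Base
import Cfsg.Agent.Lib.Cliff.Res
import Cfsg.Agent.Lib.Cliff.O6

/-!
Overgroups of the normaliser of a Pauli group of linear type in the linear group.
-/

set_option autoImplicit false
set_option linter.unusedSectionVars false
set_option linter.unusedVariables false

namespace H97c

open Module H97 H28 H97o

variable {F V E : Type*} [Field F] [AddCommGroup V] [Module F V] [AddCommGroup E]
  [Module (ZMod 2) E] [Finite E]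

/-- The product of a group with the scalars. -/
def ZS (Y : Subgroup (V ≃ₗ[F] V)) : Subgroup (V ≃ₗ[F] V) where
  carrier := {g | ∃ c : F, c ≠ 0 ∧ In Y (c • ce g)}
  mul_mem' := fun ⟨c, h1, h2⟩ ⟨d, h3, h4⟩ => ⟨c * d, mul_ne_zero h1 h3, by
    simpa [smul_smul, mul_comm] using h2.mul h4⟩
  one_mem' := ⟨1, one_ne_zero, by simpa using in_one⟩
  inv_mem' := fun ⟨c, h1, h2⟩ => ⟨c⁻¹, inv_ne_zero h1, h2.inv (by simp [smul_smul, h1])⟩

section ZS

variable {X Y : Subgroup (V ≃ₗ[F] V)} {φ : End F V}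

theorem in_ZS : In (ZS Y) φ ↔ ∃ c : F, c ≠ 0 ∧ In Y (c • φ) :=
  ⟨fun ⟨_, h, e⟩ => e ▸ h, fun ⟨c, h1, h2⟩ => by
    obtain ⟨g, rfl⟩ := exists_ce (φ := φ) (by
      simpa [smul_smul, h1] using isUnit_smul h2.unit (inv_ne_zero h1))
    exact in_ce.2 ⟨c, h1, h2⟩⟩

theorem le_ZS : Y ≤ ZS Y := fun g hg => ⟨1, one_ne_zero, by simpa using in_ce.2 hg⟩

theorem zle_ZS : ZLe (ZS Y) := fun c hc =>
  in_ZS.2 ⟨c⁻¹, inv_ne_zero hc, by simpa [smul_smul, hc] using in_one⟩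

theorem ZS_le (hZ : ZLe X) (h : Y ≤ X) : ZS Y ≤ X := fun _ ⟨_, h1, h2⟩ =>
  in_ce.1 ((h2.mono h).of_smul hZ h1)

theorem in_SLV : In (SLV F V) φ ↔ IsUnit φ ∧ LinearMap.det φ = 1 :=
  ⟨fun h => ⟨h.unit, by obtain ⟨g, hg, rfl⟩ := h; exact mem_SLV.1 hg⟩, fun ⟨h1, h2⟩ => by
    obtain ⟨g, rfl⟩ := exists_ce h1
    exact in_ce.2 (mem_SLV.2 h2)⟩

end ZS

/-- An isomorphism of groups induces one of the central quotients. -/
def cq {G H : Type*} [Group G] [Group H] (e : G ≃* H) :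
    G ⧸ Subgroup.center G ≃* H ⧸ Subgroup.center H :=
  QuotientGroup.congr _ _ e (Subgroup.ext fun _ =>
    Subgroup.mem_map_equiv.trans (MulEquivClass.apply_mem_center_iff e.symm))

namespace Pauli

variable {P : Pauli F V E} {X G : Subgroup (V ≃ₗ[F] V)} {φ ψ : End F V} {x y z a b e f : E}
  {ε δ : F} {u v : V}

theorem ctx_N (hL : ∀ x, x ≠ 0 → P.q x = 1) : P.Ctx P.N where
  Z := zle_N
  l x := in_N.2 ⟨P.l_unit x, nm_l x⟩
  pair a b ha hb := in_N.2 ⟨(tau_unit ha).mul (tau_unit hb), (nm_tau ha).mul (nm_tau hb)⟩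
  hq φ x y h := hq_of_lin hL h.unit

theorem Mp.sq (hφ : IsUnit φ) {c : F} (h : φ * P.l x = c • (P.l y * φ)) (hq : P.q y = P.q x) :
    c * c = 1 := by
  have h1 : φ * (P.l x * P.l x) = (c * c) • (P.l y * (P.l y * φ)) := by
    rw [← mul_assoc, h, smul_mul_assoc, mul_assoc, h, mul_smul_comm, smul_smul]
  rw [P.sq, P.l_l, mul_smul_comm, mul_one, smul_smul, hq] at h1
  exact mul_right_cancel₀ (sg_ne_zero (P.q x)) (by rw [← P.smul_inj hφ h1, one_mul])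

section Det

variable [FiniteDimensional F V]

theorem det_conj (hφ : IsUnit φ) {s t : End F V} (h : φ * s = t * φ) :
    LinearMap.det s = LinearMap.det t := by
  have := congrArg LinearMap.det h
  rw [map_mul, map_mul, mul_comm] at this
  exact mul_right_cancel₀ (hφ.map _).ne_zero this

theorem det_tau_neg (ha : P.q a = 1) : LinearMap.det (1 + P.l a) = LinearMap.det (1 - P.l a) := by
  obtain ⟨y, hy⟩ := P.exists_B (P.ne_zero_of_q ha)
  exact det_conj (P.l_unit y) (by rw [mul_add, sub_mul, l_anti hy]; simp)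

theorem det_tau_sq (ha : P.q a = 1) :
    LinearMap.det (1 + P.l a) * LinearMap.det (1 + P.l a) = 2 ^ finrank F V := by
  nth_rewrite 2 [det_tau_neg ha]
  rw [← map_mul, tau_mul ha, LinearMap.det_smul, map_one, mul_one]

theorem det_l_of_one (ha : P.q a = 1) : LinearMap.det (P.l a) = 1 := by
  have := det_tau_sq ha
  rw [← map_mul, show (1 + P.l a) * (1 + P.l a) = (2 : F) • P.l a by
    rw [add_mul, mul_add, mul_add, l_sq_of_one ha]; simp only [mul_one, one_mul]; module,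
    LinearMap.det_smul] at this
  exact mul_left_cancel₀ (pow_ne_zero _ P.two) (this.trans (mul_one _).symm)

theorem l_SLV (hL : ∀ x, x ≠ 0 → P.q x = 1) (h4 : 4 ≤ finrank (ZMod 2) E) (x : E) :
    In (SLV F V) (P.l x) := by
  refine in_SLV.2 ⟨P.l_unit x, ?_⟩
  by_cases hx : x = 0
  swap
  · exact det_l_of_one (hL x hx)
  obtain ⟨c, -, e⟩ := P.l_zero
  obtain ⟨a, ha, -⟩ := P.exS_list [] (by simp; omega)
  have h1 := P.sq 0
  rw [e, P.q0, smul_mul_smul_comm, mul_one, sg_zero] at h1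
  rcases mul_self_eq_one_iff.1 (P.smul_inj isUnit_one h1) with rfl | rfl
  · simp [hx, e]
  · rw [hx, e, neg_one_smul, ← l_sq_of_one ha, map_mul, det_l_of_one ha, mul_one]

theorem pair_SLV (hL : ∀ x, x ≠ 0 → P.q x = 1) (h4 : 4 ≤ finrank (ZMod 2) E) (ha : P.q a = 1)
    (hb : P.q b = 1) : In (SLV F V) ((2 : F)⁻¹ • ((1 + P.l a) * (1 + P.l b))) := by
  refine in_SLV.2 ⟨isUnit_smul ((tau_unit ha).mul (tau_unit hb)) (inv_ne_zero P.two), ?_⟩
  obtain ⟨φ, h1, -, c, -, h2⟩ := (ctx_N hL).trans (Or.inr ⟨h4, hL⟩) (P.ne_zero_of_q ha)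
    (P.ne_zero_of_q hb) (ha.trans hb.symm)
  have h3 : LinearMap.det (1 + P.l a) = LinearMap.det (1 + P.l b) := by
    rw [det_conj h1.unit (t := 1 + c • P.l b) (by rw [mul_add, h2, add_mul]; simp)]
    rcases mul_self_eq_one_iff.1 (Mp.sq h1.unit h2 (hb.trans ha.symm)) with rfl | rfl
    · rw [one_smul]
    · rw [neg_one_smul, ← sub_eq_add_neg, det_tau_neg hb]
  rw [LinearMap.det_smul, map_mul, ← h3, det_tau_sq ha, ← mul_pow, inv_mul_cancel₀ P.two, one_pow]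

end Det

theorem exists_quot (hl : ∀ x, In G (P.l x)) : ∃ (A : Subgroup (G ⧸ Subgroup.center G))
    (t : E → G), Nat.card A = Nat.card E ∧ (∀ a ∈ A, a * a = 1) ∧
    (∀ a, a ∈ A ↔ ∃ x, (t x : G ⧸ Subgroup.center G) = a) ∧
    (∀ x, (t x : G ⧸ Subgroup.center G) = 1 ↔ x = 0) ∧
    (∀ g : G, (g : G ⧸ Subgroup.center G) = 1 → g.1 ∈ P.N) ∧
    ∀ (g : G) x y, (g * t x * (g : G ⧸ Subgroup.center G)⁻¹ = t y) ↔ P.Mp (ce g.1) x y := by
  choose t h1 h2 using hl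
  have hZ : ∀ g k : G, (g : G ⧸ Subgroup.center G) = k ↔ ∃ c : F, c ≠ 0 ∧ ce g.1 = c • ce k.1 := by
    intro g k
    rw [eq_comm, QuotientGroup.eq, Subgroup.mem_center_iff]
    constructor
    · intro h
      obtain ⟨c, hc⟩ := P.cent (ce (k⁻¹ * g).1) fun x => by
        rw [← h2, ← map_mul, ← map_mul]
        exact congrArg (fun s => ce s.1) (h ⟨t x, h1 x⟩).symm
      have h3 : ce g.1 = c • ce k.1 := by simpa using congrArg (ce k.1 * ·) hc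
      refine ⟨c, ?_, h3⟩
      rintro rfl
      have := P.nt
      exact (ce_unit g.1).ne_zero (by simpa using h3)
    · rintro ⟨c, -, h⟩ s
      exact Subtype.ext (ce_inj (by simp [h]))
  let π : Multiplicative E →* G ⧸ Subgroup.center G := MonoidHom.mk'
    (fun x => ((⟨t x.toAdd, h1 _⟩ : G) : G ⧸ Subgroup.center G)) fun x y => by
      rw [← QuotientGroup.mk_mul, hZ]
      simpa [h2] using P.add x.toAdd y.toAdd
  have h3 : ∀ x, ((⟨t x, h1 x⟩ : G) : G ⧸ Subgroup.center G) = 1 ↔ x = 0 := fun x => by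
    rw [← QuotientGroup.mk_one, hZ]
    simp only [h2, Subgroup.coe_one, map_one]
    exact ⟨fun ⟨c, _, h⟩ => P.eq_zero_of_l h, fun h => h ▸ P.l_zero⟩
  refine ⟨π.range, fun x => ⟨t x, h1 x⟩, ?_, ?_, fun a => Iff.rfl, h3, fun g hg => ?_,
    fun g x y => ?_⟩
  · exact (Nat.card_congr (MonoidHom.ofInjective ((injective_iff_map_eq_one π).2
      fun x hx => (h3 _).1 hx)).toEquiv).symm
  · rintro _ ⟨x, rfl⟩
    rw [← map_mul]
    exact (h3 _).2 (add_self2 x.toAdd)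
  · obtain ⟨c, -, h⟩ := (hZ g 1).1 hg
    rw [mem_N, h]
    simpa using nm_one.smul c
  · rw [mul_inv_eq_iff_eq_mul, ← QuotientGroup.mk_mul, ← QuotientGroup.mk_mul, hZ]
    simp [h2, Mp]

theorem card_E (h4 : finrank (ZMod 2) E = 4) : Nat.card E = 16 := by
  rw [Module.natCard_eq_pow_finrank (K := ZMod 2), h4]; simp

theorem mem_of_mk (hX : P.N ⊓ G ≤ X)
    (hZ : ∀ g : G, (g : G ⧸ Subgroup.center G) = 1 → g.1 ∈ P.N) {g : G} :
    (g : G ⧸ Subgroup.center G) ∈ (X.subgroupOf G).map (QuotientGroup.mk' (Subgroup.center G)) ↔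
      g.1 ∈ X :=
  ⟨fun ⟨k, h1, h2⟩ => (X.mul_mem_cancel_left (X.inv_mem h1)).1
    (hX ⟨hZ (k⁻¹ * g) (inv_mul_eq_one.2 h2), (k⁻¹ * g).2⟩), fun h => ⟨g, h, rfl⟩⟩

theorem le_of_top (hX : P.N ⊓ G ≤ X)
    (hZ : ∀ g : G, (g : G ⧸ Subgroup.center G) = 1 → g.1 ∈ P.N)
    (h : (X.subgroupOf G).map (QuotientGroup.mk' (Subgroup.center G)) = ⊤) : G ≤ X := fun g hg =>
  (mem_of_mk hX hZ (g := ⟨g, hg⟩)).1 (h.ge (Subgroup.mem_top _))

/-- The case of dimension four, symplectic type. -/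
theorem base5 (h4 : finrank (ZMod 2) E = 4) (hP : P5 (G ⧸ Subgroup.center G))
    (hl : ∀ x, In G (P.l x)) (hX : P.N ⊓ G ≤ X) (hG : X ≤ G) : X ≤ P.N ∨ G ≤ X := by
  obtain ⟨A, t, h1, h2, h3, -, h5, h6⟩ := exists_quot hl
  have h7 : ∀ g : G, Nr A (g : G ⧸ Subgroup.center G) ↔ g.1 ∈ P.N := fun g =>
    ⟨fun h x => ((h3 _).1 (h _ ((h3 _).2 ⟨x, rfl⟩))).imp fun y hy => (h6 g x y).1 hy.symm,
      fun h a ha => by
        obtain ⟨x, rfl⟩ := (h3 a).1 ha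
        exact (h3 _).2 ((h x).imp fun y hy => ((h6 g x y).2 hy).symm)⟩
  refine (hP A ((X.subgroupOf G).map (QuotientGroup.mk' _)) (h1.trans (card_E h4)) h2
    fun g hg => ?_).symm.imp (fun h g hg => (h7 ⟨g, hG hg⟩).1 (h _ ((mem_of_mk hX h5).2 hg)))
    (le_of_top hX h5)
  obtain ⟨g, rfl⟩ := QuotientGroup.mk_surjective g
  exact (mem_of_mk hX h5).2 (hX ⟨(h7 g).1 hg, g.2⟩)

/-- The case of dimension four, linear type. -/
theorem base4 [Finite F] [FiniteDimensional F V] (hL : ∀ x, x ≠ 0 → P.q x = 1)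
    (h4 : finrank (ZMod 2) E = 4) (hP : P6 (G ⧸ Subgroup.center G)) (hl : ∀ x, In G (P.l x))
    (hp : ∀ a b, P.q a = 1 → P.q b = 1 → In G ((2 : F)⁻¹ • ((1 + P.l a) * (1 + P.l b))))
    (hX : P.N ⊓ G ≤ X) (hG : ∀ g ∈ X, Nz G g) : X ≤ P.N ∨ G ≤ X := by
  obtain ⟨A, t, h1, h2, h3, h8, h5, h6⟩ := exists_quot hl
  have h7 : ∀ g : G, Nr A (g : G ⧸ Subgroup.center G) ↔ g.1 ∈ P.N := fun g =>
    ⟨fun h x => ((h3 _).1 (h _ ((h3 _).2 ⟨x, rfl⟩))).imp fun y hy => (h6 g x y).1 hy.symm,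
      fun h a ha => by
        obtain ⟨x, rfl⟩ := (h3 a).1 ha
        exact (h3 _).2 ((h x).imp fun y hy => ((h6 g x y).2 hy).symm)⟩
  have hD : P.HD := Or.inr ⟨h4.ge, hL⟩
  have hc : P.Ctx (ZS (X ⊓ G)) := ⟨zle_ZS, fun x =>
    ((((ctx_N hL).l x).inf (hl x)).mono (le_inf hX inf_le_right)).mono le_ZS,
    fun a b ha hb => in_ZS.2 ⟨_, inv_ne_zero P.two, ((((ctx_N hL).pair a b ha hb).smul zle_N
      (inv_ne_zero P.two)).inf (hp a b ha hb)).mono (le_inf hX inf_le_right)⟩,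
    fun φ x y h => hq_of_lin hL h.unit⟩
  refine (hP A ((X.subgroupOf G).map (QuotientGroup.mk' _)) (h1.trans (card_E h4)) h2
    (fun a ha b hb a1 b1 => ?_) fun g hg => ?_).symm.imp (fun h g hg => ?_) (le_of_top hX h5)
  · obtain ⟨x, rfl⟩ := (h3 a).1 ha
    obtain ⟨y, rfl⟩ := (h3 b).1 hb
    rw [Ne, h8] at a1 b1
    obtain ⟨φ, h9, -, h10⟩ := hc.trans hD a1 b1 (by rw [hL x a1, hL y b1])
    obtain ⟨c, -, g, hg, h11⟩ := in_ZS.1 h9
    exact isConj_iff.2 ⟨(⟨g, hg.2⟩ : G), (h6 _ x y).2 (h11 ▸ h10.smul c)⟩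
  · obtain ⟨g, rfl⟩ := QuotientGroup.mk_surjective g
    exact (mem_of_mk hX h5).2 (hX ⟨(h7 g).1 hg, g.2⟩)
  · refine hc.mem_N hD hL (hc.le_N hD fun x hx φ h9 h10 => ?_) fun φ h9 => ?_
    · obtain ⟨c, hc, k, hk, h11⟩ := in_ZS.1 h9
      have := (h7 ⟨k, hk.2⟩).1 (h _ ((h3 _).2 ⟨x, rfl⟩) (mt (h8 x).1 hx) _
        ((mem_of_mk hX h5).2 hk.1) (mul_inv_eq_iff_eq_mul.1 ((h6 _ x x).2 (h11 ▸ h10.smul c))))
      rw [mem_N, h11] at this
      simpa [smul_smul, hc] using this.smul c⁻¹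
    · obtain ⟨c, hc, h10⟩ := in_ZS.1 h9
      have e1 := nz_of_mem hg _ (h10.mono inf_le_left)
      have e2 := hG g hg _ (h10.mono inf_le_right)
      exact ⟨in_ZS.2 ⟨c, hc, by simpa using e1.1.inf e2.1⟩,
        in_ZS.2 ⟨c, hc, by simpa using e1.2.inf e2.2⟩⟩

theorem Ctx.trick (h : P.Ctx X) (hε : ε * ε = sg F (P.q e)) (hz : P.q z = 1)
    (hze : P.q (z + e) = 1) (hB : P.B e z = 0) (hφ : In X φ) (h1 : φ * P.l e = P.l e * φ)
    {t : V → V} (h2 : ∀ v ∈ P.eig e ε, φ (t v) = v) : ∃ ω, In X ω ∧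
      (∀ v ∈ P.eig e ε, ω v = φ (P.l z (t (-P.l z v)))) ∧ ∀ v ∈ P.eig e (-ε), ω v = v := by
  obtain ⟨ρ, r1, -, r2, r3, r4⟩ := h.ctrl (eps_neg hε) hz hze hB
  rw [neg_neg] at r4
  obtain ⟨g, hg, rfl⟩ := hφ
  refine ⟨_, ((((in_ce.2 hg).mul r1).mul (in_ce.2 (X.inv_mem hg))).mul r1).mul (r1.mul r1),
    fun v hv => ?_, fun v hv => ?_⟩
  · have a1 := l_mem hB hv
    have a2 := (P.eig e ε).neg_mem a1
    have a3 : ce g⁻¹ (-P.l z v) = t (-P.l z v) := by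
      nth_rewrite 1 [← h2 _ a2]
      exact le_inv_apply_apply g _
    simp only [End.mul_apply]
    rw [r4 v hv, r4 _ a1, r4 _ (l_mem hB a1), l_apply, hz, sg_one, neg_one_smul,
      r4 _ (mem_eig_of_comm (comm_inv h1) a2), a3]
  · simp only [End.mul_apply]
    rw [r3 v hv, r3 v hv, r3 v hv, r3 _ (mem_eig_of_comm (comm_inv h1) hv)]
    exact le_apply_inv g v

theorem Ctx.move (h : P.Ctx X) (hD : P.HD) {e' : E} {ε' : F} (he : e ≠ 0) (he' : e' ≠ 0)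
    (hq : P.q e = P.q e') (hε : ε * ε = ε' * ε') (h0 : ε ≠ 0) :
    ∃ g ∈ X, (∀ v ∈ P.eig e' ε', g⁻¹ v ∈ P.eig e ε) ∧
      ∀ φ, φ * P.l e = P.l e * φ → ce g * φ * ce g⁻¹ * P.l e' = P.l e' * (ce g * φ * ce g⁻¹) := by
  obtain ⟨g, hg, c, h1, h2⟩ : ∃ g ∈ X, ∃ c : F, c * ε' = ε ∧ ce g * P.l e = c • (P.l e' * ce g) := by
    obtain ⟨_, ⟨g, hg, rfl⟩, -, c, -, h2⟩ := h.trans hD he he' hq
    have h3 := Mp.sq (ce_unit g) h2 hq.symm
    rcases mul_self_eq_mul_self_iff.1 (show c * ε' * (c * ε') = ε * ε by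
      linear_combination ε' * ε' * h3 - hε) with h4 | h4
    · exact ⟨g, hg, c, h4, h2⟩
    · obtain ⟨f, hf⟩ := P.exists_B he'
      obtain ⟨k, hk, h5⟩ := h.l f
      refine ⟨k * g, X.mul_mem hk hg, -c, by rw [neg_mul, h4, neg_neg], ?_⟩
      rw [map_mul, h5, mul_assoc, h2, P.comm', hf]
      simp
  have h3 : c ≠ 0 := left_ne_zero_of_mul (h1 ▸ h0)
  have h4 : P.l e * ce g⁻¹ = c • (ce g⁻¹ * P.l e') := by
    simpa [mul_assoc] using congrArg (fun t => ce g⁻¹ * t * ce g⁻¹) h2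
  refine ⟨g, hg, fun v hv => ?_, fun φ hφ => smul_right_injective _ h3 ?_⟩
  · rw [mem_eig, ← ce_apply, ← End.mul_apply, h4, LinearMap.smul_apply, End.mul_apply, mem_eig.1 hv,
      map_smul, smul_smul, h1]
  · beta_reduce
    rw [mul_assoc, ← mul_smul_comm, ← h4, mul_assoc, ← mul_assoc φ, hφ, ← mul_assoc, ← mul_assoc, h2]
    simp only [smul_mul_assoc, mul_assoc]

theorem eig_dec' (hε : ε * ε = sg F (P.q e)) (hB : P.B z e = 0) (hv : v ∈ P.eig z δ) :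
    ∃ a ∈ P.eig e ε, ∃ b ∈ P.eig e (-ε), a ∈ P.eig z δ ∧ b ∈ P.eig z δ ∧ v = a + b := by
  have := eps_ne hε
  have := P.two
  refine ⟨_, Submodule.smul_mem _ (2 * ε)⁻¹ (proj_mem hε v), _,
    Submodule.smul_mem _ (-(2 * ε)⁻¹) (proj_mem (eps_neg hε) v),
    Submodule.smul_mem _ _ (add_mem (l_mem hB hv) (Submodule.smul_mem _ _ hv)),
    Submodule.smul_mem _ _ (add_mem (l_mem hB hv) (Submodule.smul_mem _ _ hv)), ?_⟩
  match_scalars <;> field_simp <;> ring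

theorem mem_eig_add {c : F} (hc : P.l (e + z) = c • (P.l e * P.l z)) (h1 : v ∈ P.eig e ε)
    (h2 : v ∈ P.eig z δ) : v ∈ P.eig (e + z) (c * ε * δ) := by
  rw [mem_eig] at *
  rw [hc, LinearMap.smul_apply, End.mul_apply, h2, map_smul, h1, smul_smul, smul_smul,
    mul_right_comm]

theorem sq_of_mem (hv : v ∈ P.eig e ε) (h0 : v ≠ 0) : ε * ε = sg F (P.q e) := by
  have := l_apply (P := P) e v
  rw [mem_eig.1 hv, map_smul, mem_eig.1 hv, smul_smul] at this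
  exact smul_left_injective F h0 this

/-- A functional which is an eigenvector of `l e`. -/
def DE (P : Pauli F V E) (ψ : Dual F V) (e : E) (ε : F) : Prop := ∀ v, ψ (P.l e v) = ε * ψ v

theorem DE.zero {ψ : Dual F V} (h : P.DE ψ e (-ε)) (h0 : ε ≠ 0) (hv : v ∈ P.eig e ε) : ψ v = 0 := by
  have := h v
  rw [mem_eig.1 hv, map_smul, smul_eq_mul] at this
  exact (mul_eq_zero.1 (by linear_combination this : 2 * ε * ψ v = 0)).resolve_left
    (mul_ne_zero P.two h0)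

theorem de_dec (hε : ε * ε = sg F (P.q e)) (ψ : Dual F V) : ∃ ψ₁ ψ₂ : Dual F V, ψ = ψ₁ + ψ₂ ∧
    P.DE ψ₁ e ε ∧ P.DE ψ₂ e (-ε) ∧
    ∀ z δ, P.B e z = 0 → P.DE ψ z δ → P.DE ψ₁ z δ ∧ P.DE ψ₂ z δ := by
  have := eps_ne hε
  have := P.two
  refine ⟨(2 * ε)⁻¹ • (ψ ∘ₗ P.l e + ε • ψ), (2 * ε)⁻¹ • (ε • ψ - ψ ∘ₗ P.l e),
    LinearMap.ext fun v => ?_, fun v => ?_, fun v => ?_, fun z δ h1 h2 => ⟨fun v => ?_, fun v => ?_⟩⟩
  · simp; field_simp; ring
  · simp [l_apply, ← hε]; ring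
  · simp [l_apply, ← hε]; ring
  · simp [comm_apply e z, h1, h2 _]; ring
  · simp [comm_apply e z, h1, h2 _]; ring

/-- The eigenspace carries all the transvections. -/
def LB (P : Pauli F V E) (X : Subgroup (V ≃ₗ[F] V)) (e : E) (ε : F) : Prop :=
  ∀ u ∈ P.eig e ε, ∀ ψ : Dual F V, ψ u = 0 →
    ∃ φ, In X φ ∧ φ * P.l e = P.l e * φ ∧ ∀ v ∈ P.eig e ε, φ v = v + ψ v • u

theorem lb_of_le (h : SLV F (P.eig e ε) ≤ P.resG X e ε) : P.LB X e ε := fun u hu ψ h1 => by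
  obtain ⟨g, hg, h2⟩ := hasT_SLV (u := (⟨u, hu⟩ : P.eig e ε)) (φ := ψ ∘ₗ (P.eig e ε).subtype) h1
  obtain ⟨k, h3, h4, h5⟩ := h hg
  exact ⟨_, in_ce.2 h3, h4, fun v hv => (h5 ⟨v, hv⟩).trans (congrArg Subtype.val (h2 ⟨v, hv⟩))⟩

theorem LB.move (h : P.LB X e ε) (hc : P.Ctx X) (hD : P.HD) {e' : E} {ε' : F} (he : e ≠ 0)
    (he' : e' ≠ 0) (hq : P.q e = P.q e') (hε : ε * ε = ε' * ε') (h0 : ε ≠ 0) : P.LB X e' ε' := by
  intro u hu ψ h1
  obtain ⟨g, hg, h2, h3⟩ := hc.move hD he he' hq hε h0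
  obtain ⟨φ, h4, h5, h6⟩ := h _ (h2 u hu) (ψ ∘ₗ ce g) (by simpa [ce_apply] using h1)
  exact ⟨_, (nz_of_mem hg _ h4).1, h3 φ h5, fun v hv => by
    rw [End.mul_apply, End.mul_apply, ce_apply g⁻¹, h6 _ (h2 v hv)]; simp [ce_apply]⟩

theorem LB.hasT (h : P.LB X e ε) (hc : P.Ctx X) (hε : ε * ε = sg F (P.q e)) (hz : P.q z = 1)
    (hze : P.q (z + e) = 1) (hB : P.B e z = 0) (hδ : δ * δ = -1) (h1 : u ∈ P.eig e ε)
    (h2 : u ∈ P.eig z δ) {ψ : Dual F V} (h3 : P.DE ψ e ε) (h4 : P.DE ψ z (-δ)) : HasT X u ψ := by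
  have h0 : ψ u = 0 := h4.zero (by rintro rfl; simp at hδ) h2
  obtain ⟨φ, h5, h6, h7⟩ := h u h1 ((2 : F)⁻¹ • ψ) (by simp [h0])
  obtain ⟨ω, h8, h9, h10⟩ := hc.trick hε hz hze hB h5 h6 (t := fun v => v - ((2 : F)⁻¹ * ψ v) • u)
    fun v hv => by simp [h7 v hv, h7 u h1, h0]
  refine h8.has.congr (LinearMap.congr_fun (ext_eig (ψ := 1 + ψ.smulRight u) hε (fun v hv => ?_)
    fun v hv => ?_))
  · have := P.two
    rw [h9 v hv]
    simp only [map_sub, map_neg, map_smul, l_apply, hz, mem_eig.1 h2, h4 v, h7 v hv, h7 u h1, h0,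
      sg_one, LinearMap.smul_apply, LinearMap.add_apply, End.one_apply, LinearMap.smulRight_apply]
    match_scalars
    · ring
    · simp only [smul_eq_mul]; field_simp; linear_combination -2 * ψ v * hδ
  · simp [h10 v hv, DE.zero (ε := -ε) (by simpa using h3) (neg_ne_zero.2 (eps_ne hε)) hv]

theorem exists_perp_ne (h4 : 4 ≤ finrank (ZMod 2) E) (hef : P.B e f = 1) :
    ∃ z, z ≠ 0 ∧ z ∈ P.hp e f ∧ z + e ≠ 0 := by
  obtain ⟨z, h1, h2⟩ := P.exS_list' [e, f] (by simpa) (a := e) (b := f) (by simp) (by simp) hef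
  refine ⟨z, P.ne_zero_of_q h1, mem_hp.2 ⟨h2 e (by simp), h2 f (by simp)⟩,
    P.ne_zero_of_B (y := f) ?_⟩
  simp [hef, P.symm z f, h2 f]

theorem LB.SLV_le [FiniteDimensional F V] (h : P.LB X e ε) (hc : P.Ctx X)
    (h4 : 4 ≤ finrank (ZMod 2) E) (hL : ∀ x, x ≠ 0 → P.q x = 1) (he : e ≠ 0) (hε : ε * ε = -1) :
    SLV F V ≤ X := by
  have hs : ∀ {x} {δ : F}, x ≠ 0 → δ * δ = -1 → δ * δ = sg F (P.q x) := fun h1 h2 => by
    rw [hL _ h1, sg_one, h2]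
  have A : ∀ {a b u} {α β : F} {ψ : Dual F V}, a ≠ 0 → b ≠ 0 → b + a ≠ 0 → P.B a b = 0 →
      α * α = -1 → β * β = -1 → u ∈ P.eig a α → u ∈ P.eig b β → P.DE ψ a α → P.DE ψ b (-β) →
      HasT X u ψ := fun a0 b0 ab hB hα hβ u1 u2 => (h.move hc (Or.inr ⟨h4, hL⟩) he a0
        (by rw [hL _ he, hL _ a0]) (hε.trans hα.symm) (eps_ne (hs he hε))).hasT hc (hs a0 hα)
        (hL _ b0) (hL _ ab) hB hβ u1 u2
  obtain ⟨f, hef⟩ := P.exists_B he
  obtain ⟨z, hz, h1, hze⟩ := exists_perp_ne h4 hef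
  have hB := (mem_hp.1 h1).1
  have hB' := P.symm e z ▸ hB
  have key : ∀ {α β : F}, α * α = -1 → β * β = -1 → ∀ u ∈ P.eig e α, u ∈ P.eig z β → u ∈ cen X := by
    intro α β hα hβ u u1 u2 ψ h0
    by_cases hu : u = 0
    · rw [hu]; exact hasT_zero_left ψ
    have α0 := eps_ne (hs he hα)
    have β0 := eps_ne (hs hz hβ)
    obtain ⟨ψ₁, ψ₂, rfl, d1, d2, -⟩ := de_dec (hs he hα) ψ
    obtain ⟨ψ₃, ψ₄, rfl, d3, d4, d5⟩ := de_dec (hs hz hβ) ψ₁
    obtain ⟨ψ₅, ψ₆, rfl, d6, d7, d8⟩ := de_dec (hs hz hβ) ψ₂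
    replace d5 := d5 e α hB' d1
    replace d8 := d8 e _ hB' d2
    have z4 := d4.zero β0 u2
    have z5 := d8.1.zero α0 u1
    have z6 := d7.zero β0 u2
    have z3 : ψ₃ u = 0 := by simpa [z4, z5, z6] using h0
    obtain ⟨c, -, hc'⟩ := P.add e z
    have u3 := mem_eig_add hc' u1 u2
    have hβ' : -β * -β = -1 := by rw [neg_mul_neg, hβ]
    obtain ⟨v, v1, v2, v3⟩ := exists_eig2 hef (hs he hα) h1 hz (hs hz hβ')
    obtain ⟨χ, hχ⟩ := exists_dual_of_ne_zero v3 (1 : F)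
    obtain ⟨χ₁, χ₂, rfl, k1, k2, -⟩ := de_dec (hs he hα) χ
    obtain ⟨χ₃, χ₄, rfl, k3, k4, k5⟩ := de_dec (hs hz hβ) χ₁
    replace k5 := k5 e α hB' k1
    have k6 : χ₄ v = 1 := by
      simpa [k2.zero α0 v1, DE.zero (ε := -β) (by simpa using k3) (neg_ne_zero.2 β0) v2] using hχ
    have t3 := (A he hz hze hB hα hβ u1 u2 k5.2 k4).comm
      (A he hz hze hB hα hβ' v1 v2 d5.1 (by simpa using d3)) (k4.zero β0 u2)
      (DE.zero (ε := -β) (by simpa using d3) (neg_ne_zero.2 β0) v2) z3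
    rw [k6, one_smul] at t3
    refine (t3.add_right (A he hz hze hB hα hβ u1 u2 d5.2 d4) z3).add_right
      ((A hz he (add_comm z e ▸ hze) hB' hβ hα u2 u1 d6 d8.1).add_right
        (A (add_comm z e ▸ hze) hz (by rwa [add_comm, add_add_cancel2]) (by simp [hB, P.alt])
          (by rw [sq_of_mem u3 hu, hL _ (add_comm z e ▸ hze), sg_one]) hβ u3 u2 (fun w => ?_) d7) z5)
      (by simp [z3, z4])
    rw [hc', LinearMap.smul_apply, End.mul_apply, map_smul, d8.2, d7, smul_eq_mul]; ring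
  refine SLV_le_of_cen (eq_top_iff.2 fun v _ => ?_)
  have hε' : -ε * -ε = -1 := by rw [neg_mul_neg, hε]
  obtain ⟨a, ha, b, hb, rfl⟩ := eig_dec (hs he hε) v
  obtain ⟨a1, h2, a2, h3, h5, h6, rfl⟩ := eig_dec' (hs hz hε) hB ha
  obtain ⟨b1, h7, b2, h8, h9, h10, rfl⟩ := eig_dec' (hs hz hε) hB hb
  exact add_mem (add_mem (key hε hε _ h5 h2) (key hε hε' _ h6 h3))
    (add_mem (key hε' hε _ h9 h7) (key hε' hε' _ h10 h8))

variable (P) in
include P in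
theorem finrank_four [FiniteDimensional F V] (h4 : finrank (ZMod 2) E = 4) : finrank F V = 4 := by
  have := P.finrank_sq
  rw [h4] at this
  exact Nat.pow_left_injective two_ne_zero this

theorem nz_of_normal [G.Normal] (g : V ≃ₗ[F] V) : Nz G g := by
  rintro _ ⟨k, hk, rfl⟩
  simp only [← map_mul, in_ce]
  exact ⟨Subgroup.Normal.conj_mem ‹_› k hk g, Subgroup.Normal.conj_mem' ‹_› k hk g⟩

theorem Ctx.N_le (h : P.Ctx X) (h6 : 6 ≤ finrank (ZMod 2) E) (hL : ∀ x, x ≠ 0 → P.q x = 1) :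
    P.N ≤ X := Pauli.N_le hL h.Z h.l fun _ => h.single h6 hL

end Pauli

theorem p6_SLV [Fintype F] [FiniteDimensional F V] (hF : (Fintype.card F).Prime)
    (h4 : Fintype.card F % 4 = 1) (hn : finrank F V = 4) :
    P6 (SLV F V ⧸ Subgroup.center (SLV F V)) :=
  (p6_PSL hF h4).congr (cq (Matrix.SpecialLinearGroup.toLin_equiv (finBasisOfFinrankEq F V hn)))

universe u v w

/-- The linear case. -/
theorem lin_main {F : Type u} [Field F] [Fintype F] (hF : (Fintype.card F).Prime)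
    (h4 : Fintype.card F % 4 = 1) (k : ℕ) : ∀ {V : Type v} {E : Type w} [AddCommGroup V] [Module F V]
    [FiniteDimensional F V] [AddCommGroup E] [Module (ZMod 2) E] [Finite E] (P : Pauli F V E)
    (X : Subgroup (V ≃ₗ[F] V)), finrank (ZMod 2) E = 2 * k + 4 → (∀ x, x ≠ 0 → P.q x = 1) →
    ZLe X → P.N ⊓ SLV F V ≤ X → X ≤ P.N ∨ SLV F V ≤ X := by
  induction k with
  | zero =>
    intro V E _ _ _ _ _ _ P X hE hL hZ hX
    exact Pauli.base4 hL hE (p6_SLV hF h4 (P.finrank_four hE)) (Pauli.l_SLV hL hE.ge)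
      (fun a b => Pauli.pair_SLV hL hE.ge) hX fun g _ => Pauli.nz_of_normal g
  | succ k ih =>
    intro V E _ _ _ _ _ _ P X hE hL hZ hX
    have hc : P.Ctx X := ⟨hZ, fun x => (((P.ctx_N hL).l x).inf (P.l_SLV hL (by omega) x)).mono hX,
      fun a b ha hb => .of_smul hZ (inv_ne_zero P.two) (((((P.ctx_N hL).pair a b ha hb).smul
        Pauli.zle_N (inv_ne_zero P.two)).inf (P.pair_SLV hL (by omega) ha hb)).mono hX),
      fun φ x y h => Pauli.hq_of_lin hL h.unit⟩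
    obtain ⟨ι, hι⟩ := FiniteField.isSquare_neg_one_iff.2 (show Fintype.card F % 4 ≠ 3 by omega)
    by_cases hN : P.NB X
    · exact Or.inl (hN.le_N hc (by omega) hL hι.symm)
    simp only [Pauli.NB, not_forall] at hN
    obtain ⟨e, f, ε, hef, hε, h1⟩ := hN
    have he := P.ne_zero_of_B hef
    have := Pauli.finrank_hp hef
    exact Or.inr ((Pauli.lb_of_le ((ih (P.res hef hε) _ (by omega) (Pauli.res_lin hL)
      (Pauli.zle_resG hZ) (inf_le_left.trans ((hc.N_le_resG (by omega) hL).trans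
        fun g ⟨k, h2, h3⟩ => ⟨k, h2.1, h3⟩))).resolve_left h1)).SLV_le hc (by omega) hL he
      (by rw [hε, hL e he, sg_one]))

end H97c
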