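import Mathlib
import Cfsg.Agent.Base
import Cfsg.Agent.Lib.Cliff.Lin

/-!
Overgroups of the normaliser of a Pauli group of linear type in the unitary group.
-/

set_option autoImplicit false
set_option linter.unusedSectionVars false
set_option linter.unusedVariables false

namespace H97c

open Module H97 H28 H97o H11.U

variable {F V E : Type*} [Field F] [AddCommGroup V] [Module F V] [AddCommGroup E]
  [Module (ZMod 2) E] [Finite E] {σ : F →+* F}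

section XL

variable {Q : PQ F V σ} {M : Subgroup (V ≃ₗ[F] V)} {d w w' : V}

variable (Q M) in
/-- Some element of `X_d` over `w` lies in `M`. -/
def AA (d w : V) : Prop := Q.B d w = 0 ∧ ∃ c, c - Q.q w ∈ Q.Λ ∧ Has M (eu Q d w c)

theorem aa_zero : AA Q M d 0 :=
  ⟨by simp, 0, by simpa using Q.q_zero, has_id.congr fun x => (eu_zero d x).symm⟩

theorem AA.add (hd : Q.q d ∈ Q.Λ) (h : AA Q M d w) (h' : AA Q M d w') : AA Q M d (w + w') := by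
  obtain ⟨h1, c, h2, h3⟩ := h
  obtain ⟨h4, c', h5, h6⟩ := h'
  exact ⟨by simp [h1, h4], _, valid_add h2 h5,
    (h3.comp h6).congr (eu_comp (Q.self_eq_zero hd) h1 h4 c c')⟩

theorem has_eu_neg (hd : Q.q d ∈ Q.Λ) (h1 : Q.B d w = 0) {c : F} (h : Has M (eu Q d w c)) :
    Has M (eu Q d (-w) (Q.B w w - c)) := h.inv fun x => by
  rw [eu_comp (Q.self_eq_zero hd) h1 (by simp [h1])]
  simp [eu_zero]

theorem AA.neg (hd : Q.q d ∈ Q.Λ) (h : AA Q M d w) : AA Q M d (-w) := by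
  obtain ⟨h1, c, h2, h3⟩ := h
  exact ⟨by simp [h1], _, valid_neg h2, has_eu_neg hd h1 h3⟩

theorem AA.lam (hd : Q.q d ∈ Q.Λ) (h : AA Q M d w) (h' : AA Q M d w') :
    Has M (eu Q d 0 (Q.B w w' - Q.B w' w)) := by
  obtain ⟨h1, c, -, h3⟩ := h
  obtain ⟨h4, c', -, h6⟩ := h'
  have h0 := Q.self_eq_zero hd
  have h7 : Q.B d (w' + w) = 0 := by simp [h1, h4]
  refine (((h3.comp h6).congr (eu_comp h0 h1 h4 c c')).comp (has_eu_neg hd h7
    ((h6.comp h3).congr (eu_comp h0 h4 h1 c' c)))).congr fun x => ?_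
  rw [eu_comp h0 (by simp [h1, h4]) (by simp [h1, h4])]
  congr 2
  · abel
  · simp only [map_add, map_neg, LinearMap.add_apply]; ring

theorem xle_of_aa (hP : Q.B.SeparatingLeft) (hΛ : ∀ l ∈ Q.Λ, ∃ a, l = a - Q.ε * σ a)
    (hM : ∀ {d w c}, Q.q d ∈ Q.Λ → Q.B d w = 0 → c - Q.q w ∈ Q.Λ → ∀ g ∈ M,
      (∀ x, g x = eu Q d w c x) → g ∈ Q.Isom)
    {W₁ W₂ : Submodule F V} (h1 : ∀ x ∈ W₁, ∀ y ∈ W₂, Q.B x y = 0)
    (h2 : ∀ x, ∃ a ∈ W₁, ∃ b ∈ W₂, x = a + b) {b : V} (hd : Q.q d ∈ Q.Λ) (hb : Q.q b ∈ Q.Λ)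
    (hd' : d ∈ W₁) (hb' : b ∈ W₂) (h0 : b ≠ 0) (h3 : ∀ w ∈ W₂, AA Q M d w)
    (h4 : ∀ w ∈ W₁, AA Q M b w) : XLe Q M d := by
  obtain ⟨y, hy, h5⟩ : ∃ y ∈ W₂, Q.B b y = 1 := by
    obtain ⟨y, hy⟩ : ∃ y, Q.B b y ≠ 0 := by
      by_contra h
      exact h0 (hP b fun y => by simpa using not_exists.1 h y)
    obtain ⟨y₁, h5, y₂, h6, rfl⟩ := h2 y
    rw [map_add, Q.eq_zero_symm (h1 _ h5 _ hb'), zero_add] at hy
    exact ⟨(Q.B b y₂)⁻¹ • y₂, W₂.smul_mem _ h6, by simp [hy]⟩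
  have h6 : ∀ l ∈ Q.Λ, Has M (eu Q d 0 l) := fun l hl => by
    obtain ⟨a, rfl⟩ := hΛ l hl
    have := (h3 b hb').lam hd (h3 _ (W₂.smul_mem a hy))
    rwa [Q.symm b, map_smul, h5, smul_eq_mul, mul_one] at this
  have h7 : ∀ w ∈ W₁, Q.B d w = 0 → AA Q M d w := fun w hw h7 => by
    obtain ⟨h8, c, h9, g, hg, h10⟩ := h4 w hw
    have h11 := hM hb h8 h9 g hg h10
    obtain ⟨h12, c', h13, h14⟩ := h3 _ (W₂.smul_mem (-Q.ε) hy)
    have h15 := has_eu_conj h14 hg h11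
    have h16 := isom_valid h11 h13
    rw [h10 d, eu_fix c (Q.eq_zero_symm (h1 _ hd' _ hb')) (Q.eq_zero_symm h7)] at h15
    have h17 : g (-Q.ε • y) = w + (-Q.ε • y + c • b) := by
      rw [h10, eu_apply, map_smul, map_smul, h1 w hw y hy, h5]
      match_scalars
      · ring
      · linear_combination c * Q.εε
      · linear_combination Q.εε
    rw [h17] at h15 h16
    have h18 := add_mem (W₂.smul_mem (-Q.ε) hy) (W₂.smul_mem c hb')
    simpa only [add_neg_cancel_right] using AA.add hd ⟨by rw [map_add, h7, h1 _ hd' _ h18, add_zero], c', h16, h15⟩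
      ((h3 _ h18).neg hd)
  intro w c hw hc
  obtain ⟨w₁, h8, w₂, h9, rfl⟩ := h2 w
  obtain ⟨-, c', h10, h11⟩ := (h7 w₁ h8 (by simpa [h1 _ hd' _ h9] using hw)).add hd (h3 w₂ h9)
  refine (h11.comp (h6 (c - c') (by simpa using Q.Λ.sub_mem hc h10))).congr fun x => ?_
  rw [eu_comp (Q.self_eq_zero hd) hw (by simp)]
  simp

theorem eu_isom [FiniteDimensional F V] (hP : Q.B.SeparatingLeft) {c : F} (hd : Q.q d ∈ Q.Λ)
    (hw : Q.B d w = 0) (hc : c - Q.q w ∈ Q.Λ) (g : V ≃ₗ[F] V) (_ : g ∈ M)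
    (h : ∀ x, g x = eu Q d w c x) : g ∈ Q.Isom := (has_eu_isom hd hw hc).mem h

end XL

namespace Pauli

variable {P : Pauli F V E} {X G : Subgroup (V ≃ₗ[F] V)} {φ ψ : End F V} {x y z a b e f : E}
  {ε δ : F} {u v : V}

theorem EG_le_of_xle' [FiniteDimensional F V] {Q : PQ F V σ} (hP : Q.B.SeparatingLeft)
    (hl : ∀ x, In (X ⊓ Q.Isom) (P.l x)) (hu : Q.q u ∈ Q.Λ) (h0 : u ≠ 0) (h : XLe Q X u) :
    EG Q ≤ X := by
  have := Fintype.ofFinite E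
  obtain ⟨y, hy⟩ : ∃ y, Q.B u (P.l y u) ≠ 0 := by
    by_contra h1
    push Not at h1
    refine h0 (hP u fun w => ?_)
    obtain ⟨χ, hχ⟩ := exists_dual_of_ne_zero h0 (1 : F)
    obtain ⟨c, hc⟩ := P.exists_sum (χ.smulRight w)
    have := LinearMap.congr_fun hc u
    rw [LinearMap.smulRight_apply, hχ, one_smul] at this
    simp [this, h1]
  obtain ⟨g, hg, e⟩ := hl y
  rw [← e] at hy
  exact EG_le_of_xle hP hu (isom_q hg.2 hu) h (h.apply hg.1 hg.2) hy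

theorem two_le_finrank [FiniteDimensional F V] {W : Submodule F V} (hv : v ∈ W) (h0 : v ≠ 0)
    (hab : P.B a b = 1) (ha : ∀ v ∈ W, P.l a v ∈ W) (hb : ∀ v ∈ W, P.l b v ∈ W) :
    2 ≤ finrank F W := by
  by_contra h
  obtain ⟨w, hw⟩ := finrank_le_one_iff.1 (show finrank F W ≤ 1 by omega)
  obtain ⟨r, hr⟩ := hw ⟨v, hv⟩
  obtain ⟨s, hs⟩ := hw ⟨_, ha _ w.2⟩
  obtain ⟨t, ht⟩ := hw ⟨_, hb _ w.2⟩
  simp only [Subtype.ext_iff, SetLike.val_smul] at hr hs ht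
  have h1 := comm_apply (P := P) a b w.1
  have h2 := l_ne_zero (P := P) a (l_ne_zero (P := P) b (v := w.1) fun e => h0 (by simp [← hr, e]))
  rw [hab, ← hs, ← ht, map_smul, map_smul, ← hs, ← ht, sg_one] at h1
  rw [← ht, map_smul, ← hs] at h2
  exact smul_ne_zero P.two h2 (by linear_combination (norm := module) h1)

theorem exists_perp_pair (h6 : 6 ≤ finrank (ZMod 2) E) (e z : E) :
    ∃ a b, P.B a b = 1 ∧ P.B e a = 0 ∧ P.B z a = 0 ∧ P.B e b = 0 ∧ P.B z b = 0 := by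
  obtain ⟨a, h1, b, h2, h3⟩ := P.exists_B_perp (P.not_perp_le [e, z] (by simp; omega))
  rw [P.mem_perp_span] at h1 h2
  exact ⟨a, b, h3, h1 e (by simp), h1 z (by simp), h2 e (by simp), h2 z (by simp)⟩

variable {hσ : ∀ a, σ (σ a) = a} {c : F} {hc : c + σ c = 1} {B : V →ₛₗ[σ] V →ₗ[F] F}
  {hS : ∀ x y, σ (B x y) = B y x}

theorem mem_isom_herm {g : V ≃ₗ[F] V} :
    g ∈ (PQ.ofHerm hσ c hc B hS).Isom ↔ ∀ x y, B (g x) (g y) = B x y :=
  ⟨And.left, fun h => ⟨h, fun x => by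
    change c * B _ _ - c * B _ _ ∈ _
    rw [h, sub_self]; exact zero_mem _⟩⟩

theorem in_isom_herm : In (PQ.ofHerm hσ c hc B hS).Isom φ ↔
    IsUnit φ ∧ ∀ x y, B (φ x) (φ y) = B x y :=
  ⟨fun h => ⟨h.unit, by obtain ⟨g, hg, rfl⟩ := h; exact hg.1⟩, fun ⟨h1, h2⟩ => by
    obtain ⟨g, rfl⟩ := exists_ce h1
    exact in_ce.2 (mem_isom_herm.2 h2)⟩

theorem q_herm {t : F} : t - (PQ.ofHerm hσ c hc B hS).q v ∈ (PQ.ofHerm hσ c hc B hS).Λ ↔
    t + σ t = B v v := by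
  change t - c * B v v + σ (t - c * B v v) = 0 ↔ _
  rw [map_sub, map_mul, hS]
  exact ⟨fun h => by linear_combination h + B v v * hc, fun h => by linear_combination h - B v v * hc⟩

/-- The Pauli group preserves the form. -/
def Iso (P : Pauli F V E) (B : V →ₛₗ[σ] V →ₗ[F] F) : Prop := ∀ x u v, B (P.l x u) (P.l x v) = B u v

theorem Iso.skew (h : P.Iso B) (ha : P.q a = 1) (u v : V) : B (P.l a u) v = -B u (P.l a v) := by
  rw [← h a, l_apply, ha]; simp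

theorem Iso.tau (h : P.Iso B) (ha : P.q a = 1) (u v : V) :
    B ((1 + P.l a) u) ((1 + P.l a) v) = 2 * B u v := by
  simp [h a u v, h.skew ha u v]; ring

theorem Iso.pair (h : P.Iso B) (ha : P.q a = 1) (hb : P.q b = 1) (u v : V) :
    B (((2 : F)⁻¹ • ((1 + P.l a) * (1 + P.l b))) u) (((2 : F)⁻¹ • ((1 + P.l a) * (1 + P.l b))) v) =
      B u v := by
  have := P.two
  rw [LinearMap.smul_apply, LinearMap.smul_apply, End.mul_apply, End.mul_apply, map_smul,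
    LinearMap.map_smulₛₗ, LinearMap.smul_apply, h.tau ha, h.tau hb, map_inv₀, map_ofNat]
  simp only [smul_eq_mul]
  field_simp

theorem Iso.orth (h : P.Iso B) (hε : σ ε * ε = 1) (hu : u ∈ P.eig e ε) (hv : v ∈ P.eig e (-ε)) :
    B u v = 0 := by
  have := h e u v
  rw [mem_eig.1 hu, mem_eig.1 hv, map_smul, LinearMap.map_smulₛₗ, LinearMap.smul_apply] at this
  simp only [smul_eq_mul] at this
  exact (mul_eq_zero.1 (by linear_combination -this - B u v * hε : 2 * B u v = 0)).resolve_left P.two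

theorem Iso.sep (h : P.Iso B) (hB : B.SeparatingLeft) (hε : ε * ε = sg F (P.q e))
    (hε' : σ ε * ε = 1) : (B.domRestrict₁₂ (P.eig e ε) (P.eig e ε)).SeparatingLeft :=
  fun x hx => Subtype.ext (hB _ fun y => by
    obtain ⟨a, ha, b, hb, rfl⟩ := eig_dec hε y
    rw [map_add, h.orth hε' x.2 hb, add_zero]
    exact hx ⟨a, ha⟩)

theorem conj_eq {g k : V ≃ₗ[F] V} {t : F} (ht : t ≠ 0) (h : ce k = t • ce g) (φ : End F V) :
    ce g * φ * ce g⁻¹ = ce k * φ * ce k⁻¹ := by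
  refine (ce_unit k).mul_right_cancel ?_
  rw [mul_assoc _ (ce k⁻¹), ce_inv_mul, h]
  simp [mul_assoc]

theorem nz_EG {Q : PQ F V σ} {g : V ≃ₗ[F] V} (hg : g ∈ ZS Q.Isom) : Nz (EG Q) g := by
  have key : ∀ g ∈ ZS Q.Isom, ∀ φ, In (EG Q) φ → In (EG Q) (ce g * φ * ce g⁻¹) := by
    rintro g ⟨t, ht, k, hk, h⟩ _ ⟨s, hs, rfl⟩
    rw [conj_eq ht h, ← map_mul, ← map_mul, in_ce]
    exact EG_conj hk hs
  exact fun φ h => ⟨key g hg φ h, by simpa using key _ (Subgroup.inv_mem _ hg) φ h⟩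

/-- The eigenspace carries all the Eichler elements. -/
def UB (P : Pauli F V E) (Q : PQ F V σ) (X : Subgroup (V ≃ₗ[F] V)) (e : E) (ε : F) : Prop :=
  ∀ d ∈ P.eig e ε, ∀ w ∈ P.eig e ε, ∀ t, Q.q d ∈ Q.Λ → Q.B d w = 0 → t - Q.q w ∈ Q.Λ →
    ∃ φ, In X φ ∧ φ * P.l e = P.l e * φ ∧ ∀ v ∈ P.eig e ε, φ v = eu Q d w t v

theorem ub_of_le (h : EG (PQ.ofHerm hσ c hc (B.domRestrict₁₂ (P.eig e ε) (P.eig e ε))
    fun x y => hS x y) ≤ P.resG X e ε) : P.UB (PQ.ofHerm hσ c hc B hS) X e ε := by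
  intro d hd w hw t h1 h2 h3
  obtain ⟨g, hg, h4⟩ := has_eu_EG (P := PQ.ofHerm hσ c hc (B.domRestrict₁₂ (P.eig e ε) (P.eig e ε))
    fun x y => hS x y) (d := ⟨d, hd⟩) (w := ⟨w, hw⟩) h1 h2 h3
  obtain ⟨k, h5, h6, h7⟩ := h hg
  exact ⟨_, in_ce.2 h5, h6, fun v hv => (h7 ⟨v, hv⟩).trans (by
    rw [h4, eu_apply, eu_apply]; rfl)⟩

theorem UB.move {Q : PQ F V σ} (h : P.UB Q X e ε) (hc : P.Ctx X) (hX : X ≤ ZS Q.Isom) (hD : P.HD)
    {e' : E} {ε' : F} (he : e ≠ 0) (he' : e' ≠ 0) (hq : P.q e = P.q e') (hε : ε * ε = ε' * ε')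
    (h0 : ε ≠ 0) : P.UB Q X e' ε' := by
  intro d hd w hw t h1 h2 h3
  obtain ⟨g, hg, h4, h5⟩ := hc.move hD he he' hq hε h0
  obtain ⟨s, hs, k, hk, h6⟩ := hX hg
  have h7 : ∀ v ∈ P.eig e' ε', k⁻¹ v ∈ P.eig e ε := fun v hv => by
    have : k (s⁻¹ • g⁻¹ v) = v := by rw [← ce_apply, h6]; simp [ce_apply, smul_smul, hs]
    rw [← this, le_inv_apply_apply]
    exact Submodule.smul_mem _ _ (h4 v hv)
  have hk' := Q.Isom.inv_mem hk
  obtain ⟨φ, h8, h9, h10⟩ := h _ (h7 d hd) _ (h7 w hw) t (isom_q hk' h1) (by rw [hk'.1, h2])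
    (isom_valid hk' h3)
  refine ⟨_, (nz_of_mem hg _ h8).1, h5 φ h9, fun v hv => ?_⟩
  rw [conj_eq hs h6, End.mul_apply, End.mul_apply, ce_apply k⁻¹, h10 _ (h7 v hv), ce_apply,
    eu_conj hk, le_apply_inv, le_apply_inv]

theorem UB.aa (h : P.UB (PQ.ofHerm hσ c hc B hS) X e ε) (hX : P.Ctx X) (hI : P.Iso B)
    (hε : ε * ε = sg F (P.q e)) (hε' : σ ε * ε = 1) (hz : P.q z = 1) (hze : P.q (z + e) = 1)
    (hB : P.B e z = 0) (hδ : σ δ * δ = 1) {d w : V} (hd : B d d = 0) (h1 : d ∈ P.eig e ε)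
    (h2 : d ∈ P.eig z δ) (h3 : w ∈ P.eig e ε) (h4 : w ∈ P.eig z (-δ)) :
    AA (PQ.ofHerm hσ c hc B hS) X d w := by
  set Q := PQ.ofHerm hσ c hc B hS
  have h0 := P.two
  obtain ⟨w, rfl⟩ : ∃ w', w = w' + w' := ⟨(2 : F)⁻¹ • w, by match_scalars; field_simp; ring⟩
  rw [← two_smul F, Submodule.smul_mem_iff _ h0] at h3 h4
  have hw : Q.B d w = 0 := hI.orth hδ h2 h4
  have hd' : Q.q d ∈ Q.Λ := by simpa using Q.Λ.neg_mem (q_herm.2 (by simp [hd]) : 0 - Q.q d ∈ Q.Λ)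
  obtain ⟨φ, h5, h6, h7⟩ := h d h1 w h3 (Q.q w) hd' hw (by simp)
  have h8 : ∀ t, ∀ s ∈ P.eig e ε, ∀ v ∈ P.eig e ε, eu Q d s t v ∈ P.eig e ε := fun t s hs v hv => by
    rw [eu_apply]
    exact sub_mem (add_mem hv (Submodule.smul_mem _ _ h1)) (Submodule.smul_mem _ _ hs)
  obtain ⟨ω, h9, h10, h11⟩ := hX.trick hε hz hze hB h5 h6 (t := eu Q d (-w) (Q.B w w - Q.q w))
    fun v hv => by
      rw [h7 _ (h8 _ _ (neg_mem h3) v hv), eu_comp hd hw (by simp [hw])]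
      simp [eu_zero]
  obtain ⟨k, hk, h12⟩ := (in_isom_herm.2 ⟨P.l_unit z, hI z⟩ : In Q.Isom (P.l z))
  have h13 : ∀ v, k v = P.l z v := fun v => LinearMap.congr_fun h12 v
  refine ⟨by simp [hw], Q.q w + (Q.B w w - Q.q w) + Q.B w w, q_herm.2 ?_, h9.has.congr
    (LinearMap.congr_fun (ext_eig hε (fun v hv => ?_) fun v hv => ?_))⟩
  · change c * B w w + (B w w - c * B w w) + B w w + σ (c * B w w + (B w w - c * B w w) + B w w) = _
    simp [hS]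
  · have : -P.l z v = k⁻¹ v := by
      rw [eq_comm, le_inv_apply, LinearEquiv.symm_apply_eq, h13, map_neg, l_apply, hz]; simp
    rw [h10 v hv, this, ← h13, eu_conj hk, h13, h13, mem_eig.1 h2, map_neg, mem_eig.1 h4, eu_smul,
      hδ, one_mul, neg_smul, neg_neg, smul_smul, hδ, one_smul, h7 _ (h8 _ _ h3 v hv),
      eu_comp hd hw hw]
  · rw [h11 v hv, eu_fix _ (hI.orth hε' h1 hv) (hI.orth hε' (add_mem h3 h3) hv)]

theorem UB.EG_le [Finite F] [FiniteDimensional F V] (h : P.UB (PQ.ofHerm hσ c hc B hS) X e ε)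
    (hne : σ ≠ RingHom.id F) (hι : ∀ t : F, t * t = -1 → σ t * t = 1) (hP : B.SeparatingLeft)
    (hX : P.Ctx X) (hX' : X ≤ ZS (PQ.ofHerm hσ c hc B hS).Isom) (hI : P.Iso B)
    (h6 : 6 ≤ finrank (ZMod 2) E) (hL : ∀ x, x ≠ 0 → P.q x = 1) (he : e ≠ 0) (hε : ε * ε = -1) :
    EG (PQ.ofHerm hσ c hc B hS) ≤ X := by
  set Q := PQ.ofHerm hσ c hc B hS
  have hs : ∀ {x} {δ : F}, x ≠ 0 → δ * δ = -1 → δ * δ = sg F (P.q x) := fun h1 h2 => by
    rw [hL _ h1, sg_one, h2]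
  have A : ∀ {a b d w} {α β : F}, a ≠ 0 → b ≠ 0 → b + a ≠ 0 → P.B a b = 0 →
      α * α = -1 → β * β = -1 → B d d = 0 → d ∈ P.eig a α → d ∈ P.eig b β → w ∈ P.eig a α →
      w ∈ P.eig b (-β) → AA Q X d w := fun a0 b0 ab hB hα hβ =>
    (h.move hX hX' (Or.inl h6) he a0 (by rw [hL _ he, hL _ a0]) (hε.trans hα.symm)
      (eps_ne (hs he hε))).aa hX hI (hs a0 hα) (hι _ hα) (hL _ b0) (hL _ ab) hB (hι _ hβ)
  obtain ⟨f, hef⟩ := P.exists_B he
  obtain ⟨z, hz, h1, hze⟩ := exists_perp_ne (by omega) hef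
  have hB := (mem_hp.1 h1).1
  have hB' := P.symm e z ▸ hB
  have hε' : -ε * -ε = -1 := by rw [neg_mul_neg, hε]
  have iso : ∀ {β : F}, β * β = -1 → ∃ d ∈ P.eig e ε ⊓ P.eig z β, d ≠ 0 ∧ Q.q d ∈ Q.Λ := fun hβ => by
    obtain ⟨v, v1, v2, v3⟩ := exists_eig2 hef (hs he hε) h1 hz (hs hz hβ)
    obtain ⟨a, b, h2, h3, h4, h5, h7⟩ := exists_perp_pair (P := P) h6 e z
    exact isoK_herm hne _ (two_le_finrank ⟨v1, v2⟩ v3 h2 (fun v hv => ⟨l_mem h3 hv.1, l_mem h4 hv.2⟩)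
      fun v hv => ⟨l_mem h5 hv.1, l_mem h7 hv.2⟩)
  obtain ⟨d, d1, d2, d3⟩ := iso hε
  obtain ⟨b, b1, b2, b3⟩ := iso hε'
  have d4 : B d d = 0 := Q.self_eq_zero d3
  obtain ⟨s, -, hs'⟩ := P.add e z
  have d5 := mem_eig_add hs' d1.1 d1.2
  have a3 : ∀ w ∈ P.eig e (-ε), w ∈ P.eig z (-ε) → AA Q X d w := fun w w1 w2 =>
    A (add_comm z e ▸ hze) hz (by rwa [add_comm, add_add_cancel2]) (by simp [hB, P.alt])
      (by rw [sq_of_mem d5 d2, hL _ (add_comm z e ▸ hze), sg_one]) hε d4 d5 d1.2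
      (by simpa using mem_eig_add hs' w1 w2) w2
  refine EG_le_of_xle' hP (fun x => (hX.l x).inf (in_isom_herm.2 ⟨P.l_unit x, hI x⟩)) d3 d2
    (xle_of_aa hP (fun l hl => ⟨(2 : F)⁻¹ * l, ?_⟩) (eu_isom hP) (W₁ := P.eig e ε ⊓ P.eig z ε)
      (W₂ := P.eig e (-ε) ⊔ P.eig z (-ε)) (fun x hx y hy => ?_) (fun x => ?_) d3 b3 d1
      (Submodule.mem_sup_right b1.2) b2 (fun w hw => ?_) fun w hw =>
        A he hz hze hB hε hε' (Q.self_eq_zero b3) b1.1 b1.2 hw.1 (by simpa using hw.2))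
  · have := P.two
    change l = 2⁻¹ * l - 1 * σ (2⁻¹ * l)
    rw [map_mul, map_inv₀, map_ofNat, show σ l = -l by linear_combination mem_traceZero.1 hl]
    field_simp; ring
  · obtain ⟨y₁, h2, y₂, h3, rfl⟩ := Submodule.mem_sup.1 hy
    change B x _ = 0
    rw [map_add, hI.orth (hι _ hε) hx.1 h2, hI.orth (hι _ hε) hx.2 h3, add_zero]
  · obtain ⟨a, ha, b, hb, rfl⟩ := eig_dec (hs he hε) x
    obtain ⟨a1, h2, a2, h3, h5, h6, rfl⟩ := eig_dec' (hs hz hε) hB ha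
    exact ⟨a1, ⟨h5, h2⟩, a2 + b, add_mem (Submodule.mem_sup_right h3) (Submodule.mem_sup_left hb),
      add_assoc _ _ _⟩
  · obtain ⟨y₁, h2, y₂, h3, rfl⟩ := Submodule.mem_sup.1 hw
    obtain ⟨a1, h4, a2, h5, h7, h8, rfl⟩ := eig_dec' (hs hz hε) hB h2
    obtain ⟨b1, h9, b2, h10, h11, h12, rfl⟩ := eig_dec' (hs he hε) hB' h3
    exact ((A hz he (add_comm z e ▸ hze) hB' hε hε d4 d1.2 d1.1 h4 h7).add d3 (a3 _ h8 h5)).add d3
      ((A he hz hze hB hε hε d4 d1.1 d1.2 h9 h11).add d3 (a3 _ h10 h12))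

variable (P) in
include P in
theorem four_le_finrank [FiniteDimensional F V] (h4 : 4 ≤ finrank (ZMod 2) E) :
    4 ≤ finrank F V := by
  have := P.finrank_sq
  exact (Nat.pow_le_pow_iff_left two_ne_zero).1
    (this ▸ (Nat.pow_le_pow_right two_pos h4 : 2 ^ 4 ≤ _))

theorem resG_le_ZS (hX : X ≤ ZS (PQ.ofHerm hσ c hc B hS).Isom) : P.resG X e ε ≤ ZS (PQ.ofHerm hσ c hc
    (B.domRestrict₁₂ (P.eig e ε) (P.eig e ε)) fun x y => hS x y).Isom := by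
  rintro g ⟨k, h1, -, h2⟩
  obtain ⟨t, ht, h3⟩ := hX h1
  refine ⟨t, ht, in_isom_herm.2 ⟨isUnit_smul (ce_unit g) ht, fun x y => ?_⟩⟩
  simpa [ce_apply, h2, LinearMap.domRestrict₁₂_apply] using (in_isom_herm.1 h3).2 x y

end Pauli

theorem p6_EG [Fintype F] [FiniteDimensional F V] {q : ℕ} [IsSq F q] (hq : q.Prime) (h4 : q % 4 = 3)
    {c : F} {hc : c + cj q c = 1} {B : V →ₛₗ[cj q] V →ₗ[F] F} {hS : ∀ x y, cj q (B x y) = B y x}
    (hB : B.SeparatingLeft) (hn : finrank F V = 4) :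
    P6 (EG (PQ.ofHerm cj_cj c hc B hS) ⧸ Subgroup.center (EG (PQ.ofHerm cj_cj c hc B hS))) := by
  rw [EG_herm cj_ne_id hB hn.ge]
  obtain ⟨b, hb⟩ : ∃ b : Basis (Fin 4) F V, ∀ i j, B (b i) (b j) = if i = j then 1 else 0 := by
    have := exists_orthonormal_basis_herm cj_ne_id cj_cj B hS hB
    rwa [hn] at this
  have h1 : ∀ x y, B x y = Cfsg.hermForm 4 F q (b.equivFun y) (b.equivFun x) := fun x y => by
    conv_lhs => rw [← b.sum_equivFun x, ← b.sum_equivFun y]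
    generalize b.equivFun x = s, b.equivFun y = t
    simp [LinearMap.map_smulₛₗ, hb, Cfsg.hermForm, cj_apply]
  let e : Matrix.SpecialLinearGroup (Fin 4) F ≃* SLV F V := Matrix.SpecialLinearGroup.toLin_equiv b
  have h2 : ∀ A x, b.equivFun ((e A).1 x) = A.1.mulVec (b.equivFun x) := fun A x =>
    Matrix.repr_toLin b b A.1 x
  refine (p6_PSU (K := F) hq h4).congr (cq ((e.subgroupMap _).trans ((MulEquiv.subgroupCongr ?_).trans
    (Subgroup.subgroupOfEquivOfLe inf_le_right))))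
  ext g
  obtain ⟨A, rfl⟩ := e.surjective g
  rw [Subgroup.inf_subgroupOf_right, Subgroup.mem_subgroupOf, Pauli.mem_isom_herm]
  refine (Subgroup.mem_map_iff_mem e.injective).trans ⟨fun h x y => ?_, fun h u v => ?_⟩
  · rw [h1, h1, h2, h2]; exact h _ _
  · have := h (b.equivFun.symm v) (b.equivFun.symm u)
    rwa [h1, h1, h2, h2, LinearEquiv.apply_symm_apply, LinearEquiv.apply_symm_apply] at this

theorem cj_of_sq [Fintype F] {q : ℕ} [IsSq F q] (h4 : q % 4 = 3) (t : F) (ht : t * t = -1) :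
    cj q t * t = 1 := by
  rw [cj_apply, ← pow_succ, show q + 1 = 2 * (2 * (q / 4 + 1)) by omega, pow_mul, pow_mul, pow_two t,
    ht]
  simp

universe u v w

/-- The unitary case. -/
theorem uni_main {F : Type u} [Field F] [Fintype F] {q : ℕ} [IsSq F q] (hq : q.Prime)
    (h4 : q % 4 = 3) {c : F} (hc : c + cj q c = 1) (k : ℕ) : ∀ {V : Type v} {E : Type w}
    [AddCommGroup V] [Module F V] [FiniteDimensional F V] [AddCommGroup E] [Module (ZMod 2) E]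
    [Finite E] (P : Pauli F V E) (B : V →ₛₗ[cj q] V →ₗ[F] F) (hS : ∀ x y, cj q (B x y) = B y x)
    (X : Subgroup (V ≃ₗ[F] V)), finrank (ZMod 2) E = 2 * k + 4 → (∀ x, x ≠ 0 → P.q x = 1) →
    B.SeparatingLeft → P.Iso B → ZLe X → X ≤ ZS (PQ.ofHerm cj_cj c hc B hS).Isom →
    P.N ⊓ EG (PQ.ofHerm cj_cj c hc B hS) ≤ X → X ≤ P.N ∨ EG (PQ.ofHerm cj_cj c hc B hS) ≤ X := by
  have key : ∀ {V : Type v} {E : Type w} [AddCommGroup V] [Module F V] [FiniteDimensional F V]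
      [AddCommGroup E] [Module (ZMod 2) E] [Finite E] (P : Pauli F V E) (B : V →ₛₗ[cj q] V →ₗ[F] F)
      (hS : ∀ x y, cj q (B x y) = B y x), 4 ≤ finrank (ZMod 2) E → (∀ x, x ≠ 0 → P.q x = 1) →
      B.SeparatingLeft → P.Iso B → (∀ x, In (EG (PQ.ofHerm cj_cj c hc B hS)) (P.l x)) ∧
        ∀ a b, P.q a = 1 → P.q b = 1 → In (EG (PQ.ofHerm cj_cj c hc B hS))
          ((2 : F)⁻¹ • ((1 + P.l a) * (1 + P.l b))) := by
    intro V E _ _ _ _ _ _ P B hS hE hL hB hI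
    rw [EG_herm cj_ne_id hB (P.four_le_finrank hE)]
    exact ⟨fun x => (Pauli.in_isom_herm.2 ⟨P.l_unit x, hI x⟩).inf (P.l_SLV hL hE x),
      fun a b ha hb => (Pauli.in_isom_herm.2 ⟨(P.pair_SLV hL hE ha hb).unit, hI.pair ha hb⟩).inf
        (P.pair_SLV hL hE ha hb)⟩
  induction k with
  | zero =>
    intro V E _ _ _ _ _ _ P B hS X hE hL hB hI hZ hX' hX
    obtain ⟨h1, h2⟩ := key P B hS hE.ge hL hB hI
    exact Pauli.base4 hL hE (p6_EG hq h4 hB (P.finrank_four hE)) h1 h2 hX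
      fun g hg => Pauli.nz_EG (hX' hg)
  | succ k ih =>
    intro V E _ _ _ _ _ _ P B hS X hE hL hB hI hZ hX' hX
    obtain ⟨h1, h2⟩ := key P B hS (by omega) hL hB hI
    have hP : P.Ctx X := ⟨hZ, fun x => (((P.ctx_N hL).l x).inf (h1 x)).mono hX,
      fun a b ha hb => .of_smul hZ (inv_ne_zero P.two) (((((P.ctx_N hL).pair a b ha hb).smul
        Pauli.zle_N (inv_ne_zero P.two)).inf (h2 a b ha hb)).mono hX),
      fun φ x y h => Pauli.hq_of_lin hL h.unit⟩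
    obtain ⟨ι, hι⟩ := FiniteField.isSquare_neg_one_iff.2 (show Fintype.card F % 4 ≠ 3 by
      rw [IsSq.card_eq (F := F) (q := q), Nat.pow_mod, h4]; decide)
    by_cases hN : P.NB X
    · exact Or.inl (hN.le_N hP (by omega) hL hι.symm)
    simp only [Pauli.NB, not_forall] at hN
    obtain ⟨e, f, ε, hef, hε, h3⟩ := hN
    have he := P.ne_zero_of_B hef
    have := Pauli.finrank_hp hef
    have hε' : ε * ε = -1 := by rw [hε, hL e he, sg_one]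
    exact Or.inr ((Pauli.ub_of_le ((ih (P.res hef hε) _ _ _ (by omega) (Pauli.res_lin hL)
      (hI.sep hB hε (cj_of_sq h4 _ hε')) (fun x u v => hI x u v) (Pauli.zle_resG hZ)
      (Pauli.resG_le_ZS hX') (inf_le_left.trans ((hP.N_le_resG (by omega) hL).trans
        fun g ⟨k, h2, h3⟩ => ⟨k, h2.1, h3⟩))).resolve_left h3)).EG_le cj_ne_id (cj_of_sq h4) hB hP
      hX' hI (by omega) hL he hε')

end H97c
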