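import Mathlib
import Cfsg.Agent.Base
import Cfsg.Agent.Lib.Cliff.Uni
import Cfsg.Agent.S1774

/-!
The Pauli system of an absolutely irreducible `2`-group of symplectic type.
-/

set_option autoImplicit false
set_option linter.unusedSectionVars false
set_option linter.unusedVariables false

namespace H97c

open Module H97 H28 H97o H11.U Cfsg

universe u

section Raw

variable {F V : Type*} [Field F] [AddCommGroup V] [Module F V] {T : Type u} [Group T]
  {ρ : T →* (V ≃ₗ[F] V)}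

/-- An absolutely irreducible group whose elements have squares `± 1`. -/
structure RD (ρ : T →* (V ≃ₗ[F] V)) : Prop where
  two : (2 : F) ≠ 0
  nt : Nontrivial V
  inj : Function.Injective ρ
  sq : ∀ g, ∃ s, ce (ρ g) * ce (ρ g) = sg F s • 1
  cent : ∀ φ : End F V, (∀ g, φ * ce (ρ g) = ce (ρ g) * φ) → ∃ c : F, φ = c • 1

theorem RD.mem_center (h : RD ρ) {g : T} : g ∈ Subgroup.center T ↔ ∃ c : F, ce (ρ g) = c • 1 :=
  ⟨fun hg => h.cent _ fun k => by rw [← map_mul, ← map_mul, ← map_mul, ← map_mul,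
    Subgroup.mem_center_iff.1 hg k], fun ⟨c, e⟩ => Subgroup.mem_center_iff.2 fun k =>
      h.inj (ce_inj (by simp [e]))⟩

theorem RD.comm (h : RD ρ) (g k : T) :
    ∃ s, ce (ρ g) * ce (ρ k) = sg F s • (ce (ρ k) * ce (ρ g)) := by
  obtain ⟨s, hs⟩ := h.sq g
  obtain ⟨t, ht⟩ := h.sq k
  obtain ⟨r, hr⟩ := h.sq (g * k)
  rw [map_mul, map_mul] at hr
  have := congrArg (fun x => ce (ρ g) * x * ce (ρ k)) hr
  simp only [mul_assoc, ht, mul_smul_comm, mul_one, smul_mul_assoc] at this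
  rw [← mul_assoc, hs, smul_mul_assoc, one_mul, smul_smul] at this
  exact ⟨r + (t + s), by rw [sg_add, sg_add, mul_smul, this, smul_smul, sg_mul_self, one_smul]⟩

/-- The Pauli system belongs to the group. -/
structure PR {E : Type*} [AddCommGroup E] [Module (ZMod 2) E] (P : Pauli F V E)
    (ρ : T →* (V ≃ₗ[F] V)) (π : T →* Multiplicative E) : Prop where
  l : ∀ x, ∃ g, π g = .ofAdd x ∧ ce (ρ g) = P.l x
  ker : π.ker = Subgroup.center T

theorem RD.exists_raw [Finite T] (h : RD ρ) : ∃ (E : Type u) (_ : AddCommGroup E)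
    (_ : Module (ZMod 2) E) (_ : Finite E) (B : LinearMap.BilinForm (ZMod 2) E)
    (π : T →* Multiplicative E), Function.Surjective π ∧ π.ker = Subgroup.center T ∧
    ∀ g k, ce (ρ g) * ce (ρ k) = sg F (B (π g).toAdd (π k).toAdd) • (ce (ρ k) * ce (ρ g)) := by
  have := h.nt
  let : CommGroup (T ⧸ Subgroup.center T) :=
    { (inferInstance : Group (T ⧸ Subgroup.center T)) with
      mul_comm := fun a b => by
        obtain ⟨a, rfl⟩ := QuotientGroup.mk_surjective a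
        obtain ⟨b, rfl⟩ := QuotientGroup.mk_surjective b
        obtain ⟨s, hs⟩ := h.comm b a
        rw [← QuotientGroup.mk_mul, ← QuotientGroup.mk_mul, QuotientGroup.eq, h.mem_center]
        exact ⟨sg F s, by simp [hs, mul_assoc]⟩ }
  let : Module (ZMod 2) (Additive (T ⧸ Subgroup.center T)) := AddCommGroup.zmodModule fun x => by
    obtain ⟨a, ha⟩ := QuotientGroup.mk_surjective x.toMul
    refine Additive.toMul.injective ?_
    rw [toMul_nsmul, ← ha, toMul_zero, ← QuotientGroup.mk_pow, QuotientGroup.eq_one_iff, h.mem_center,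
      pow_two, map_mul, map_mul]
    exact (h.sq a).elim fun s hs => ⟨_, hs⟩
  choose b hb using h.comm
  have u : ∀ g k {s t}, sg F s • (ce (ρ g) * ce (ρ k)) = sg F t • (ce (ρ g) * ce (ρ k)) → s = t :=
    fun g k s t e => sg_inj h.two (smul_left_injective F ((ce_unit _).mul (ce_unit _)).ne_zero e)
  have b1 : ∀ g g' k, b (g * g') k = b g k + b g' k := fun g g' k => u k (g * g') (by
    rw [← hb, map_mul, map_mul, mul_assoc, hb g', mul_smul_comm, ← mul_assoc, hb g, sg_add,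
      smul_mul_assoc, smul_smul, mul_comm, mul_assoc])
  have b2 : ∀ g k k', b g (k * k') = b g k + b g k' := fun g k k' => u (k * k') g (by
    rw [← hb, map_mul, map_mul, ← mul_assoc, hb g, smul_mul_assoc, mul_assoc, hb g k', sg_add,
      mul_smul_comm, smul_smul, mul_assoc])
  have b3 : ∀ g k : T, ∀ g' k' : T, (g : T ⧸ Subgroup.center T) = g' →
      (k : T ⧸ Subgroup.center T) = k' → b g k = b g' k' := fun g k g' k' e1 e2 => by
    obtain ⟨c, hc⟩ := h.mem_center.1 (QuotientGroup.eq.1 e1)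
    obtain ⟨d, hd⟩ := h.mem_center.1 (QuotientGroup.eq.1 e2)
    have e3 : b (g⁻¹ * g') k = 0 := u k _ (by rw [← hb, hc]; simp)
    have e4 : b g' (k⁻¹ * k') = 0 := u _ g' (by rw [← hb, hd]; simp)
    have e5 := b1 g (g⁻¹ * g') k
    have e6 := b2 g' k (k⁻¹ * k')
    rw [mul_inv_cancel_left] at e5 e6
    rw [e6, e5, e3, e4, add_zero, add_zero]
  refine ⟨Additive (T ⧸ Subgroup.center T), inferInstance, inferInstance, inferInstance,
    (AddMonoidHom.mk' (fun x => (AddMonoidHom.mk' (fun y => b x.toMul.out y.toMul.out)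
      fun y y' => by rw [← b2]; exact b3 _ _ _ _ rfl (by simp)).toZModLinearMap 2)
      fun x x' => LinearMap.ext fun y => (b3 _ _ _ _ (by simp) rfl).trans (b1 _ _ _)).toZModLinearMap 2,
    (MulEquiv.multiplicativeAdditive _).symm.toMonoidHom.comp (QuotientGroup.mk' _),
    QuotientGroup.mk'_surjective _, ?_, fun g k => ?_⟩
  · ext g
    exact QuotientGroup.eq_one_iff g
  · rw [hb]
    congr 2
    exact b3 _ _ _ _ (QuotientGroup.out_eq' _).symm (QuotientGroup.out_eq' _).symm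

variable {E : Type*} [AddCommGroup E] [Module (ZMod 2) E]

/-- The Pauli system of a section. -/
def RD.pauli (h : RD ρ) {B : LinearMap.BilinForm (ZMod 2) E} {π : T →* Multiplicative E}
    (h1 : π.ker = Subgroup.center T)
    (h2 : ∀ g k, ce (ρ g) * ce (ρ k) = sg F (B (π g).toAdd (π k).toAdd) • (ce (ρ k) * ce (ρ g)))
    (t : E → T) (ht : ∀ x, π (t x) = .ofAdd x) (q : E → ZMod 2)
    (hq : ∀ x, ce (ρ (t x)) * ce (ρ (t x)) = sg F (q x) • 1) (q0 : q 0 = 0)
    (qa : ∀ x y, q x = 0 → q (x + y) = q y + B x y)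
    (qb : ∀ x y, B x y = 1 → q x = 1 → q y = 1 → q (x + y) = 1) : Pauli F V E where
  B := B
  l x := ce (ρ (t x))
  q := q
  alt x := by
    have := h2 (t x) (t x)
    have := h.nt
    rw [ht] at *
    exact sg_inj h.two (smul_left_injective F ((ce_unit _).mul (ce_unit _)).ne_zero
      (‹_ = _›.symm.trans (by simp)))
  nd x hx := by
    have : t x ∈ π.ker := h1 ▸ h.mem_center.2 (h.cent _ fun g => by simp [h2 (t x) g, ht, hx])
    rwa [MonoidHom.mem_ker, ht] at this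
  sq := hq
  comm x y := by simpa [ht] using h2 (t x) (t y)
  add x y := by
    obtain ⟨c, hc⟩ := h.mem_center.1 (h1 ▸ show t (x + y) * (t x * t y)⁻¹ ∈ π.ker by
      simp [MonoidHom.mem_ker, ht])
    have := h.nt
    refine ⟨c, fun e => (ce_unit _).ne_zero (hc.trans (by rw [e, zero_smul])), ?_⟩
    simpa [mul_assoc] using congrArg (· * (ce (ρ (t x)) * ce (ρ (t y)))) hc
  cent φ hφ := h.cent φ fun g => by
    obtain ⟨c, hc⟩ := h.mem_center.1 (h1 ▸ show g * (t (π g).toAdd)⁻¹ ∈ π.ker by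
      simp [MonoidHom.mem_ker, ht])
    have : ce (ρ g) = c • ce (ρ (t (π g).toAdd)) := by
      simpa [mul_assoc] using congrArg (· * ce (ρ (t (π g).toAdd))) hc
    rw [this, mul_smul_comm, hφ, smul_mul_assoc]
  two := h.two
  nt := h.nt
  q0 := q0
  qa := qa
  qb := qb

theorem RD.exists_lin [Finite T] (h : RD ρ) {z : T} {ι : F} (hι : ι * ι = -1)
    (hz : ce (ρ z) = ι • 1) : ∃ (E : Type u) (_ : AddCommGroup E) (_ : Module (ZMod 2) E)
    (_ : Finite E) (P : Pauli F V E) (π : T →* Multiplicative E), PR P ρ π ∧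
    ∀ x, x ≠ 0 → P.q x = 1 := by
  classical
  obtain ⟨E, _, _, _, B, π, h0, h1, h2⟩ := h.exists_raw
  have hz' : π z = 1 := show z ∈ π.ker from h1 ▸ h.mem_center.2 ⟨_, hz⟩
  have : ∀ x : E, ∃ g, π g = .ofAdd x ∧
      ce (ρ g) * ce (ρ g) = sg F (if x = 0 then 0 else 1) • 1 := fun x => by
    split_ifs with hx
    · exact ⟨1, by simp [hx], by simp⟩
    obtain ⟨g, hg⟩ := h0 (.ofAdd x)
    obtain ⟨s, hs⟩ := h.sq g
    rcases z2 s with rfl | rfl
    · exact ⟨z * g, by simp [hz', hg], by simp [hz, smul_smul, hι, hs]⟩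
    · exact ⟨g, hg, hs⟩
  choose t ht hq using this
  have hB : ∀ x, B x x = 0 := fun x => by
    have := h2 (t x) (t x)
    have := h.nt
    rw [ht] at *
    exact sg_inj h.two (smul_left_injective F ((ce_unit _).mul (ce_unit _)).ne_zero
      (‹_ = _›.symm.trans (by simp)))
  refine ⟨E, _, _, ‹_›, h.pauli h1 h2 t ht _ hq (if_pos rfl) (fun x y hx => ?_) fun x y h3 _ _ =>
    if_neg fun e => ?_, π, ⟨fun x => ⟨t x, ht x, rfl⟩, h1⟩, fun x hx => if_neg hx⟩
  · rw [show x = 0 from by_contra fun e => by simp [e] at hx]; simp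
  · rw [add_eq_zero2.1 e, hB] at h3; exact absurd h3 (by decide)

theorem RD.exists_quad [Finite T] (h : RD ρ) (hZ : ∀ g (c : F), ce (ρ g) = c • 1 → c * c = 1) :
    ∃ (E : Type u) (_ : AddCommGroup E) (_ : Module (ZMod 2) E) (_ : Finite E) (P : Pauli F V E)
    (π : T →* Multiplicative E), PR P ρ π ∧ ∀ x y, P.q (x + y) = P.q x + P.q y + P.B x y := by
  obtain ⟨E, _, _, _, B, π, h0, h1, h2⟩ := h.exists_raw
  choose t ht using fun x : E => h0 (.ofAdd x)
  choose q hq using fun x => h.sq (t x)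
  have := h.nt
  have h3 : ∀ x y, q (x + y) = q x + q y + B x y := fun x y => by
    obtain ⟨c, hc⟩ := h.mem_center.1 (h1 ▸ show t (x + y) * (t x * t y)⁻¹ ∈ π.ker by
      simp [MonoidHom.mem_ker, ht])
    have e1 : ce (ρ (t (x + y))) = c • (ce (ρ (t x)) * ce (ρ (t y))) := by
      simpa [mul_assoc] using congrArg (· * (ce (ρ (t x)) * ce (ρ (t y)))) hc
    have e2 := hq (x + y)
    rw [e1, smul_mul_smul_comm, hZ _ _ hc, one_smul] at e2
    nth_rewrite 1 [h2] at e2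
    rw [smul_mul_assoc, mul_assoc, ← mul_assoc (ce (ρ (t x))), hq, smul_mul_assoc, one_mul,
      mul_smul_comm, hq, ht, ht, smul_smul, smul_smul] at e2
    refine sg_inj h.two ?_
    rw [sg_add, sg_add, ← smul_left_injective F (one_ne_zero (α := End F V)) e2]
    simp only [toAdd_ofAdd]
    ring
  have h4 : q 0 = 0 := by simpa [z2_add_self] using h3 0 0
  exact ⟨E, _, _, ‹_›, h.pauli h1 h2 t ht q hq h4 (fun x y hx => by rw [h3, hx, zero_add])
    fun x y a b c => by rw [h3, a, b, c]; rfl, π, ⟨fun x => ⟨t x, ht x, rfl⟩, h1⟩, h3⟩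

variable {P : Pauli F V E} {π : T →* Multiplicative E}

theorem PR.in_range (h : PR P ρ π) (x : E) : In ρ.range (P.l x) :=
  (h.l x).elim fun g hg => ⟨_, ⟨g, rfl⟩, hg.2⟩

theorem PR.eq (h : PR P ρ π) (h' : RD ρ) (g : T) :
    ∃ c : F, c ≠ 0 ∧ In ρ.range (c • 1) ∧ ce (ρ g) = c • P.l (π g).toAdd := by
  obtain ⟨k, h1, h2⟩ := h.l (π g).toAdd
  obtain ⟨c, hc⟩ := h'.mem_center.1 (h.ker ▸ show g * k⁻¹ ∈ π.ker by simp [MonoidHom.mem_ker, h1])
  have := h'.nt
  exact ⟨c, fun e => (ce_unit _).ne_zero (hc.trans (by rw [e, zero_smul])), ⟨_, ⟨_, rfl⟩, hc⟩, by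
    simpa [mul_assoc, ← h2] using congrArg (· * ce (ρ k)) hc⟩

theorem PR.normalizer_le [Finite E] (h : PR P ρ π) (h' : RD ρ) :
    Subgroup.normalizer (ρ.range : Set (V ≃ₗ[F] V)) ≤ P.N := fun g hg x => by
  obtain ⟨k, -, h1⟩ := h.l x
  obtain ⟨r, hr⟩ := (Subgroup.mem_normalizer_iff.1 hg _).1 ⟨k, rfl⟩
  obtain ⟨c, hc, -, h2⟩ := h.eq h' r
  refine ⟨(π r).toAdd, c, hc, ?_⟩
  rw [← smul_mul_assoc, ← h2, hr, ← h1]
  simp [mul_assoc]

theorem PR.mem_normalizer [Finite E] [Finite T] (h : PR P ρ π) (h' : RD ρ) {g : V ≃ₗ[F] V}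
    (hg : g ∈ P.N)
    (h1 : ∀ x y (c : F), ce g * P.l x = c • (P.l y * ce g) → In ρ.range (c • 1)) :
    g ∈ Subgroup.normalizer (ρ.range : Set (V ≃ₗ[F] V)) := by
  have : Finite (ρ.range : Set (V ≃ₗ[F] V)) := Set.finite_range ρ
  refine Subgroup.mem_normalizer_fintype ?_
  rintro _ ⟨r, rfl⟩
  obtain ⟨c, -, h2, h3⟩ := h.eq h' r
  obtain ⟨y, d, -, h4⟩ := hg (π r).toAdd
  refine in_ce.1 ?_
  rw [map_mul, map_mul, h3, mul_smul_comm, h4]
  simpa [mul_assoc, smul_smul] using (h1 _ _ _ h4).mul (h2.mul (h.in_range y))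

end Raw

section Max

variable {F V E : Type*} [Field F] [AddCommGroup V] [Module F V] [AddCommGroup E]
  [Module (ZMod 2) E] [Finite E] {P : Pauli F V E} {G H : Subgroup (V ≃ₗ[F] V)}

theorem Pauli.isMaximalIn (h0 : H ⊓ G = P.N ⊓ G) (h1 : ¬ G ≤ P.N)
    (h2 : ∀ M, P.N ⊓ G ≤ M → M ≤ G → ZS M ≤ P.N ∨ G ≤ ZS M) : Geo.IsMaximalIn G (H ⊓ G) := by
  rw [h0]
  refine isMaximalIn_of inf_le_right (fun h => h1 (h.trans inf_le_left))
    fun M h3 h4 ⟨g, h5, h6⟩ k hk => ?_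
  obtain ⟨c, hc, h7⟩ := (h2 M h3 h4).resolve_left (fun h => h6 ⟨h (le_ZS h5), h4 h5⟩) hk
  have h8 : In G (c • 1) := (in_ce.2 hk).of_mul_right (by simpa using h7.mono h4)
  exact in_ce.1 ((((Pauli.zle_N c hc).inf h8).mono h3).of_mul_left (by simpa using h7))

theorem Pauli.sq_of_nm {e f : E} {ε : F} {φ : End F V} (hef : P.B e f = 1)
    (hε : ε * ε = sg F (P.q e)) (h : P.Nm φ) (h1 : ∀ v ∈ P.eig e ε, φ v ∈ P.eig e ε)
    (h2 : ∀ v ∈ P.eig e (-ε), φ v = v) {u : V} (hu : u ∈ P.eig e ε) (h0 : u ≠ 0) (h3 : φ u = u) :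
    φ * φ = 1 := by
  obtain ⟨y, c, -, h4⟩ := h f
  obtain ⟨d, -, h5⟩ := P.add' y f
  have h6 : ∀ v ∈ P.eig e ε, (c * sg F (P.q y)) • φ v = d • P.l (y + f) v := fun v hv => by
    have := congrArg (P.l y) (LinearMap.congr_fun h4 v)
    rw [End.mul_apply, h2 _ (Pauli.l_mem' hef hv), LinearMap.smul_apply, End.mul_apply, map_smul,
      Pauli.l_apply, smul_smul, ← End.mul_apply, h5] at this
    exact this.symm
  have h7 : ∀ v ∈ P.eig e ε, (c * sg F (P.q y) * (c * sg F (P.q y))) • φ (φ v) =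
      (d * d * sg F (P.q (y + f))) • v := fun v hv => by
    rw [mul_smul, h6 _ (h1 v hv), smul_comm, ← map_smul, h6 v hv, map_smul, Pauli.l_apply, smul_smul,
      smul_smul]
  have h8 := h7 u hu
  rw [h3, h3] at h8
  have h9 := smul_left_injective F h0 h8
  have h10 : d * d * sg F (P.q (y + f)) ≠ 0 := fun e => by
    have := h6 u hu
    have h11 := Pauli.l_ne_zero (P := P) f h0
    have h12 := LinearMap.congr_fun h5 u
    rw [show d = 0 by simpa [sg_ne_zero] using e, zero_smul] at h12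
    exact Pauli.l_ne_zero y h11 h12
  exact Pauli.ext_eig hε (fun v hv => smul_right_injective V h10 (by
    have := h7 v hv
    rwa [h9] at this)) fun v hv => by rw [End.mul_apply, h2 v hv, h2 v hv, End.one_apply]

theorem Pauli.not_SLV_le [FiniteDimensional F V] (hL : ∀ x, x ≠ 0 → P.q x = 1)
    (h4 : 4 ≤ finrank (ZMod 2) E) {ε : F} (hε : ε * ε = -1) : ¬ SLV F V ≤ P.N := fun h => by
  obtain ⟨e, he, -⟩ := P.exS_list [] (by simp; omega)
  obtain ⟨f, hef⟩ := P.exists_B (P.ne_zero_of_q he)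
  have hε' : ε * ε = sg F (P.q e) := by rw [he, sg_one, hε]
  obtain ⟨z, hz, h1, -⟩ := Pauli.exists_perp_ne h4 hef
  have hz' : ε * ε = sg F (P.q z) := by rw [hL z hz, sg_one, hε]
  obtain ⟨u, u1, u2, u3⟩ := Pauli.exists_eig2 hef hε' h1 hz hz'
  obtain ⟨v, v1, v2, v3⟩ := Pauli.exists_eig2 hef hε' h1 hz (Pauli.eps_neg hz')
  obtain ⟨χ, k0, hχ⟩ := exists_dual_of_notMem_span (x := u) (u := v) (fun h2 => v3
    (Pauli.eq_zero_of_eig hz' ((Submodule.span_singleton_le_iff_mem _ _).2 u2 h2) v2)) (1 : F)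
  obtain ⟨χ₁, χ₂, rfl, k1, k2, -⟩ := Pauli.de_dec hε' χ
  have e0 := Pauli.eps_ne hε'
  rw [LinearMap.add_apply, k2.zero e0 (by assumption), add_zero] at k0 hχ
  obtain ⟨g, hg, h2⟩ := hasT_SLV k0
  have := LinearMap.congr_fun (Pauli.sq_of_nm hef hε' (h hg)
    (fun w hw => by rw [ce_apply, h2]; exact add_mem hw (Submodule.smul_mem _ _ u1))
    (fun w hw => by simp [ce_apply, h2, Pauli.DE.zero (ε := -ε) (by simpa using k1) (by simpa) hw])
    u1 u3 (by simp [ce_apply, h2, k0])) v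
  simp only [End.mul_apply, ce_apply, h2, map_add, map_smul, hχ, k0, End.one_apply] at this
  exact smul_ne_zero P.two u3 (by linear_combination (norm := module) this)

theorem Pauli.not_EG_le [FiniteDimensional F V] {σ : F →+* F} {Q : PQ F V σ}
    (hP : Q.B.SeparatingLeft) {e f : E} {ε : F} (hef : P.B e f = 1) (hε : ε * ε = sg F (P.q e))
    (h1 : ∀ u ∈ P.eig e ε, ∀ v ∈ P.eig e (-ε), Q.B u v = 0) {d w : V} {c : F}
    (hd : d ∈ P.eig e ε) (hw : w ∈ P.eig e ε) (h0 : d ≠ 0) (h2 : Q.q d ∈ Q.Λ) (h3 : Q.B d w = 0)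
    (h4 : c - Q.q w ∈ Q.Λ) (h5 : w ∉ F ∙ d ∨ (w = 0 ∧ c ≠ 0)) : ¬ EG Q ≤ P.N := fun h => by
  obtain ⟨g, hg, h6⟩ := has_eu_EG h2 h3 h4
  have h7 := Q.self_eq_zero h2
  have := Pauli.sq_of_nm hef hε (h hg) (fun v hv => by
      rw [ce_apply, h6, eu_apply]
      exact sub_mem (add_mem hv (Submodule.smul_mem _ _ hd)) (Submodule.smul_mem _ _ hw))
    (fun v hv => by rw [ce_apply, h6, eu_fix _ (h1 _ hd _ hv) (h1 _ hw _ hv)]) hd h0
    (by rw [ce_apply, h6, eu_fix _ h7 (Q.eq_zero_symm h3)])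
  obtain ⟨y, hy⟩ : ∃ y, Q.B d y ≠ 0 := by
    by_contra h8
    exact h0 (hP d fun y => by simpa using not_exists.1 h8 y)
  have h8 := LinearMap.congr_fun this y
  rw [End.mul_apply, ce_apply, ce_apply, h6, h6, eu_comp h7 h3 h3, eu_apply, End.one_apply] at h8
  have h9 := mul_ne_zero P.two (mul_ne_zero Q.ε_ne_zero hy)
  rcases h5 with h5 | ⟨rfl, h5⟩
  · refine h5 ((Submodule.smul_mem_iff _ h9).1 (Submodule.mem_span_singleton.2
      ⟨Q.B (w + w) y - Q.ε * (c + c + Q.B w w) * Q.B d y, ?_⟩))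
    linear_combination (norm := module) h8
  · refine smul_ne_zero (mul_ne_zero h9 h5) h0 ?_
    simp only [add_zero, map_zero, LinearMap.zero_apply] at h8
    linear_combination (norm := module) -h8

theorem Pauli.exists_k [FiniteDimensional F V] (P : Pauli F V E) {n : ℕ} (h : 2 ^ n ≤ finrank F V) :
    ∃ k, finrank (ZMod 2) E = 2 * k + 2 * n := by
  have h1 := P.finrank_sq
  obtain ⟨j, -, hj⟩ := (Nat.dvd_prime_pow Nat.prime_two).1
    (h1 ▸ dvd_pow_self _ two_ne_zero : finrank F V ∣ 2 ^ finrank (ZMod 2) E)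
  rw [hj, ← pow_mul] at h1
  rw [hj, Nat.pow_le_pow_iff_right one_lt_two] at h
  have := Nat.pow_right_injective le_rfl h1
  exact ⟨j - n, by omega⟩

end Max

end H97c
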