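import Mathlib
import Cfsg.Agent.Base
import Cfsg.Agent.Lib.Cliff.Uni

/-!
Pauli systems of quadratic type preserving a form: the centraliser step at a singular vector.
-/

set_option autoImplicit false
set_option linter.unusedSectionVars false
set_option linter.unusedVariables false

namespace H97c

open Module H97 H28 H97o H11.U

variable {F V E : Type*} [Field F] [AddCommGroup V] [Module F V] [AddCommGroup E]
  [Module (ZMod 2) E] [Finite E]

/-- The elements of `X` are similarities with square multiplier. -/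
def Sim (X : Subgroup (V ≃ₗ[F] V)) (β : V →ₗ[F] V →ₗ[F] F) : Prop :=
  ∀ φ, In X φ → ∃ c : F, c ≠ 0 ∧ ∀ u v, β (φ u) (φ v) = c * c * β u v

namespace Pauli

variable {P : Pauli F V E} {X : Subgroup (V ≃ₗ[F] V)} {φ ψ : End F V} {x y z a b e f : E}
  {ε δ : F} {u v : V} {β : V →ₗ[F] V →ₗ[F] F}

/-- `q` is a quadratic form. -/
def Qd (P : Pauli F V E) : Prop := ∀ x y, P.q (x + y) = P.q x + P.q y + P.B x y

/-- A transvection. -/
def tv (P : Pauli F V E) (a x : E) : E := x + P.B a x • a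

variable (P) in
theorem exists_perp_notMem (s t : List E) (h : s.length + t.length < finrank (ZMod 2) E) :
    ∃ w, (∀ u ∈ s, P.B u w = 0) ∧ w ∉ Submodule.span (ZMod 2) {x | x ∈ t} := by
  obtain ⟨w, h1, h2⟩ := SetLike.not_le_iff_exists.1 (show ¬ perp P.pq (Submodule.span (ZMod 2)
    {x | x ∈ s}) ≤ Submodule.span (ZMod 2) {x | x ∈ t} from fun h1 => by
      have := Submodule.finrank_mono h1
      have := finrank_perp P.sep (Submodule.span (ZMod 2) {x | x ∈ s})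
      have := finrank_span_list s
      have := finrank_span_list t
      omega)
  exact ⟨w, P.mem_perp_span.1 h1, h2⟩

theorem Qd.exists_sing (hQ : P.Qd) (h3 : 3 ≤ finrank (ZMod 2) E) :
    ∃ s t, P.q s = 0 ∧ P.q t = 0 ∧ P.B s t = 1 := by
  obtain ⟨a, ha, -⟩ := P.exS_list [] (by simp; omega)
  obtain ⟨w, h1, h2⟩ := P.exists_perp_notMem [a] [a] (by simp; omega)
  simp only [List.mem_singleton, Set.ofPred_eq_eq_singleton, mem_span1, not_or, forall_eq] at h1 h2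
  obtain ⟨s, h4, h5⟩ : ∃ s, P.q s = 0 ∧ s ≠ 0 := by
    rcases z2 (P.q w) with h | h
    · exact ⟨w, h, h2.1⟩
    · exact ⟨a + w, by rw [hQ, ha, h, h1]; rfl, fun e => h2.2 (add_eq_zero2.1 e).symm⟩
  obtain ⟨t, ht⟩ := P.exists_B h5
  rcases z2 (P.q t) with h | h
  · exact ⟨s, t, h4, h, ht⟩
  · exact ⟨s, s + t, h4, by rw [hQ, h4, h, ht]; rfl, by simp [P.alt, ht]⟩

theorem Qd.exists_fix (hQ : P.Qd) (hM : 6 ≤ finrank (ZMod 2) E ∨ (4 ≤ finrank (ZMod 2) E ∧
    ∀ x y, P.q x = 0 → P.q y = 0 → x ≠ 0 → y ≠ 0 → x ≠ y → P.B x y = 1)) (θ : E ≃ₗ[ZMod 2] E)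
    (hB : ∀ x y, P.B (θ x) (θ y) = P.B x y) (hq : ∀ x, P.q (θ x) = P.q x)
    (H : ∀ a b x, P.q a = 1 → P.q b = 1 → P.q x = 1 →
      P.tv a (P.tv b x) = P.tv (θ a) (P.tv (θ b) x) →
      ∀ y, P.tv a (P.tv b y) = P.tv (θ a) (P.tv (θ b) y)) : ∃ a, P.q a = 1 ∧ θ a = a := by
  rcases hM with h6 | ⟨h4, hW⟩
  · obtain ⟨a, ha, -⟩ := P.exS_list [] (by simp; omega)
    obtain ⟨x, hx, h1⟩ := P.exS_list [a, θ a] (by simp; omega)
    obtain ⟨x, rfl⟩ := θ.surjective x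
    obtain ⟨w, h2, h3⟩ := P.exists_perp_notMem [a, x, θ x] [a, θ a] (by simp; omega)
    rw [show {x | x ∈ [a, θ a]} = {a, θ a} by ext; simp] at h3
    simp only [List.mem_cons, List.not_mem_nil, or_false, forall_eq_or_imp, forall_eq, hB] at h1 h2
    obtain ⟨b, hb, h4, h5, h7, h8⟩ : ∃ b, P.q b = 1 ∧ P.B a b = 0 ∧ P.B b x = 0 ∧ P.B b (θ x) = 0 ∧
        b ∉ Submodule.span (ZMod 2) {a, θ a} := by
      rcases z2 (P.q w) with h | h
      · exact ⟨a + w, by rw [hQ, ha, h, h2.1]; rfl, by simp [P.alt, h2], by simp [h1, P.symm w, h2],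
          by simp [h1, P.symm w, h2],
          by rwa [Submodule.add_mem_iff_right _ (Submodule.subset_span (by simp))]⟩
      · exact ⟨w, h, h2.1, by simp [P.symm w, h2], by simp [P.symm w, h2], h3⟩
    simp only [mem_span2, not_or] at h8
    obtain ⟨y, y1, y2, y3⟩ := P.exists_B2 h8.1 h8.2.1 h8.2.2.1 h8.2.2.2
    have := H a b _ ha hb hx (by simp [tv, h1, h5, h7, hB]) y
    simp only [tv, y1, y2, y3, one_smul, map_add, map_smul, h4, hB, smul_zero, add_zero, zero_smul,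
      add_right_inj] at this
    rcases z2 (P.B (θ b) y) with h | h <;> rw [h] at this
    · exact absurd (by simpa using this) h8.1
    · exact ⟨b, hb, by simpa using this.symm⟩
  by_contra hne
  push Not at hne
  obtain ⟨s, h1, h0, h2⟩ : ∃ s, P.q s = 0 ∧ s ≠ 0 ∧ s ≠ θ s := by
    obtain ⟨s, t, h1, h2, h3⟩ := hQ.exists_sing (by omega)
    by_contra h
    push Not at h
    exact hne (s + t) (by rw [hQ, h1, h2, h3]; rfl) (by
      rw [map_add, ← h s h1 (P.ne_zero_of_B h3), ← h t h2 (P.ne_zero_of_B (P.symm s t ▸ h3))])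
  have n2 := θ.map_ne_zero_iff.2 h0
  have n3 := θ.map_ne_zero_iff.2 n2
  have n4 := θ.map_ne_zero_iff.2 n3
  have q2 := (hq s).trans h1
  have q3 := (hq _).trans q2
  have q4 := (hq _).trans q3
  have b12 := hW _ _ h1 q2 h0 n2 h2
  have h3 : s ≠ θ (θ s) := fun e => hne (s + θ s) (by rw [hQ, h1, q2, b12]; rfl) (by
    rw [map_add, ← e, add_comm])
  have b13 := hW _ _ h1 q3 h0 n3 h3
  have b23 := (hB _ _).trans b12
  have b14 := hW _ _ h1 q4 h0 n4 fun e => hne (s + θ s + θ (θ s))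
    (by rw [hQ, hQ, h1, q2, q3, b12, map_add, LinearMap.add_apply, b13, b23]; rfl) (by
      rw [map_add, map_add, ← e]; abel)
  have b24 := (hB _ _).trans b13
  have b34 := (hB _ _).trans b23
  have := H (s + θ s) (θ s + θ (θ s)) (s + θ (θ s) + θ (θ (θ s))) (by rw [hQ, h1, q2, b12]; rfl)
    (by rw [hQ, q2, q3, b23]; rfl)
    (by rw [hQ, hQ, h1, q3, q4, b13, map_add, LinearMap.add_apply, b14, b34]; rfl)
  rw [map_add θ, map_add θ] at this
  refine h3 (θ.injective ?_)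
  generalize θ (θ (θ s)) = s₄ at *
  generalize θ (θ s) = s₃ at *
  generalize θ s = s₂ at *
  simp only [tv, map_add, map_smul, LinearMap.add_apply, P.alt, b12, b13, b14, b23, b24, b34,
    P.symm s₂ s, P.symm s₃ s, P.symm s₄ s, P.symm s₄ s₃] at this
  have := this (by match_scalars <;> decide) s₄
  simp only [P.alt, b14, b24, b34] at this
  refine add_eq_zero2.1 ?_
  rw [← add_eq_zero2.2 this]
  match_scalars <;> decide

theorem Qd.nm_of (hQ : P.Qd) (h3 : 3 ≤ finrank (ZMod 2) E)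
    (h : ∀ a, P.q a = 1 → ∃ y, P.Mp φ a y) : P.Nm φ := fun x => by
  rcases z2 (P.q x) with h1 | h1
  · obtain ⟨w, h2, h4⟩ := P.exS_list [x] (by simp; omega)
    obtain ⟨y, hy⟩ := h w h2
    obtain ⟨z, hz⟩ := h (x + w) (by rw [hQ, h1, h2, h4 x (by simp)]; rfl)
    exact ⟨_, by simpa [add_add_cancel2] using hz.add hy⟩
  · exact h x h1

theorem sq_of_sim (hI : P.Iso β) (hβ : β.SeparatingLeft) {c μ : F} (hμ : μ ≠ 0)
    (h1 : ∀ u v, β (φ u) (φ v) = μ * β u v) (h : φ * P.l x = c • (P.l y * φ)) : c * c = 1 := by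
  have := P.nt
  obtain ⟨u, hu⟩ := exists_ne (0 : V)
  obtain ⟨v, hv⟩ := not_forall.1 (mt (hβ u) hu)
  have h2 := h1 (P.l x u) (P.l x v)
  rw [← End.mul_apply, ← End.mul_apply, h, hI] at h2
  simp only [LinearMap.smul_apply, End.mul_apply, map_smul, hI y, h1, smul_eq_mul] at h2
  exact mul_right_cancel₀ (mul_ne_zero hμ hv) (by linear_combination h2)

theorem Mp.sq' (hφ : IsUnit φ) {c : F} (h : φ * P.l x = c • (P.l y * φ)) :
    sg F (P.q x) = c * c * sg F (P.q y) := by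
  have h1 : φ * (P.l x * P.l x) = (c * c) • (P.l y * (P.l y * φ)) := by
    rw [← mul_assoc, h, smul_mul_assoc, mul_assoc, h, mul_smul_comm, smul_smul]
  rw [P.sq, P.l_l, mul_smul_comm, mul_one, smul_smul] at h1
  exact P.smul_inj hφ h1

theorem hq_of_sim (hI : P.Iso β) (hβ : β.SeparatingLeft) (hS : Sim X β) (hφ : In X φ)
    (h : P.Mp φ x y) : P.q y = P.q x := by
  obtain ⟨c, -, h⟩ := h
  obtain ⟨d, hd, h1⟩ := hS φ hφ
  exact sg_inj P.two (by rw [Mp.sq' hφ.unit h, sq_of_sim hI hβ (mul_ne_zero hd hd) h1 h, one_mul])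

theorem mp_conj_pair (h1 : φ * ψ = 1) (h2 : ψ * φ = 1) {γ : E ≃ₗ[ZMod 2] E}
    (hγ : ∀ x, P.Mp φ x (γ x)) (ha : P.q a = 1) (hb : P.q b = 1) (x : E) :
    P.Mp (φ * ((1 + P.l a) * (1 + P.l b)) * ψ) x (P.tv (γ a) (P.tv (γ b) x)) := by
  obtain ⟨x, rfl⟩ := γ.surjective x
  have hB := fun x y => (hγ x).B ⟨⟨φ, ψ, h1, h2⟩, rfl⟩ (hγ y)
  simpa [tv, hB] using ((hγ _).mul ((mp_tau ha _).mul (mp_tau hb x))).mul ((hγ x).inv h1 h2)

variable {hef : P.B e f = 1} {hε : ε * ε = sg F (P.q e)}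

theorem sim_resG (h : Sim X β) :
    Sim (P.resG X e ε) (β.domRestrict₁₂ (P.eig e ε) (P.eig e ε)) := fun χ hχ => by
  obtain ⟨φ, h1, -, h2⟩ := in_resG.1 hχ
  exact (h φ h1).imp fun c hc => ⟨hc.1, fun u v => by
    simpa [LinearMap.domRestrict₁₂_apply, h2] using hc.2 u v⟩

theorem Nm.both (h : P.Nm φ) (hφ : IsUnit φ) (h0 : φ * P.l e = P.l e * φ) (x : P.hp e f) :
    ∃ y, ∀ δ (hδ : δ * δ = sg F (P.q e)), (P.res hef hδ).Mp (rs h0 δ) x y := by
  obtain ⟨y, hy⟩ := h x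
  have h1 : P.B e y = 0 := ((mp_of_comm h0).B hφ hy).trans (mem_hp.1 x.2).1
  refine ⟨⟨_, hp_dec hef y⟩, fun δ hδ => (mp_rs h0).2 ?_⟩
  obtain ⟨c, hc, h2⟩ := hy
  rcases z2 (P.B f y) with h3 | h3 <;> simp only [h1, h3, zero_smul, one_smul, add_zero]
  · exact ⟨c, hc, fun v _ => LinearMap.congr_fun h2 v⟩
  · obtain ⟨d, hd, h4⟩ := P.add (y + e) e
    rw [add_add_cancel2] at h4
    refine ⟨c * (d * δ), by simp [hc, hd, eps_ne hδ], fun v hv => ?_⟩
    rw [← End.mul_apply, h2, h4]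
    simp [mem_eig.1 (mem_eig_of_comm h0 hv), smul_smul, mul_assoc]

theorem exists_mp_of_both (hφ : IsUnit φ) (h0 : φ * P.l e = P.l e * φ) {x y : P.hp e f}
    (h1 : (P.res hef hε).Mp (rs h0 ε) x y) (h2 : (P.res hef (eps_neg hε)).Mp (rs h0 (-ε)) x y) :
    ∃ z, P.Mp φ x z := by
  obtain ⟨c, hc, h1⟩ := h1
  obtain ⟨d, hd, h2⟩ := h2
  have h3 := fun v hv => congrArg Subtype.val (LinearMap.congr_fun h1 ⟨v, hv⟩)
  have h4 := fun v hv => congrArg Subtype.val (LinearMap.congr_fun h2 ⟨v, hv⟩)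
  rcases mul_self_eq_mul_self_iff.1 (mul_right_cancel₀ (sg_ne_zero _)
    ((Mp.sq' (rs_unit hφ h0) h1).symm.trans (Mp.sq' (rs_unit hφ h0) h2 :))) with rfl | rfl
  · exact ⟨y, c, hc, ext_eig hε h3 h4⟩
  · obtain ⟨s, hs, h5⟩ := P.add' y e
    have := eps_ne hε
    refine ⟨y + e, -d * ε⁻¹ * s, by simp [*], ?_⟩
    rw [mul_smul, ← smul_mul_assoc, ← h5]
    exact ext_eig hε (fun v hv => (h3 v hv).trans (by
      simp [mem_eig.1 (mem_eig_of_comm h0 hv), smul_smul, this])) fun v hv => (h4 v hv).trans (by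
      simp [mem_eig.1 (mem_eig_of_comm h0 hv), smul_smul, this])

/-- The dimension hypothesis in quadratic type. -/
def HM (P : Pauli F V E) : Prop := 8 ≤ finrank (ZMod 2) E ∨ (6 ≤ finrank (ZMod 2) E ∧
  ∀ e x y, P.q e = 0 → P.q x = 0 → P.q y = 0 → P.B e x = 0 → P.B e y = 0 → P.B x y = 0 →
    e ≠ 0 → x ∉ Submodule.span (ZMod 2) {e} → y ∈ Submodule.span (ZMod 2) {e, x})

theorem HM.six (h : P.HM) : 6 ≤ finrank (ZMod 2) E := h.elim (fun _ => by omega) And.left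

/-- The standing hypotheses in quadratic type. -/
structure OS (P : Pauli F V E) (X : Subgroup (V ≃ₗ[F] V)) (β : V →ₗ[F] V →ₗ[F] F) : Prop where
  ctx : P.Ctx X
  Q : P.Qd
  M : P.HM
  iso : P.Iso β
  sep : β.SeparatingLeft
  sim : Sim X β

theorem OS.nm_of_both (h : P.OS X β) (hC : ∀ z, P.q z = 1 → P.Cen X z) (he : P.q e = 0)
    (hφ : In X φ) (h0 : φ * P.l e = P.l e * φ) (h1 : (P.res hef hε).Nm (rs h0 ε))
    (h2 : (P.res hef (eps_neg hε)).Nm (rs h0 (-ε))) : P.Nm φ := by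
  have key : ∀ ψ (hψ : In X ψ) (h3 : ψ * P.l e = P.l e * ψ) (x y : P.hp e f), P.q x = 1 →
      (P.res hef hε).Mp (rs h3 ε) x y → (P.res hef (eps_neg hε)).Mp (rs h3 (-ε)) x y → P.Nm ψ :=
    fun ψ hψ h3 x y hx h4 h5 => (exists_mp_of_both hψ.unit h3 h4 h5).elim fun z =>
      h.ctx.ti (Or.inl h.M.six) (hC _ hx) (P.ne_zero_of_q hx) hψ
  have hq : ∀ δ (hδ : δ * δ = sg F (P.q e)) x y, (P.res hef hδ).Mp (rs h0 δ) x y →
      P.q y = P.q x := fun δ hδ x y => hq_of_sim (P := P.res hef hδ) (fun x u v => h.iso x u v)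
    (h.iso.sep h.sep hδ (by simpa [he] using hδ)) (sim_resG h.sim) (in_rs hφ h0)
  obtain ⟨γ₁, a1⟩ := h1.act (rs_unit hφ.unit h0)
  obtain ⟨γ₂, a2⟩ := h2.act (rs_unit hφ.unit h0)
  have b1 := fun x y => (a1 x).B (rs_unit hφ.unit h0) (a1 y)
  have b2 := fun x y => (a2 x).B (rs_unit hφ.unit h0) (a2 y)
  have hd := finrank_hp hef
  obtain ⟨a, ha, h3⟩ := Qd.exists_fix (P := P.res hef hε) (fun x y => h.Q x y)
    (h.M.imp (fun _ => by omega) fun h3 => ⟨by omega, fun x y hx hy x0 y0 hxy => z2_ne_zero.1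
      fun h4 => by
        have a := mem_hp.1 x.2
        have b := mem_hp.1 y.2
        have c := P.symm e f ▸ hef
        rcases mem_span2.1 (h3.2 e x y he hx hy a.1 b.1 h4 (P.ne_zero_of_B hef) (by
          rw [mem_span1, not_or]
          exact ⟨fun e => x0 (Subtype.ext e), fun e => by simp [e, c] at a⟩)) with h | h | h | h
        exacts [y0 (Subtype.ext h), by simp [h, c] at b, hxy (Subtype.ext h.symm),
          by simp [h, c, a] at b]⟩) (γ₁.symm.trans γ₂)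
    (fun x y => (b2 _ _).trans (by simpa [res_B] using (b1 (γ₁.symm x) (γ₁.symm y)).symm))
    (fun x => (hq _ _ _ _ (a2 _)).trans (by simpa [res_q] using (hq _ _ _ _ (a1 (γ₁.symm x))).symm))
    fun a b x ha hb hx h3 y => by
      obtain ⟨a, rfl⟩ := γ₁.surjective a
      obtain ⟨b, rfl⟩ := γ₁.surjective b
      replace ha := (hq _ _ _ _ (a1 a)).symm.trans ha
      replace hb := (hq _ _ _ _ (a1 b)).symm.trans hb
      obtain ⟨g, hg, rfl⟩ := hφ
      have h4 := comm_mul (comm_mul h0 (comm_mul (tau_comm (mem_hp.1 a.2).1)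
        (tau_comm (mem_hp.1 b.2).1))) (comm_inv h0)
      have h5 := ((in_ce.2 hg).mul (h.ctx.pair a b ha hb)).mul (in_ce.2 (X.inv_mem hg))
      have h6 : ∀ δ (hδ : δ * δ = sg F (P.q e)) (γ : P.hp e f ≃ₗ[ZMod 2] P.hp e f),
          (∀ x, (P.res hef hδ).Mp (rs h0 δ) x (γ x)) → ∀ x, (P.res hef hδ).Mp (rs h4 δ) x
            ((P.res hef hε).tv (γ a) ((P.res hef hε).tv (γ b) x)) := fun δ hδ γ hγ =>
        mp_conj_pair (P := P.res hef hδ) (φ := rs h0 δ) (ψ := rs (comm_inv h0) δ)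
          (LinearMap.ext fun v => Subtype.ext (le_apply_inv g v.1))
          (LinearMap.ext fun v => Subtype.ext (le_inv_apply_apply g v.1)) hγ ha hb
      simp only [LinearEquiv.trans_apply, LinearEquiv.symm_apply_apply] at h3 ⊢
      obtain ⟨z, hz⟩ := (key _ h5 h4 x _ hx (h6 _ _ _ a1 x) (h3 ▸ h6 _ _ _ a2 x)).both
        (hef := hef) h5.unit h4 y
      exact ((h6 _ _ _ a1 y).uniq (rs_unit h5.unit h4) (hz _ _)).trans
        ((hz _ _).uniq (rs_unit h5.unit h4) (h6 _ _ _ a2 y))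
  obtain ⟨a, rfl⟩ := γ₁.surjective a
  exact key φ hφ h0 a _ ((hq _ _ _ _ (a1 a)).symm.trans ha) (a1 a)
    ((show γ₂ a = γ₁ a by simpa using h3) ▸ a2 a)

/-- The centraliser step at a singular vector. -/
theorem OS.cen (h : P.OS X β) (hC : ∀ z, P.q z = 1 → P.Cen X z) (he : P.q e = 0) (h0 : e ≠ 0) :
    P.Cen X e := by
  refine h.ctx.cen_of h0 fun φ hφ h1 => ?_
  obtain ⟨f, hef, hf⟩ : ∃ f, P.B e f = 1 ∧ P.q f = 1 := by
    obtain ⟨f, hef⟩ := P.exists_B h0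
    rcases z2 (P.q f) with hf | hf
    · exact ⟨e + f, by simp [P.alt, hef], by rw [h.Q, he, hf, hef]; rfl⟩
    · exact ⟨f, hef, hf⟩
  have key : ∀ ε (hε : ε * ε = sg F (P.q e)), (P.res hef hε).Nm (rs h1 ε) := fun ε hε => by
    refine Qd.nm_of (fun x y => h.Q x y) (by have := finrank_hp hef; have := h.M.six; omega)
      fun a ha => ?_
    have ha' := mem_hp.1 a.2
    obtain ⟨ρ, r1, -, r2, r3, r4⟩ := h.ctx.ctrl (eps_neg hε) ha
      (by rw [h.Q, he, P.symm, ha'.1]; simpa [res_q] using ha) ha'.1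
    rw [neg_neg] at r4
    obtain ⟨g, hg, rfl⟩ := hφ
    have s1 := (nz_of_mem hg _ r1).1
    have s2 := comm_mul (comm_mul h1 r2) (comm_inv h1)
    have s3 : ∀ v ∈ P.eig e (-ε), (ce g * ρ * ce g⁻¹) v = v := fun v hv => by
      rw [End.mul_apply, End.mul_apply, r3 _ (mem_eig_of_comm (comm_inv h1) hv)]
      exact le_apply_inv g v
    have s4 : ∀ v ∈ P.eig e ε, (ce g * ρ * ce g⁻¹) (ce g v) = ce g (P.l a v) := fun v hv => by
      rw [End.mul_apply, End.mul_apply, ← End.mul_apply (ce g⁻¹), ce_inv_mul, End.one_apply, r4 v hv]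
    generalize ce g * ρ * ce g⁻¹ = s at s1 s2 s3 s4
    have s5 : rs s2 (-ε) = 1 := LinearMap.ext fun v => Subtype.ext (s3 v v.2)
    have m1 : ∀ v ∈ P.eig e (-ε), P.l f v ∈ P.eig e ε := fun v hv => by simpa using l_mem' hef hv
    have t1 := s1.mul (((h.ctx.l f).mul s1).mul (h.ctx.l f))
    have t2 : s * (P.l f * s * P.l f) * P.l e = P.l e * (s * (P.l f * s * P.l f)) :=
      comm_mul s2 (by
        rw [mul_assoc, ← neg_eq_iff_eq_neg.2 (l_anti hef), mul_neg, mul_assoc, ← mul_assoc s, s2,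
          ← mul_assoc (P.l e), ← mul_assoc (P.l e), l_anti hef]
        simp [mul_assoc])
    have t3 : ∀ v ∈ P.eig e ε, (s * (P.l f * s * P.l f)) v = -s v := fun v hv => by
      simp [s3 _ (l_mem' hef hv), l_apply, hf]
    have t4 : ∀ v ∈ P.eig e (-ε), (s * (P.l f * s * P.l f)) v = P.l f (s (P.l f v)) := fun v hv =>
      s3 _ (l_mem' hef (mem_eig_of_comm s2 (m1 v hv)))
    have t5 := hC f hf _ t1 (mp_of_comm (ext_eig hε (fun v hv => by
      rw [End.mul_apply, t4 _ (l_mem' hef hv), End.mul_apply, t3 v hv, l_apply, hf]; simp)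
      fun v hv => by
        rw [End.mul_apply, t3 _ (m1 v hv), End.mul_apply, t4 v hv, l_apply, hf]; simp))
    have t6 := h.nm_of_both (hef := hef) (hε := hε) hC he s1 s2 (fun x => by
      obtain ⟨y, hy⟩ := t5.both (hef := hef) t1.unit t2 x
      refine ⟨y, ?_⟩
      convert (hy ε hε).smul (-1) using 1
      exact LinearMap.ext fun v => Subtype.ext (by simp [-End.mul_apply, t3 v v.2]))
      (s5 ▸ nm_one)
    obtain ⟨y, c, hc, t7⟩ := centE (P := P.res hef hε) (rs_unit s1.unit s2) fun x => by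
      obtain ⟨y, hy⟩ := t6.both (hef := hef) s1.unit s2 x
      exact (s5 ▸ hy _ (eps_neg hε)).uniq isUnit_one (mp_one x) ▸ hy ε hε
    exact ⟨y, (mp_rs h1).2 ⟨c, hc, fun v hv => (s4 v hv).symm.trans
      (congrArg Subtype.val (LinearMap.congr_fun t7 ⟨_, mem_eig_of_comm h1 hv⟩))⟩⟩
  exact h.nm_of_both (ε := 1) (hε := by simp [he]) hC he hφ h1 (key _ _) (key _ _)

end Pauli

end H97c
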