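import Mathlib
import Cfsg.Agent.Base
import Cfsg.Agent.Lib.Cliff.Sing

/-!
Pauli systems of quadratic type preserving a form: the centraliser of a non-singular vector is a
linear or unitary group.
-/

set_option autoImplicit false
set_option linter.unusedSectionVars false
set_option linter.unusedVariables false

namespace H97c

open Module H97 H28 H97o H11.U

variable {F V E : Type*} [Field F] [AddCommGroup V] [Module F V] [AddCommGroup E]
  [Module (ZMod 2) E] [Finite E]

namespace Pauli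

variable {P : Pauli F V E} {X Y : Subgroup (V ≃ₗ[F] V)} {φ ψ : End F V} {x y z a b e f : E}
  {ι δ : F} {u v : V} {β : V →ₗ[F] V →ₗ[F] F}

open Classical in
variable (P) in
/-- The factor rescaling a Pauli system to linear type. -/
noncomputable def sc (ι : F) (x : E) : F := if x ≠ 0 ∧ P.q x = 0 then ι else 1

theorem sc_ne (hι : ι * ι = -1) (x : E) : P.sc ι x ≠ 0 := by
  unfold sc
  split_ifs
  · rintro rfl; simp at hι
  · exact one_ne_zero

open Classical in
variable (P) in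
/-- The system rescaled to linear type. -/
noncomputable def lin (hι : ι * ι = -1) : Pauli F V E where
  B := P.B
  l x := P.sc ι x • P.l x
  q x := if x = 0 then 0 else 1
  alt := P.alt
  nd := P.nd
  sq x := by
    rw [smul_mul_smul_comm, P.sq, smul_smul, sc]
    by_cases hx : x = 0
    · simp [hx, P.q0]
    · rcases z2 (P.q x) with h | h <;> simp [hx, h, hι]
  comm x y := by rw [smul_mul_smul_comm, smul_mul_smul_comm, P.comm, smul_comm, mul_comm (P.sc ι x)]
  add x y := (P.add x y).elim fun c h => ⟨P.sc ι (x + y) * c * (P.sc ι x * P.sc ι y)⁻¹,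
    by simp [sc_ne hι, h.1], by
      rw [smul_mul_smul_comm, h.2, smul_smul, smul_smul,
        inv_mul_cancel_right₀ (by simp [sc_ne hι])]⟩
  cent φ h := P.cent φ fun x => smul_right_injective _ (sc_ne hι x) (by simpa using h x)
  two := P.two
  nt := P.nt
  q0 := if_pos rfl
  qa x y hx := by rw [show x = 0 from by_contra fun e => by simp [e] at hx]; simp
  qb x y h _ _ := if_neg fun e => by
    rw [add_eq_zero2.1 e, P.alt] at h; exact absurd h (by decide)

theorem lin_lin (hι : ι * ι = -1) (x : E) (hx : x ≠ 0) : (P.lin hι).q x = 1 := if_neg hx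

theorem lin_N (hι : ι * ι = -1) : (P.lin hι).N = P.N := by
  have := sc_ne (P := P) hι
  refine Subgroup.ext fun g => forall_congr' fun x => exists_congr fun y =>
    ⟨fun ⟨c, hc, h⟩ => ⟨(P.sc ι x)⁻¹ * (c * P.sc ι y), by simp [*], ?_⟩,
      fun ⟨c, hc, h⟩ => ⟨P.sc ι x * c * (P.sc ι y)⁻¹, by simp [*], ?_⟩⟩
  · simp only [lin, mul_smul_comm, smul_mul_assoc, smul_smul] at h
    rw [mul_smul, ← h, smul_smul, inv_mul_cancel₀ (this x), one_smul]
  · simp only [lin, mul_smul_comm, smul_mul_assoc, smul_smul, h, inv_mul_cancel_right₀ (this y)]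

theorem N_le' (hι : ι * ι = -1) (hZ : ZLe Y) (hl : ∀ x, In Y (P.l x))
    (h1 : ∀ a, P.q a = 1 → In Y (1 + P.l a)) (h2 : ∀ a, P.q a = 0 → In Y (1 + ι • P.l a)) :
    P.N ≤ Y := lin_N (P := P) hι ▸ N_le (lin_lin hι) hZ (fun x => (hl x).smul hZ (sc_ne hι x)) fun a ha => by
  rcases z2 (P.q a) with h | h
  · simpa [lin, sc, h, ha] using h2 a h
  · simpa [lin, sc, h] using h1 a h

theorem lin_main' [Fintype F] [FiniteDimensional F V] (hF : (Fintype.card F).Prime)
    (hι : ι * ι = -1) {k : ℕ} (hk : finrank (ZMod 2) E = 2 * k + 4) (hZ : ZLe X) (hX : P.N ≤ X) :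
    X ≤ P.N ∨ SLV F V ≤ X := by
  have h1 := FiniteField.isSquare_neg_one_iff.1 ⟨ι, hι.symm⟩
  have h2 := FiniteField.odd_card_of_char_ne_two (F := F) fun h =>
    P.two (by simpa [h] using ringChar.Nat.cast_ringChar (R := F))
  exact lin_N (P := P) hι ▸ lin_main hF (by omega) k (P.lin hι) X hk (lin_lin hι) hZ
    (inf_le_left.trans (lin_N (P := P) hι ▸ hX))

theorem uni_main' [Fintype F] [FiniteDimensional F V] {q : ℕ} [IsSq F q] (hq : q.Prime)
    (h4 : q % 4 = 3) {c : F} (hc : c + cj q c = 1) (hι : ι * ι = -1) {k : ℕ}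
    {B : V →ₛₗ[cj q] V →ₗ[F] F} (hS : ∀ x y, cj q (B x y) = B y x)
    (hk : finrank (ZMod 2) E = 2 * k + 4) (hB : B.SeparatingLeft) (hI : P.Iso B) (hZ : ZLe X)
    (hX' : X ≤ ZS (PQ.ofHerm cj_cj c hc B hS).Isom) (hX : P.N ≤ X) :
    X ≤ P.N ∨ EG (PQ.ofHerm cj_cj c hc B hS) ≤ X :=
  lin_N (P := P) hι ▸ uni_main hq h4 hc k (P.lin hι) B hS X hk (lin_lin hι) hB (fun x u v => by
    have : P.sc ι x * cj q (P.sc ι x) = 1 := by
      unfold sc
      split_ifs
      · rw [mul_comm, cj_of_sq h4 ι hι]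
      · simp
    simp [lin, LinearMap.map_smulₛₗ, hI x, ← mul_assoc, this]) hZ hX'
    (inf_le_left.trans (lin_N (P := P) hι ▸ hX))

theorem tt_J (hz : P.q z = 1) (ha : P.q a = 0) (hB : P.B z a = 0) : P.TT (P.l z * P.l a) := by
  obtain ⟨c, -, e⟩ := P.add' z a
  refine tt_of (by rw [add_comm, P.qa a z ha, hz, P.symm, hB, add_zero]) e ?_
  rw [mul_assoc, ← mul_assoc (P.l a), ← l_comm hB, mul_assoc, l_sq_of_zero ha, mul_one,
    l_sq_of_one hz]

theorem eq_of_comm_hp (hzf : P.B z f = 1) (hz : P.q z = 1) (h1 : φ * P.l z = P.l z * φ)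
    (h2 : ∀ x ∈ P.hp z f, φ * P.l x = P.l x * φ) : ∃ s t : F, φ = s • 1 + t • P.l z := by
  have a1 := l_anti hzf
  have a2 : P.l f * φ * P.l f * P.l z = P.l z * (P.l f * φ * P.l f) := by
    rw [mul_assoc, ← neg_eq_iff_eq_neg.2 a1, mul_neg, mul_assoc, ← mul_assoc φ, h1,
      ← mul_assoc (P.l z), ← mul_assoc (P.l z), a1]
    simp [mul_assoc]
  have a3 : ∀ x ∈ P.hp z f, P.l f * φ * P.l f * P.l x = P.l x * (P.l f * φ * P.l f) := fun x hx =>
    comm_mul (comm_mul (l_comm (mem_hp.1 hx).2) (h2 x hx)) (l_comm (mem_hp.1 hx).2)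
  have a4 : P.l f * φ * P.l f * P.l f = sg F (P.q f) • (P.l f * φ) := by
    rw [mul_assoc, P.sq, mul_smul_comm, mul_one]
  have a5 : P.l f * (P.l f * φ * P.l f) = sg F (P.q f) • (φ * P.l f) := by rw [mul_assoc, P.l_l]
  generalize P.l f * φ * P.l f = χ at a2 a3 a4 a5
  obtain ⟨s, hs⟩ := P.cent (φ + sg F (P.q f) • χ) (comm_of_gen hzf (by simp [add_mul, mul_add, *])
    (by simp [add_mul, mul_add, a4, a5, smul_smul, add_comm])
    fun x hx => by simp [add_mul, mul_add, a3 x hx, h2 x hx])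
  obtain ⟨t, ht⟩ := P.cent (P.l z * (φ - sg F (P.q f) • χ))
    (comm_of_gen hzf (comm_mul rfl (by simp [sub_mul, mul_sub, *]))
      (by
        rw [← mul_assoc, ← neg_eq_iff_eq_neg.2 a1, mul_assoc, neg_mul, mul_assoc, ← mul_neg]
        simp [sub_mul, mul_sub, a4, a5, smul_smul])
      fun x hx => comm_mul (l_comm (mem_hp.1 hx).1) (by simp [sub_mul, mul_sub, a3 x hx, h2 x hx]))
  have := congrArg (P.l z * ·) ht
  simp only [P.l_l, hz, sg_one, mul_smul_comm, mul_one] at this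
  have h := P.two
  refine ⟨2⁻¹ * s, -(2⁻¹ * t), ?_⟩
  rw [neg_smul, mul_smul, mul_smul, ← this, ← hs]
  match_scalars <;> field_simp <;> ring

/-- The nilpotent part of a transvection over `F[J]`. -/
def Nj (β : V →ₗ[F] V →ₗ[F] F) (J : End F V) (u : V) : End F V :=
  (β u).smulRight (J u) - (β (J u)).smulRight u

theorem Nj_apply (J : End F V) (u v : V) : Nj β J u v = β u v • J u - β (J u) v • u := rfl

/-- The hypotheses for the centraliser of a non-singular vector. -/
structure RC (P : Pauli F V E) (X : Subgroup (V ≃ₗ[F] V)) (β : V →ₗ[F] V →ₗ[F] F) (z : E) :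
    Prop where
  ctx : P.Ctx X
  hz : P.q z = 1
  symm : ∀ u v, β u v = β v u
  sep : β.SeparatingLeft
  iso : ∀ x, P.B z x = 0 → ∀ u v, β (P.l x u) (P.l x v) = β u v
  sim : ∀ φ, In X φ → φ * P.l z = P.l z * φ →
    ∃ c : F, c ≠ 0 ∧ ∀ u v, β (φ u) (φ v) = c * c * β u v

/-- The centraliser normalises the Pauli group modulo `F[J]`. -/
def RedA (P : Pauli F V E) (X : Subgroup (V ≃ₗ[F] V)) (z : E) : Prop :=
  ∀ φ, In X φ → φ * P.l z = P.l z * φ → ∃ s t : F, ∃ χ, In (X ⊓ P.N) χ ∧ χ * P.l z = P.l z * χ ∧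
    φ = (s • 1 + t • P.l z) * χ

/-- The centraliser contains the transvections modulo `F[J]`. -/
def RedB (P : Pauli F V E) (X : Subgroup (V ≃ₗ[F] V)) (β : V →ₗ[F] V →ₗ[F] F) (z : E) : Prop :=
  ∀ u (r : F), β u u = 0 → ∃ s t : F, In X ((s • 1 + t • P.l z) * (1 + r • Nj β (P.l z) u))

namespace RC

theorem skew (h : P.RC X β z) (u v : V) : β (P.l z u) v = -β u (P.l z v) := by
  rw [← h.iso z (P.alt z), l_apply, h.hz]; simp

theorem self (h : P.RC X β z) (u : V) : β u (P.l z u) = 0 :=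
  (mul_eq_zero.1 (by linear_combination h.skew u u - h.symm (P.l z u) u :
    2 * β u (P.l z u) = 0)).resolve_left P.two

theorem Nj_comm (h : P.RC X β z) (u : V) : Nj β (P.l z) u * P.l z = P.l z * Nj β (P.l z) u :=
  LinearMap.ext fun v => by simp [Nj_apply, h.skew, l_apply, h.hz, add_comm, sub_eq_add_neg]

theorem Nj_sq (h : P.RC X β z) (hu : β u u = 0) : Nj β (P.l z) u * Nj β (P.l z) u = 0 :=
  LinearMap.ext fun v => by simp [Nj_apply, h.skew, l_apply, h.hz, h.self, hu]

theorem Nj_iso (h : P.RC X β z) (hu : β u u = 0) (r : F) (v w : V) :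
    β ((1 + r • Nj β (P.l z) u) v) ((1 + r • Nj β (P.l z) u) w) = β v w := by
  simp [Nj_apply, h.skew, l_apply, h.hz, h.self, hu, h.symm v]; ring

theorem orth (h : P.RC X β z) (hι : ι * ι = -1) (hu : u ∈ P.eig z ι) (hv : v ∈ P.eig z ι) :
    β u v = 0 := by
  have := h.iso z (P.alt z) u v
  simp only [mem_eig.1 hu, mem_eig.1 hv, map_smul, LinearMap.smul_apply, smul_eq_mul] at this
  exact (mul_eq_zero.1 (by linear_combination β u v * hι - this : 2 * β u v = 0)).resolve_left P.two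

theorem eq_of_eig (h : P.RC X β z) (hι : ι * ι = -1) (hψ : IsUnit ψ) (h1 : φ * P.l z = P.l z * φ)
    (h2 : ψ * P.l z = P.l z * ψ) (h3 : ∀ v ∈ P.eig z ι, φ v = ψ v) {μ : F}
    (h4 : ∀ u v, β (φ u) (φ v) = μ * β (ψ u) (ψ v)) : ∃ s t : F, φ = (s • 1 + t • P.l z) * ψ := by
  have hε : ι * ι = sg F (P.q z) := by rw [h.hz, sg_one, hι]
  obtain ⟨g, rfl⟩ := exists_ce hψ
  have := P.two
  refine ⟨2⁻¹ * (1 + μ), 2⁻¹ * ι * (μ - 1), ext_eig hε (fun v hv => ?_) fun v hv => ?_⟩
  · simp only [End.mul_apply, LinearMap.add_apply, LinearMap.smul_apply, End.one_apply, h3 v hv,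
      mem_eig.1 (mem_eig_of_comm h2 hv)]
    match_scalars; field_simp; linear_combination (1 - μ) * hι
  · have h5 := mem_eig_of_comm h2 hv
    have h6 : φ v = μ • ce g v := sub_eq_zero.1 (h.sep _ fun w => by
      obtain ⟨a, ha, b, hb, rfl⟩ := eig_dec hε w
      have h7 := h4 v (ce g⁻¹ a)
      rw [h3 _ (mem_eig_of_comm (comm_inv h2) ha), ← End.mul_apply (ce g), ce_mul_inv] at h7
      rw [map_add, h.orth (by rw [neg_mul_neg, hι])
        (sub_mem (mem_eig_of_comm h1 hv) (Submodule.smul_mem _ _ h5)) hb]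
      simpa [sub_eq_zero] using h7)
    simp only [End.mul_apply, LinearMap.add_apply, LinearMap.smul_apply, End.one_apply, h6,
      mem_eig.1 h5]
    match_scalars; field_simp; linear_combination (μ - 1) * hι

theorem split [Fintype F] [FiniteDimensional F V] (h : P.RC X β z) (hF : (Fintype.card F).Prime)
    (hι : ι * ι = -1) {k : ℕ} (hk : finrank (ZMod 2) E = 2 * k + 6) :
    P.RedA X z ∨ P.RedB X β z := by
  have hε : ι * ι = sg F (P.q z) := by rw [h.hz, sg_one, hι]
  obtain ⟨f, hzf⟩ := P.exists_B (P.ne_zero_of_q h.hz)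
  have h0 : 1 + ι ≠ 0 := fun e => P.two (by linear_combination hι + (1 - ι) * e)
  have hc := h.ctx.inf_N
  have key : ∀ χ : End F (P.eig z ι), ∀ t, P.TT t → t * P.l z = P.l z * t →
      (∀ v : P.eig z ι, t v = χ v) → In (P.resG (X ⊓ P.N) z ι) (1 + χ) := fun χ t h1 h2 h3 =>
    .of_smul (zle_resG hc.Z) h0 (in_resG.2 ⟨_, hc.pair' h1 (tt_l h.hz),
      comm_mul (by simp [add_mul, mul_add, h2]) (tau_comm (P.alt z)), fun v => by
        simp [mem_eig.1 v.2, h3 v, add_smul]⟩)
  have h1 : (P.res hzf hε).N ≤ P.resG (X ⊓ P.N) z ι := N_le' hι (zle_resG hc.Z) (l_resG hc.l)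
    (fun a ha => key _ _ (tt_l ha) (l_comm (mem_hp.1 a.2).1).symm fun _ => rfl)
    fun a ha => key _ _ (tt_J h.hz ha (mem_hp.1 a.2).1)
      (comm_mul rfl (l_comm (mem_hp.1 a.2).1).symm) fun v => mem_eig.1 (l_mem (mem_hp.1 a.2).1 v.2)
  refine (lin_main' hF hι (k := k) (by have := finrank_hp hzf; omega) (zle_resG h.ctx.Z)
    (h1.trans fun g ⟨k, h2, h3⟩ => ⟨k, h2.1, h3⟩)).imp (fun h2 φ h3 h4 => ?_) fun h2 u r hu => ?_
  · obtain ⟨χ, h5, h6, h7⟩ := in_resG.1 ((in_rs h3 h4).mono (h2.trans h1))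
    obtain ⟨c, -, h8⟩ := h.sim φ h3 h4
    obtain ⟨d, hd, h9⟩ := h.sim χ (h5.mono inf_le_left) h6
    obtain ⟨s, t, h10⟩ := h.eq_of_eig hι h5.unit h4 h6 (fun v hv => (h7 ⟨v, hv⟩).symm)
      (μ := c * c * (d * d)⁻¹) fun u v => by rw [h8, h9]; field_simp
    exact ⟨s, t, χ, h5, h6, h10⟩
  · obtain ⟨a, ha, b, hb, rfl⟩ := eig_dec hε u
    have h3 : β b a = 0 := (mul_eq_zero.1 (show 2 * β b a = 0 by
      simpa [h.orth hι ha ha, h.orth (by rw [neg_mul_neg, hι]) hb hb, h.symm a b, two_mul]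
        using hu)).resolve_left P.two
    obtain ⟨φ, h4, h5, h6⟩ := lb_of_le h2 a ha ((2 * r * ι) • β b) (by simp [h3])
    obtain ⟨c, -, h7⟩ := h.sim φ h4 h5
    obtain ⟨s, t, h8⟩ := h.eq_of_eig (ψ := 1 + r • Nj β (P.l z) (a + b)) hι
      (IsNilpotent.isUnit_one_add ⟨2, by rw [pow_two, smul_mul_smul_comm, h.Nj_sq hu, smul_zero]⟩) h5
      (by simp [add_mul, mul_add, h.Nj_comm]) (fun v hv => by
        simp only [h6 v hv, Nj_apply, mem_eig.1 ha, mem_eig.1 hb, h.orth hι ha hv, map_add, map_smul,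
          LinearMap.add_apply, LinearMap.smul_apply, End.one_apply, smul_eq_mul]
        module) (μ := c * c) fun u v => by rw [h7, h.Nj_iso hu]
    exact ⟨s, t, h8 ▸ h4⟩

end RC

end Pauli

section NS

variable {K : Type*} [Field K] [Algebra F K] [Module K V] [IsScalarTower F K V] {ω : K}
  {J φ : End F V} {X : Subgroup (V ≃ₗ[F] V)}

variable (F K V) in
/-- Restriction of scalars. -/
def dn : (V ≃ₗ[K] V) →* (V ≃ₗ[F] V) := MonoidHom.mk' (fun g => g.restrictScalars F) fun _ _ => rfl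

theorem in_comap {χ : End K V} : In (X.comap (dn F V K)) χ ↔ In X (χ.restrictScalars F) :=
  ⟨fun ⟨g, h, e⟩ => ⟨_, h, e ▸ rfl⟩, fun ⟨g, h, e⟩ => by
    have h1 : ∀ v, g v = χ v := LinearMap.congr_fun e
    have h2 : Function.Bijective χ := funext h1 ▸ g.bijective
    exact ⟨.ofBijective χ h2, Subgroup.mem_comap.2
      ((LinearEquiv.ext h1 : g = dn F V K (.ofBijective χ h2)) ▸ h), rfl⟩⟩

/-- `K = F[ω]` and `ω` acts as `J`. -/
structure KS (ω : K) (J : End F V) : Prop where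
  sq : ω * ω = -1
  gen : ∀ κ : K, ∃ s t : F, κ = algebraMap F K s + algebraMap F K t * ω
  act : ∀ v, ω • v = J v

theorem KS.smul (h : KS ω J) (s t : F) (v : V) :
    (algebraMap F K s + algebraMap F K t * ω) • v = (s • 1 + t • J : End F V) v := by
  simp [add_smul, mul_smul, h.act]

/-- An endomorphism commuting with `J` is linear over `K`. -/
def KS.up (h : KS ω J) (φ : End F V) (h1 : φ * J = J * φ) : End K V where
  toFun := φ
  map_add' := φ.map_add
  map_smul' κ v := by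
    obtain ⟨s, t, rfl⟩ := h.gen κ
    simpa [h.smul] using congrArg (t • ·) (LinearMap.congr_fun h1 v)

theorem KS.comm (h : KS ω J) (χ : End K V) : χ.restrictScalars F * J = J * χ.restrictScalars F :=
  LinearMap.ext fun v => by simp [← h.act]

namespace Pauli

variable {P : Pauli F V E} {z f : E} {β : V →ₗ[F] V →ₗ[F] F}

theorem sg_smul (a : ZMod 2) (v : V) : sg K a • v = sg F a • v := by
  rcases z2 a with rfl | rfl <;> simp

variable (P) in
/-- The system over the bigger field. -/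
def ext (h : KS ω (P.l z)) (hzf : P.B z f = 1) (hz : P.q z = 1) : Pauli K V (P.hp z f) where
  B := P.B.restrict _
  l x := h.up (P.l x) (l_comm (mem_hp.1 x.2).1).symm
  q x := P.q x
  alt x := P.alt x
  nd x h := Subtype.ext (P.nd _ fun y => by
    have := h ⟨_, hp_dec hzf y⟩
    simpa [P.symm x.1 z, P.symm x.1 f, mem_hp.1 x.2] using this)
  sq x := LinearMap.ext fun v => (l_apply x.1 v).trans (sg_smul _ _).symm
  comm x y := LinearMap.ext fun v => (comm_apply x.1 y.1 v).trans (sg_smul _ _).symm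
  add x y := (P.add x y).elim fun c h => ⟨algebraMap F K c, by simp [h.1],
    LinearMap.ext fun v => (LinearMap.congr_fun h.2 v).trans (algebraMap_smul K c _).symm⟩
  cent φ h1 := by
    obtain ⟨s, t, h2⟩ := eq_of_comm_hp hzf hz (h.comm φ) fun x hx =>
      LinearMap.ext fun v => (LinearMap.congr_fun (h1 ⟨x, hx⟩) v :)
    exact ⟨_, LinearMap.ext fun v => (LinearMap.congr_fun h2 v).trans (h.smul s t v).symm⟩
  two := by simpa [map_ofNat] using (map_ne_zero (algebraMap F K)).2 P.two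
  nt := P.nt
  q0 := P.q0
  qa x y := P.qa x y
  qb x y := P.qb x y

theorem RC.nonsplit [Fintype K] [FiniteDimensional F V] (h : P.RC X β z) (hK : KS ω (P.l z))
    {p : ℕ} [IsSq K p] (hp : p.Prime) (h4 : p % 4 = 3)
    (hσ : ∀ a, cj p (algebraMap F K a) = algebraMap F K a) {k : ℕ}
    (hk : finrank (ZMod 2) E = 2 * k + 6) : P.RedA X z ∨ P.RedB X β z := by
  have := Module.Finite.of_restrictScalars_finite F K V
  obtain ⟨f, hzf⟩ := P.exists_B (P.ne_zero_of_q h.hz)
  have h2 := (P.ext hK hzf h.hz).two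
  have hι := hK.sq
  have hω : cj p ω = -ω := by linear_combination (-ω) * cj_of_sq h4 ω hι + cj p ω * hι
  let B : V →ₛₗ[cj p] V →ₗ[K] K := LinearMap.mk₂'ₛₗ _ _
    (fun u v => algebraMap F K (β u v) - ω * algebraMap F K (β u (P.l z v)))
    (fun _ _ _ => by simp; ring) (fun κ u v => by
      obtain ⟨s, t, rfl⟩ := hK.gen κ
      simp [hK.smul, hσ, hω, h.skew, l_apply, h.hz]
      linear_combination (-algebraMap F K t * algebraMap F K (β u (P.l z v))) * hι)
    (fun _ _ _ => by simp; ring) fun κ u v => by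
      obtain ⟨s, t, rfl⟩ := hK.gen κ
      simp [hK.smul, l_apply, h.hz]
      linear_combination (algebraMap F K t * algebraMap F K (β u (P.l z v))) * hι
  have hB : ∀ u v, B u v = algebraMap F K (β u v) - ω * algebraMap F K (β u (P.l z v)) :=
    fun _ _ => rfl
  have hS : ∀ u v, cj p (B u v) = B v u := fun u v => by
    simp [hB, hσ, hω, h.symm v, h.skew]
  have hB1 : B.SeparatingLeft := fun u hu => h.sep u fun v => by
    have := congrArg (fun t => t + cj p t) (hu v)
    simpa [hB, hσ, hω, ← two_mul, h2] using this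
  have hc : (2 : K)⁻¹ + cj p 2⁻¹ = 1 := by rw [map_inv₀, map_ofNat]; field_simp; ring
  have h0 : 1 + ω ≠ 0 := fun e => h2 (by linear_combination hι + (1 - ω) * e)
  have hx := h.ctx.inf_N
  have key : ∀ χ : End K V, P.TT (χ.restrictScalars F) →
      In (ZS ((X ⊓ P.N).comap (dn F V K))) (1 + χ) := fun χ h1 => in_ZS.2 ⟨_, h0, in_comap.2 (by
    convert hx.pair' (tt_l h.hz) h1 using 1
    exact LinearMap.ext fun v => by simp [add_smul, hK.act, add_add_add_comm])⟩
  have h1 : (P.ext hK hzf h.hz).N ≤ ZS ((X ⊓ P.N).comap (dn F V K)) := N_le' hι zle_ZS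
    (fun x => (in_comap.2 (by exact hx.l x)).mono le_ZS) (fun a ha => key _ (tt_l ha)) fun a ha => key _ (by
      convert tt_J h.hz ha (mem_hp.1 a.2).1 using 1
      exact LinearMap.ext fun v => hK.act _)
  refine (uni_main' (X := ZS (X.comap (dn F V K))) hp h4 hc hι hS (k := k)
    (by have := finrank_hp hzf; omega) hB1 (fun x u v => ?_) zle_ZS (ZS_le zle_ZS fun g hg => ?_)
    (h1.trans (ZS_le zle_ZS ((Subgroup.comap_mono inf_le_left).trans le_ZS)))).imp
    (fun h3 φ h5 h6 => ?_) fun h3 u r hu => ?_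
  · have h3 := (mem_hp.1 x.2).1
    change B (P.l x u) (P.l x v) = _
    rw [hB, hB, comm_apply z x, h3, sg_zero, one_smul, h.iso _ h3, h.iso _ h3]
  · obtain ⟨c, hc, h3⟩ := h.sim _ (in_comap.1 (in_ce.2 hg)) (hK.comm _)
    refine ⟨(algebraMap F K c)⁻¹, by simpa, in_isom_herm.2
      ⟨isUnit_smul (ce_unit g) (by simpa), fun u v => ?_⟩⟩
    have h5 := h3 u (P.l z v)
    rw [← End.mul_apply, hK.comm] at h5
    have h6 : B (ce g u) (ce g v) = algebraMap F K c * algebraMap F K c * B u v := by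
      rw [hB, hB]
      erw [h3, h5]
      simp; ring
    have := (map_ne_zero (algebraMap F K)).2 hc
    simp only [LinearMap.smul_apply, map_smul, LinearMap.map_smulₛₗ, map_inv₀, hσ, h6, smul_eq_mul]
    field_simp
  · obtain ⟨κ, h7, h8⟩ := in_ZS.1 (((in_comap (χ := hK.up φ h6)).2 h5).mono
      (le_ZS.trans (h3.trans h1)))
    obtain ⟨s, t, h9⟩ := hK.gen κ⁻¹
    exact ⟨s, t, _, in_comap.1 h8, hK.comm _, LinearMap.ext fun v => by
      rw [End.mul_apply, ← hK.smul, ← h9]; exact (inv_smul_smul₀ h7 _).symm⟩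
  · obtain ⟨g, hg, h5⟩ := has_eu_EG (P := PQ.ofHerm cj_cj _ hc B hS) (d := u) (w := 0)
      (c := -(algebraMap F K r * ω)) (by
        change _ * B u u ∈ _
        simp [hB, hu, h.self]) (by simp) (q_herm.2 (by simp [hσ, hω]))
    obtain ⟨κ, -, h6⟩ := h3 hg
    obtain ⟨s, t, rfl⟩ := hK.gen κ
    refine ⟨s, t, ?_⟩
    convert in_comap.1 h6 using 1
    refine LinearMap.ext fun v => ?_
    have : (0 - 1 * -(algebraMap F K r * ω) * B u v) = algebraMap F K (r * β u (P.l z v)) +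
        algebraMap F K (r * β u v) * ω := by
      simp only [hB, map_mul]
      linear_combination (-algebraMap F K r * algebraMap F K (β u (P.l z v))) * hι
    rw [End.mul_apply, ← hK.smul]
    refine congrArg _ (Eq.trans ?_ (h5 v).symm)
    rw [eu_apply, map_zero, smul_zero, sub_zero]
    erw [this]
    rw [hK.smul]
    simp [Nj_apply, h.skew, mul_smul, add_comm]

end Pauli

end NS

namespace Pauli

variable {P : Pauli F V E} {X : Subgroup (V ≃ₗ[F] V)} {z : E} {β : V →ₗ[F] V →ₗ[F] F}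

theorem RC.red [Fintype F] [FiniteDimensional F V] (h : P.RC X β z) (hF : (Fintype.card F).Prime)
    {k : ℕ} (hk : finrank (ZMod 2) E = 2 * k + 6) : P.RedA X z ∨ P.RedB X β z := by
  by_cases h1 : IsSquare (-1 : F)
  · exact h1.elim fun ι hι => h.split hF hι.symm hk
  have : Fact (∀ r : F, r ^ 2 ≠ -1 + 0 * r) := ⟨fun r e => h1 ⟨r, by linear_combination -e⟩⟩
  let φ : QuadraticAlgebra F (-1) 0 →ₐ[F] End F V :=
    QuadraticAlgebra.lift ⟨P.l z, by simp [l_sq_of_one h.hz]⟩
  let : Module (QuadraticAlgebra F (-1) 0) V := Module.compHom V φ.toRingHom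
  have : IsScalarTower F (QuadraticAlgebra F (-1) 0) V :=
    ⟨fun a κ v => LinearMap.congr_fun (map_smul φ a κ) v⟩
  let : Fintype (QuadraticAlgebra F (-1) 0) := .ofEquiv _ (QuadraticAlgebra.equivProd _ _).symm
  have : IsSq (QuadraticAlgebra F (-1) 0) (Fintype.card F) :=
    ⟨by rw [Fintype.ofEquiv_card, Fintype.card_prod, pow_two]⟩
  exact h.nonsplit (ω := (QuadraticAlgebra.omega : QuadraticAlgebra F (-1) 0))
    ⟨by ext <;> simp [QuadraticAlgebra.im_one, QuadraticAlgebra.re_one], fun κ => ⟨κ.re, κ.im, by ext <;> simp⟩, fun v => by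
      change φ _ v = _
      simp [φ]⟩ hF (by simpa using mt FiniteField.isSquare_neg_one_iff.2 h1)
    (fun a => by rw [cj_apply, ← map_pow, FiniteField.pow_card]) hk

theorem RC.in_of_redB [Fintype F] (h : P.RC X β z) (hF : (Fintype.card F).Prime)
    (hB : P.RedB X β z) {u : V} (hu : β u u = 0) (r : F) : In X (1 + r • Nj β (P.l z) u) := by
  obtain ⟨s, t, h1⟩ := hB u r hu
  have := P.nt
  have := Fact.mk hF
  have h0 := charP_of_card_eq_prime (R := F) rfl
  have := charP_of_injective_algebraMap (algebraMap F (End F V)).injective (Fintype.card F)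
  have h2 := FiniteField.odd_card_of_char_ne_two (F := F) fun h =>
    P.two (by simpa [h] using ringChar.Nat.cast_ringChar (R := F))
  have h3 := h1.pow (Fintype.card F ^ 2)
  have h4 : P.l z ^ Fintype.card F ^ 2 = P.l z := by
    rw [← Nat.div_add_mod (Fintype.card F ^ 2) 4, pow_add, show 4 = 2 * 2 from rfl, pow_mul, pow_mul,
      pow_two (P.l z), l_sq_of_one h.hz, neg_one_sq, one_pow, one_mul,
      show Fintype.card F ^ 2 % (2 * 2) = 1 by
        rcases Nat.odd_mod_four_iff.1 h2 with e | e <;> simp [Nat.pow_mod, e], pow_one]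
  rw [Commute.mul_pow (by simp [Commute, SemiconjBy, mul_add, add_mul, h.Nj_comm, smul_comm r,
      add_add_add_comm]),
    add_pow_char_pow_of_commute _ _ (by simp [Commute, SemiconjBy, smul_comm s]),
    add_pow_char_pow_of_commute _ _ (Commute.one_left _), smul_pow, smul_pow, smul_pow, h4, one_pow,
    FiniteField.pow_card_pow, FiniteField.pow_card_pow, pow_eq_zero_of_le (a := Nj β (P.l z) u) (m := 2)
      (hF.two_le.trans (Nat.le_self_pow two_ne_zero _)) (by rw [pow_two, h.Nj_sq hu]), smul_zero,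
    add_zero, mul_one] at h3
  exact h3.of_mul_left h1

theorem Ctx.cen_of_redA (h : P.Ctx X) (h4 : 4 ≤ finrank (ZMod 2) E)
    (hA : ∀ z, P.q z = 1 → P.RedA X z) (hz : P.q z = 1) : P.Cen X z := by
  have h0 := P.ne_zero_of_q hz
  refine h.cen_of h0 fun φ h1 h2 => ?_
  obtain ⟨s, t, χ, h3, -, rfl⟩ := hA z hz φ h1 h2
  refine Nm.mul ?_ (in_N.1 (h3.mono inf_le_right)).2
  replace h1 := (h3.mono inf_le_left).of_mul_right h1
  have h5 : ∀ (s t : F) z x, P.B z x = 0 → (s • 1 + t • P.l z) * P.l x = P.l x * (s • 1 + t • P.l z) :=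
    fun s t z x hx => by simp [add_mul, mul_add, l_comm hx]
  obtain ⟨f, hf⟩ := P.exists_B h0
  obtain ⟨w, w1, w2⟩ := P.exS_list' [z, f] (by simpa) (a := z) (b := f) (by simp) (by simp) hf
  obtain ⟨y, y1, y2⟩ := P.exists_B1 (a := w) h0 fun e => by
    simpa [← e, P.symm f z, hf] using w2 f (by simp)
  obtain ⟨s', t', χ', h6, h7, h8⟩ := hA w w1 _ h1 (h5 s t z w (w2 z (by simp)))
  obtain ⟨y', h9⟩ := (in_N.1 (h6.mono inf_le_right)).2 y
  exact nm_of_gen y1 ⟨y', h8 ▸ (mp_of_comm (h5 s' t' w y'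
    (((mp_of_comm h7).B h6.unit h9).trans y2))).mul h9⟩ fun x hx => ⟨x, mp_of_comm (h5 s t z x hx)⟩

end Pauli

end H97c
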