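import Mathlib
import Cfsg.Agent.Base
import Cfsg.Agent.Lib.Cliff.Red
import Cfsg.Agent.Lib.Cliff.FromR

/-!
Overgroups of the normaliser of an extraspecial `2`-group in symplectic and orthogonal groups.
-/

set_option autoImplicit false
set_option linter.unusedSectionVars false
set_option linter.unusedVariables false

namespace H97c

open Module H97 H28 H97o H11.U Cfsg

variable {F V E : Type*} [Field F] [AddCommGroup V] [Module F V] [AddCommGroup E]
  [Module (ZMod 2) E] [Finite E] {Q : PQ F V (RingHom.id F)} {X M : Subgroup (V ≃ₗ[F] V)}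
  {φ ψ χ J J' : End F V} {β β' : V →ₗ[F] V →ₗ[F] F}

theorem mem_alt (h2 : (2 : F) ≠ 0) (hε : Q.ε = -1) (t : F) : t ∈ Q.Λ := by
  convert Q.sub_mem (2⁻¹ * t) using 1
  rw [hε, RingHom.id_apply]; field_simp; ring

theorem q_sym (h2 : (2 : F) ≠ 0) (hε : Q.ε = 1) {t : F} {w : V} :
    t - Q.q w ∈ Q.Λ ↔ 2 * t = Q.B w w := by
  rw [Q.self, hε, RingHom.id_apply]
  refine ⟨fun h => ?_, fun h => ?_⟩
  · have := Q.tr_mem _ h
    rw [hε, RingHom.id_apply] at this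
    linear_combination this
  · rw [show t - Q.q w = 0 from mul_left_cancel₀ h2 (by linear_combination h)]
    exact zero_mem _

theorem in_isom_id (h2 : (2 : F) ≠ 0) :
    In Q.Isom φ ↔ IsUnit φ ∧ ∀ x y, Q.B (φ x) (φ y) = Q.B x y :=
  ⟨fun h => ⟨h.unit, by obtain ⟨g, hg, rfl⟩ := h; exact hg.1⟩, fun ⟨h1, h3⟩ => by
    obtain ⟨g, rfl⟩ := exists_ce h1
    refine in_ce.2 ⟨h3, fun x => ?_⟩
    rcases mul_self_eq_one_iff.1 Q.εε with h | h
    · exact (q_sym h2 h).2 (by rw [← h3, Q.self, h, two_mul, one_mul]; rfl)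
    · exact mem_alt h2 h _⟩

theorem sim_ZS (h : M ≤ Q.Isom) : Sim (ZS M) Q.B := fun φ hφ => by
  obtain ⟨c, hc, g, hg, e⟩ := in_ZS.1 hφ
  refine ⟨c⁻¹, inv_ne_zero hc, fun u v => ?_⟩
  rw [← (h hg).1 u, ← ce_apply, ← ce_apply, e]
  simp only [LinearMap.smul_apply, map_smul, smul_eq_mul]
  field_simp

theorem in_EG_of_comm (hC : ∀ a ∈ Q.Isom, ∀ b ∈ Q.Isom, a * b * a⁻¹ * b⁻¹ ∈ EG Q)
    (h1 : In (ZS Q.Isom) φ) (h2 : In (ZS Q.Isom) ψ) (e : φ * ψ = χ * (ψ * φ)) : In (EG Q) χ := by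
  obtain ⟨c, -, g, hg, e1⟩ := in_ZS.1 h1
  obtain ⟨d, -, k, hk, e2⟩ := in_ZS.1 h2
  refine ⟨_, hC g hg k hk, ((ce_unit k).mul (ce_unit g)).mul_right_cancel ?_⟩
  rw [← map_mul, ← map_mul, show g * k * g⁻¹ * k⁻¹ * (k * g) = g * k by group, map_mul, map_mul, e1,
    e2, smul_mul_smul_comm, smul_mul_smul_comm, e, mul_smul_comm, mul_comm]

/-- `X` contains all the transvections over `F[J]`. -/
def Big (X : Subgroup (V ≃ₗ[F] V)) (β : V →ₗ[F] V →ₗ[F] F) (J : End F V) : Prop :=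
  ∀ u (r : F), β u u = 0 → In X (1 + r • Pauli.Nj β J u)

theorem Big.move (h : Big X β J) (hφ : In X φ) {c μ : F} (hc : c ≠ 0) (hμ : μ ≠ 0)
    (h1 : φ * J = c • (J' * φ)) (h2 : ∀ u v, β' (φ u) (φ v) = μ * β u v) : Big X β' J' := by
  obtain ⟨g, hg, rfl⟩ := hφ
  intro u r hu
  obtain ⟨u, rfl⟩ : ∃ w, ce g w = u := g.surjective u
  convert (Pauli.nz_of_mem hg _ (h u (r * μ * c⁻¹)
    ((mul_eq_zero.1 (h2 u u ▸ hu)).resolve_left hμ))).1 using 1
  refine (ce_unit g).mul_right_cancel (LinearMap.ext fun v => ?_)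
  have h3 : J' (ce g u) = c⁻¹ • ce g (J u) := by
    rw [← End.mul_apply (ce g), h1]; simp [smul_smul, hc]
  rw [mul_assoc, ce_inv_mul, mul_one]
  simp only [End.mul_apply, LinearMap.add_apply, LinearMap.smul_apply, End.one_apply, Pauli.Nj_apply,
    h3, map_smul, h2, map_add, map_sub, smul_eq_mul]
  module

namespace Pauli

variable {P : Pauli F V E} {x y z a b e f : E} {ε : F} {u v d w : V}

theorem ctx_isom (hB : Q.B.SeparatingLeft) (hI : P.Iso Q.B) : P.Ctx (ZS Q.Isom) where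
  Z := zle_ZS
  l x := ((in_isom_id P.two).2 ⟨P.l_unit x, hI x⟩).mono le_ZS
  pair a b ha hb := in_ZS.2 ⟨_, inv_ne_zero P.two, (in_isom_id P.two).2
    ⟨isUnit_smul ((tau_unit ha).mul (tau_unit hb)) (inv_ne_zero P.two), hI.pair ha hb⟩⟩
  hq φ x y := hq_of_sim hI hB (sim_ZS le_rfl)

theorem ctx_EG (hB : Q.B.SeparatingLeft) (hI : P.Iso Q.B) (hQ : P.Qd)
    (h6 : 6 ≤ finrank (ZMod 2) E) (hC : ∀ a ∈ Q.Isom, ∀ b ∈ Q.Isom, a * b * a⁻¹ * b⁻¹ ∈ EG Q) :
    P.Ctx (ZS (EG Q)) := by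
  have hc := ctx_isom hB hI
  have h1 : ∀ a, P.q a = 1 → In (ZS (EG Q)) (P.l a) := fun a ha => by
    obtain ⟨y, hy⟩ := P.exists_B (P.ne_zero_of_q ha)
    obtain ⟨c, c1, c2⟩ := P.exS_list [y] (by simp; omega)
    refine (in_EG_of_comm hC (hc.pair a c ha c1) (hc.l y) ?_).mono le_ZS
    rw [mul_assoc, tau_comm (c2 y (by simp)), ← mul_assoc, ← mul_assoc, ← mul_assoc, l_anti hy]
    simp [add_mul, mul_add, l_anti hy, mul_assoc, l_sq_of_one ha, add_comm]
  have h2 : ∀ a b, P.q a = 1 → P.q b = 1 → P.B a b = 1 →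
      In (ZS (EG Q)) ((1 + P.l b) * (1 + P.l a)) := fun a b ha hb hab => by
    obtain ⟨c, c1, c2⟩ := P.exS_list [a, b] (by simp; omega)
    refine in_ZS.2 ⟨_, inv_ne_zero P.two, in_EG_of_comm hC (hc.pair a c ha c1)
      (hc.pair' (tt_l hb).neg (tt_l c1)) (smul_right_injective _ P.two ?_)⟩
    have e1 := l_comm (c2 a (by simp))
    have e2 := l_comm (c2 b (by simp))
    have e3 := l_anti (P.symm a b ▸ hab)
    have e4 := l_sq_of_one ha
    have e5 := l_sq_of_one hb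
    simp only [smul_mul_assoc, smul_inv_smul₀ P.two]
    generalize P.l a = A, P.l b = B, P.l c = C at *
    have f1 : ∀ t, C * (A * t) = A * (C * t) := fun t => by rw [← mul_assoc, ← e1, mul_assoc]
    have f2 : ∀ t, C * (B * t) = B * (C * t) := fun t => by rw [← mul_assoc, ← e2, mul_assoc]
    have f3 : ∀ t, B * (A * t) = -(A * (B * t)) := fun t => by
      rw [← mul_assoc, e3, neg_mul, mul_assoc]
    have f4 : ∀ t, A * (A * t) = -t := fun t => by rw [← mul_assoc, e4, neg_one_mul]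
    have f5 : ∀ t, B * (B * t) = -t := fun t => by rw [← mul_assoc, e5, neg_one_mul]
    simp only [two_smul, mul_add, add_mul, mul_assoc, mul_one, one_mul, mul_neg, neg_mul, ← e1, ← e2,
      e3, e4, e5, f1, f2, f3, f4, f5]
    abel
  refine ⟨zle_ZS, fun x => ?_, fun a b ha hb => ?_, fun φ x y h =>
    hc.hq φ x y (h.mono (ZS_le zle_ZS (EG_le_isom.trans le_ZS)))⟩
  · rcases z2 (P.q x) with h | h
    · obtain ⟨w, w1, w2⟩ := P.exS_list [x] (by simp; omega)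
      obtain ⟨c, c1, c2⟩ := P.add (x + w) w
      rw [add_add_cancel2] at c2
      exact c2 ▸ ((h1 _ (by rw [hQ, h, w1, w2 x (by simp)]; rfl)).mul (h1 w w1)).smul zle_ZS c1
    · exact h1 x h
  by_cases hab : a = b
  · convert (h1 a ha).smul zle_ZS P.two using 1
    simp [← hab, add_mul, mul_add, l_sq_of_one ha, two_smul]; abel
  rcases z2 (P.B a b) with h | h
  swap
  · exact h2 b a hb ha (P.symm a b ▸ h)
  obtain ⟨w, w1, w2, w3⟩ : ∃ w, P.q w = 1 ∧ P.B a w = 1 ∧ P.B b w = 1 := by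
    obtain ⟨u, u1, u2⟩ := P.exists_B1 (P.ne_zero_of_q ha) hab
    obtain ⟨v, v1, v2⟩ := P.exists_B1 (P.ne_zero_of_q hb) (Ne.symm hab)
    have e1 : P.B a (u + v) = 1 := by simp [u1, v2]
    have e2 : P.B b (u + v) = 1 := by simp [u2, v1]
    generalize u + v = w at e1 e2
    rcases z2 (P.q w) with e3 | e3
    · obtain ⟨t, t1, t2⟩ := P.exS_list' [a, b, w] (a := a) (b := w) (by simpa) (by simp) (by simp) e1
      exact ⟨w + t, by rw [hQ, e3, t1, t2 w (by simp)]; rfl, by simp [e1, t2], by simp [e2, t2]⟩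
    · exact ⟨w, e3, e1, e2⟩
  refine ((h1 w w1).mul (h1 a ha)).of_mul_left (.of_smul zle_ZS (neg_ne_zero.2 P.two) ?_)
  convert (h2 w a w1 ha (P.symm a w ▸ w2)).mul (h2 b w hb w1 w3) using 1
  rw [mul_assoc (1 + P.l a), ← mul_assoc (1 + P.l w), ← mul_assoc, ← smul_mul_assoc, ← mul_assoc]
  congr 1
  simp only [neg_smul, two_smul, mul_add, add_mul, mul_assoc, mul_one, one_mul, l_sq_of_one ha,
    l_sq_of_one w1, l_anti w2, mul_neg]
  abel

theorem Ctx.of_le {G : Subgroup (V ≃ₗ[F] V)} (h : P.Ctx (ZS G)) (h1 : P.N ⊓ G ≤ M) (h2 : M ≤ G) :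
    P.Ctx (ZS M) := by
  have key : ∀ φ, In (ZS G ⊓ P.N) φ → In (ZS M) φ := fun φ hφ =>
    (in_ZS.1 (hφ.mono inf_le_left)).elim fun c hc =>
      in_ZS.2 ⟨c, hc.1, (((hφ.mono inf_le_right).smul zle_N hc.1).inf hc.2).mono h1⟩
  exact ⟨zle_ZS, fun x => key _ (h.inf_N.l x), fun a b ha hb => key _ (h.inf_N.pair a b ha hb),
    fun φ x y h3 => h.hq φ x y (h3.mono (ZS_le zle_ZS (h2.trans le_ZS)))⟩

variable (P) in
include P in
theorem eight_le_finrank [FiniteDimensional F V] (h6 : 6 ≤ finrank (ZMod 2) E) :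
    8 ≤ finrank F V := by
  have := P.finrank_sq
  exact (Nat.pow_le_pow_iff_left two_ne_zero).1
    (this ▸ (Nat.pow_le_pow_right two_pos h6 : 2 ^ 6 ≤ _))

theorem OS.le_N_or [Fintype F] [FiniteDimensional F V] (h : P.OS X β)
    (hF : (Fintype.card F).Prime) (γ : E → V →ₗ[F] V →ₗ[F] F)
    (h1 : ∀ z, P.q z = 1 → P.RC X (γ z) z) (h2 : ∀ φ z z' (c : F), In X φ → c ≠ 0 →
      φ * P.l z = c • (P.l z' * φ) → ∃ μ, μ ≠ 0 ∧ ∀ u v, γ z' (φ u) (φ v) = μ * γ z u v) :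
    X ≤ P.N ∨ ∀ z, P.q z = 1 → Big X (γ z) (P.l z) := by
  have h6 := h.M.six
  by_cases hA : ∀ z, P.q z = 1 → P.RedA X z
  · have := fun z => h.ctx.cen_of_redA (z := z) (by omega) hA
    exact Or.inl (h.ctx.le_N (Or.inl h6) fun x hx =>
      (z2 (P.q x)).elim (fun e => h.cen this e hx) (this x))
  push Not at hA
  obtain ⟨z, hz, hA⟩ := hA
  obtain ⟨k, hk⟩ := P.exists_k (n := 3) (P.eight_le_finrank h6)
  refine Or.inr fun z' hz' => ?_
  obtain ⟨φ, h3, -, c, hc, h4⟩ := h.ctx.trans (Or.inl h6) (P.ne_zero_of_q hz) (P.ne_zero_of_q hz')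
    (hz.trans hz'.symm)
  obtain ⟨μ, h5, h7⟩ := h2 φ z z' c h3 hc h4
  exact Big.move (fun u r hu => (h1 z hz).in_of_redB hF (((h1 z hz).red hF hk).resolve_left hA) hu r)
    h3 hc h5 h4 h7

theorem EG_le_sym [FiniteDimensional F V] (hε : Q.ε = 1) (hB : Q.B.SeparatingLeft) (hI : P.Iso Q.B)
    (h : ∀ z, P.q z = 1 → Big X Q.B (P.l z)) : EG Q ≤ X := by
  refine EG_le fun d w c hd hw hc => ?_
  by_cases h0 : d = 0
  · exact has_id.congr fun x => by rw [h0, eu_zero_left]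
  have := Fintype.ofFinite E
  have h2 := P.two
  have hs : ∀ x y, Q.B y x = Q.B x y := fun x y => by rw [Q.symm, hε, one_mul]; rfl
  obtain ⟨v, hv⟩ : ∃ v, Q.B v d = 1 := by
    obtain ⟨v, hv⟩ := not_forall.1 (mt (hB d) h0)
    exact ⟨(Q.B d v)⁻¹ • v, by rw [hs, map_smul, smul_eq_mul, inv_mul_cancel₀ hv]⟩
  obtain ⟨t, ht⟩ := P.exists_sum ((Q.B v).smulRight w - (Q.B w).smulRight v)
  have h3 : w = ∑ y, (2⁻¹ * t y * (1 - sg F (P.q y))) • P.l y d := sub_eq_zero.1 (hB _ fun x => by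
    have a1 := congrArg (Q.B · x) (LinearMap.congr_fun ht d)
    have a2 := congrArg (Q.B d) (LinearMap.congr_fun ht x)
    have a3 : ∀ y, Q.B d (P.l y x) = sg F (P.q y) * Q.B (P.l y d) x := fun y => by
      rw [← hI y, l_apply, map_smul, smul_eq_mul]
    simp only [LinearMap.sub_apply, LinearMap.smulRight_apply, hv, hs d w, hw, map_sub, map_smul,
      LinearMap.sum_apply, LinearMap.smul_apply, map_sum, smul_eq_mul, a3, hs v d] at a1 a2 ⊢
    have a4 : ∑ y, 2⁻¹ * t y * (1 - sg F (P.q y)) * Q.B (P.l y d) x =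
        2⁻¹ * (∑ y, t y * Q.B (P.l y d) x - ∑ y, t y * (sg F (P.q y) * Q.B (P.l y d) x)) := by
      rw [← Finset.sum_sub_distrib, Finset.mul_sum]
      exact Finset.sum_congr rfl fun y _ => by ring
    rw [a4, ← a1, ← a2]
    field_simp; ring)
  have h4 := Q.self_eq_zero hd
  obtain ⟨-, c', h5, h6⟩ : AA Q X d w := h3 ▸ Finset.sum_induction _ _ (fun _ _ => AA.add hd) aa_zero
    fun y _ => by
      rcases z2 (P.q y) with h5 | h5
      · simpa [h5] using aa_zero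
      generalize 2⁻¹ * t y * (1 - sg F (P.q y)) = r
      have h6 : Q.B d (P.l y d) = 0 := (mul_eq_zero.1 (by
        linear_combination hI.skew h5 d d - hs d (P.l y d) : 2 * Q.B d (P.l y d) = 0)).resolve_left h2
      exact ⟨by simp [h6], 0, (q_sym h2 hε).2 (by simp [hI y, h4]), (h y h5 d (-r) h4).has.congr
        fun x => by simp [eu_apply, Nj_apply, hε, mul_smul]; module⟩
  rwa [show c = c' from mul_left_cancel₀ h2 (((q_sym h2 hε).1 hc).trans ((q_sym h2 hε).1 h5).symm)]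

theorem aa_alt (hε : Q.ε = -1) (hI : P.Iso Q.B)
    (h : ∀ z, P.q z = 1 → Big X (Q.B.compl₂ (P.l z)) (P.l z)) (he : P.q e = 0) (hz : P.q z = 1)
    (hze : P.B z e = 0) (h1 : ε * ε = 1) (hd : d ∈ P.eig e ε) (hw : w ∈ P.eig e (-ε))
    (h3 : Q.B d (P.l z d) = 0) (h4 : Q.B w (P.l z w) = 0) : AA Q X d w := by
  have h2 := P.two
  have hs : ∀ x y, Q.B y x = -Q.B x y := fun x y => by rw [Q.symm, hε, neg_one_mul]; rfl
  have h0 : ∀ x, Q.B x x = 0 := fun x => Q.self_eq_zero (mem_alt h2 hε _)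
  have h5 := P.symm z e ▸ hze
  have b1 := hI.orth h1 hd hw
  have b2 := hI.orth h1 hd (l_mem h5 hw)
  have b3 : Q.B w (P.l z d) = 0 := Q.eq_zero_symm (hI.orth h1 (l_mem h5 hd) hw)
  have b4 := Q.eq_zero_symm b1
  obtain ⟨a, t, ha, ht, h6⟩ := tt_J hz he hze
  have h7 : P.l a (d - w) = (t * ε) • P.l z (d + w) := by
    have := congrArg (fun s => t • s (d - w)) h6
    simp only [End.mul_apply, LinearMap.smul_apply, smul_smul, ht, one_smul] at this
    rw [← this, map_sub, mem_eig.1 hd, mem_eig.1 hw]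
    simp only [map_sub, map_smul, map_add]
    module
  have h8 : t * ε * (t * ε) = 1 := by linear_combination ε * ε * ht + h1
  refine ⟨b1, 0, mem_alt h2 hε _, ((h z hz (d + w) (-2⁻¹) (by simp [b2, b3, h3, h4])).mul
    (h a ha (d - w) 2⁻¹ (by
      rw [LinearMap.compl₂_apply, h7]; simp [b2, b3, h3, h4]))).has.congr fun x => ?_⟩
  have hN : ∀ y, P.q y = 1 → ∀ u x, Nj (Q.B.compl₂ (P.l y)) (P.l y) u x =
      -(Q.B (P.l y u) x • P.l y u) - Q.B u x • u := fun y hy u x => by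
    rw [Nj_apply, LinearMap.compl₂_apply, LinearMap.compl₂_apply, hI y, hI.skew hy]; simp
  simp only [End.mul_apply, LinearMap.add_apply, LinearMap.smul_apply, End.one_apply, hN _ hz,
    hN _ ha, h7]
  generalize t * ε = s at h8
  simp only [eu_apply, hε, map_add, map_sub, map_smul, map_neg, l_apply, hz, LinearMap.add_apply,
    LinearMap.sub_apply, LinearMap.smul_apply, smul_eq_mul, h0, b1, b2, b3, b4, h3, h4, hI.skew hz]
  rcases mul_self_eq_one_iff.1 h8 with rfl | rfl <;> match_scalars <;> field_simp <;> ring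

theorem EG_le_alt [FiniteDimensional F V] (hε : Q.ε = -1) (hB : Q.B.SeparatingLeft) (hI : P.Iso Q.B)
    (hQ : P.Qd) (h6 : 6 ≤ finrank (ZMod 2) E) (hl : ∀ x, In X (P.l x))
    (h : ∀ z, P.q z = 1 → Big X (Q.B.compl₂ (P.l z)) (P.l z)) : EG Q ≤ X := by
  have h2 := mem_alt P.two hε
  obtain ⟨e, f, he, -, hef⟩ := hQ.exists_sing (by omega)
  have h1 : (1 : F) * 1 = sg F (P.q e) := by simp [he]
  obtain ⟨⟨s, hs⟩, ⟨t, ht⟩, s1, t1, hst⟩ := Qd.exists_sing (P := P.res hef h1) (fun x y => hQ x y)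
    (by have := finrank_hp hef; omega)
  simp only [res_q, res_B] at s1 t1 hst
  have h3 : (1 : F) * 1 = sg F (P.q s) := by simp [s1]
  have h4 : P.B s (s + t) = 1 := by simp [P.alt, hst]
  have key : ∀ (ε : F), ε * ε = 1 → ∀ d ∈ P.eig e ε, d ∈ P.eig s 1 → ∀ w ∈ P.eig e (-ε),
      AA Q X d w := fun ε hε' d d1 d2 w hw => by
    have a := fun w hw => aa_alt (w := w) hε hI h he (z := s + t) (by rw [hQ, s1, t1, hst]; rfl)
      (P.symm _ _ ▸ (mem_hp.1 (add_mem hs ht)).1) hε' d1 hw (hI.orth (by simp) d2 (l_mem' h4 d2))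
    obtain ⟨w₁, a1, w₂, a2, a3, a4, rfl⟩ := eig_dec' h3 (mem_hp.1 hs).1 hw
    exact (a _ a3 (hI.orth (by simp) a1 (l_mem' h4 a1))).add (h2 _)
      (a _ a4 (hI.orth (by simp) a2 (l_mem' h4 a2)))
  obtain ⟨d, d1, d2, d3⟩ := exists_eig2 hef h1 hs (P.ne_zero_of_B hst) h3
  obtain ⟨b, b1, b2, b3⟩ := exists_eig2 hef (eps_neg h1) hs (P.ne_zero_of_B hst) h3
  exact EG_le_of_xle' hB (fun x => (hl x).inf ((in_isom_id P.two).2 ⟨P.l_unit x, hI x⟩)) (h2 _) d3
    (xle_of_aa hB (fun l _ => ⟨2⁻¹ * l, by have := P.two; rw [hε, RingHom.id_apply]; field_simp; ring⟩)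
      (eu_isom hB) (fun x hx y hy => hI.orth (by simp) hx hy) (eig_dec h1) (h2 _) (h2 _) d1 b1 b3
      (key 1 (by simp) d d1 d2) fun w hw => key _ (by simp) b b1 b2 w (by simpa using hw))

theorem os_main [Fintype F] [FiniteDimensional F V] (hF : (Fintype.card F).Prime)
    (h : P.OS X Q.B) : X ≤ P.N ∨ EG Q ≤ X := by
  rcases mul_self_eq_one_iff.1 Q.εε with hε | hε
  · exact (h.le_N_or hF (fun _ => Q.B) (fun z hz => ⟨h.ctx, hz,
      fun u v => by rw [Q.symm, hε, one_mul]; rfl, h.sep, fun x _ => h.iso x,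
      fun φ h1 _ => h.sim φ h1⟩) fun φ _ _ _ h1 _ _ => (h.sim φ h1).elim fun c hc =>
        ⟨_, mul_ne_zero hc.1 hc.1, hc.2⟩).imp_right (EG_le_sym hε h.sep h.iso)
  · refine (h.le_N_or hF (fun z => Q.B.compl₂ (P.l z)) (fun z hz => ⟨h.ctx, hz, fun u v => ?_,
      fun u hu => h.sep u fun v => ?_, fun x hx u v => ?_, fun φ h1 h2 => (h.sim φ h1).imp
        fun c hc => ⟨hc.1, fun u v => ?_⟩⟩) fun φ z z' c h1 hc h2 => ?_).imp_right
      (EG_le_alt hε h.sep h.iso h.Q h.M.six h.ctx.l)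
    · rw [LinearMap.compl₂_apply, LinearMap.compl₂_apply, Q.symm (P.l z u), hε, h.iso.skew hz]; simp
    · simpa [l_apply, hz] using hu (P.l z v)
    · simp [comm_apply z x, hx, h.iso x]
    · rw [LinearMap.compl₂_apply, ← End.mul_apply, ← h2, End.mul_apply, hc.2]; rfl
    · obtain ⟨d, hd, h3⟩ := h.sim φ h1
      refine ⟨c⁻¹ * (d * d), by simp [*], fun u v => ?_⟩
      rw [mul_assoc, LinearMap.compl₂_apply, LinearMap.compl₂_apply, ← h3, ← End.mul_apply φ, h2]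
      simp [hc]

theorem os_max [Fintype F] [FiniteDimensional F V] (hF : (Fintype.card F).Prime)
    (hB : Q.B.SeparatingLeft) (hK : IsoK Q 3) (hI : P.Iso Q.B) (hQ : P.Qd) (hM : P.HM) :
    Geo.IsMaximalIn (EG Q) (P.N ⊓ EG Q) := by
  have h6 := hM.six
  have h8 := P.eight_le_finrank h6
  refine isMaximalIn rfl ?_ fun M h1 h2 => os_main hF ⟨(ctx_EG hB hI hQ h6 fun a ha b hb =>
    hK.commutator_mem_EG hB (by omega) ha hb).of_le h1 h2, hQ, hM, hI, hB,
    sim_ZS (h2.trans EG_le_isom)⟩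
  obtain ⟨e, f, he, -, hef⟩ := hQ.exists_sing (by omega)
  have h1 : (1 : F) * 1 = sg F (P.q e) := by simp [he]
  have h4 := (P.res hef h1).four_le_finrank (by have := finrank_hp hef; omega)
  obtain ⟨d, d1, d2, d3⟩ := hK (P.eig e 1) (by omega)
  obtain ⟨w, w1, w2⟩ := SetLike.not_le_iff_exists.1 (show ¬ P.eig e 1 ⊓ perp Q (F ∙ d) ≤ F ∙ d from
    fun h => by
      have := Submodule.finrank_mono h
      have := finrank_inf_perp (P := Q) (P.eig e 1) (F ∙ d)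
      have := finrank_span_singleton_le (F := F) d
      omega)
  exact not_EG_le hB hef h1 (fun u hu v hv => hI.orth (by simp) hu hv) d1 w1.1 d2 d3
    (mem_perp_singleton.1 w1.2) (c := Q.q w) (by simp) (Or.inl w2)

end Pauli

end H97c
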