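import Mathlib
import Cfsg.Agent.Base
import Cfsg.Agent.Lib.Cliff.FromR

/-!
Normalisers of `4 ∘ 2^(1+2k)` are maximal in `SL` and `SU`.
-/

set_option autoImplicit false
set_option linter.unusedSectionVars false
set_option linter.unusedVariables false

namespace H97c

open Module H97 H28 H97o H11.U Cfsg
open scoped MatrixGroups

universe u

variable {ι : Type} [Fintype ι] [DecidableEq ι] {F : Type u} [Field F] [Fintype F]
  {R : Subgroup (GL ι F)}

/-- The representation of a matrix group. -/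
noncomputable def rho (R : Subgroup (GL ι F)) : R →* ((ι → F) ≃ₗ[F] (ι → F)) :=
  (toLE ι F).toMonoidHom.comp R.subtype

theorem pull_rho : pull (rho R).range = R := by
  rw [rho, MonoidHom.range_comp, Subgroup.range_subtype, pull,
    Subgroup.comap_map_eq_self_of_injective (toLE ι F).injective]

theorem normalizer_eq : Geo.subgroupNormalizer R =
    pull (Subgroup.normalizer ((rho R).range : Set ((ι → F) ≃ₗ[F] (ι → F)))) := by
  rw [pull, Subgroup.comap_normalizer_eq_of_surjective _ (toLE ι F).surjective]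
  exact congrArg (fun K : Subgroup (GL ι F) => Subgroup.normalizer (K : Set (GL ι F))) pull_rho.symm

theorem range_le {G : Subgroup ((ι → F) ≃ₗ[F] (ι → F))} (h : R ≤ pull G) : (rho R).range ≤ G :=
  pull_le_pull.1 (pull_rho.le.trans h)

theorem rd_of (hR : Geo.IsSymplecticTypeGroup 2 R)
    (hirr : Geo.ActsAbsolutelyIrreducibly (Geo.matrixSet R)) (h2 : (2 : F) ≠ 0) [Nonempty ι]
    (hZ : 2 ∣ Nat.card (Subgroup.center R)) : RD (rho R) := by
  have hc : ∀ φ : End F (ι → F), (∀ g, φ * ce (rho R g) = ce (rho R g) * φ) → ∃ c : F, φ = c • 1 :=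
    fun φ h => (hirr.2 (LinearMap.toMatrix' φ) (by
      rintro _ ⟨g, hg, rfl⟩
      refine Matrix.toLin'.injective ?_
      rw [Matrix.toLin'_mul, Matrix.toLin'_mul, Matrix.toLin'_toMatrix', ← toLE_coe]
      exact h ⟨g, hg⟩)).imp fun c e => LinearMap.toMatrix'.injective (by simp [e])
  have hi : Function.Injective (rho R) := (toLE ι F).injective.comp R.subtype_injective
  refine ⟨h2, inferInstance, hi, fun g => ?_, hc⟩
  obtain ⟨⟨z, hz⟩, h1⟩ := exists_prime_orderOf_dvd_card' 2 hZ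
  rw [← Subgroup.orderOf_coe] at h1
  obtain ⟨c, h3⟩ := hc (ce (rho R z)) fun k => by
    rw [← map_mul, ← map_mul, ← map_mul, ← map_mul, Subgroup.mem_center_iff.1 hz k]
  have h4 : z * z = 1 := by rw [← pow_two, ← h1]; exact pow_orderOf_eq_one _
  obtain ⟨s, rfl⟩ := exists_sg (c := c) (smul_left_injective F (one_ne_zero (α := End F (ι → F))) (by
    simpa [h3, smul_smul] using congrArg (fun t => ce (rho R t)) h4))
  obtain ⟨k, hk⟩ := Agent.S1774.sq_mem ⟨hR.pGroup, hR.cyclic_of_characteristic⟩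
    (fun t => by simpa [hR.exponent_eq] using Monoid.pow_exponent_eq_one t) h1 hz
    (H5.pow_mem_frattini hR.pGroup g)
  rw [← map_mul, ← map_mul, ← pow_two, ← hk]
  beta_reduce
  rw [zpow_eq_zpow_emod' k (show z ^ 2 = 1 by rw [pow_two, h4])]
  rcases Int.emod_two_eq_zero_or_one k with e | e
  · exact ⟨0, by simp [e]⟩
  · exact ⟨s, by simp [e, h3]⟩

theorem exists_iota (h : RD (rho R)) (hR : Geo.IsSymplecticTypeGroup 2 R)
    (hZ : Nat.card (Subgroup.center R) = 4) : ∃ z, ∃ c : F, c * c = -1 ∧ ce (rho R z) = c • 1 := by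
  have := hR.cyclic_of_characteristic (Subgroup.center R) inferInstance inferInstance
  obtain ⟨⟨z, hz⟩, h1⟩ := IsCyclic.exists_ofOrder_eq_natCard (α := Subgroup.center R)
  rw [hZ, ← Subgroup.orderOf_coe] at h1
  obtain ⟨c, hc⟩ := h.mem_center.1 hz
  obtain ⟨s, hs⟩ := h.sq z
  have := h.nt
  rcases z2 s with rfl | rfl
  · have h2 : z ^ 2 = 1 := h.inj (ce_inj (by simpa [pow_two] using hs))
    exact absurd (h1 ▸ orderOf_dvd_of_pow_eq_one h2) (by decide)
  · exact ⟨z, c, by simpa [hc, smul_smul] using hs, hc⟩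

theorem lin_data (hR : Geo.IsSymplecticTypeGroup 2 R)
    (hirr : Geo.ActsAbsolutelyIrreducibly (Geo.matrixSet R)) (h2 : (2 : F) ≠ 0)
    (hn : 4 ≤ Fintype.card ι) (hZ : Nat.card (Subgroup.center R) = 4) :
    ∃ (E : Type u) (_ : AddCommGroup E) (_ : Module (ZMod 2) E) (_ : Finite E)
      (P : Pauli F (ι → F) E) (k : ℕ) (c : F), c * c = -1 ∧ finrank (ZMod 2) E = 2 * k + 4 ∧
      (∀ x, x ≠ 0 → P.q x = 1) ∧ (∀ x, In (rho R).range (P.l x)) ∧
      Geo.subgroupNormalizer R = pull P.N := by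
  have : Nonempty ι := Fintype.card_pos_iff.1 (by omega)
  have h := rd_of hR hirr h2 (by rw [hZ]; decide)
  obtain ⟨z, c, hc, hz⟩ := exists_iota h hR hZ
  obtain ⟨E, _, _, _, P, π, h1, hL⟩ := h.exists_lin hc hz
  obtain ⟨k, hk⟩ := P.exists_k (n := 2) (by simpa)
  refine ⟨E, _, _, ‹_›, P, k, c, hc, hk, hL, h1.in_range, normalizer_eq.trans (congrArg pull
    (le_antisymm (h1.normalizer_le h) fun g hg => h1.mem_normalizer h hg fun x y d hd => ?_))⟩
  have h3 := Pauli.Mp.sq (ce_unit g) hd (Pauli.hq_of_lin hL (ce_unit g) ⟨d, fun e => ?_, hd⟩)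
  · rcases mul_self_eq_one_iff.1 h3 with rfl | rfl
    · simpa using in_one
    · exact ⟨_, ⟨z * z, rfl⟩, by rw [map_mul, map_mul, hz, smul_mul_smul_comm, hc, mul_one]⟩
  · exact ((ce_unit g).mul (P.l_unit x)).ne_zero (by rw [hd, e, zero_smul])

theorem sl_c6 {p : ℕ} (hp : p.Prime) (hF : Fintype.card F = p) (h4 : p % 4 = 1)
    (hn : 4 ≤ Fintype.card ι) (hR : Geo.IsLinearSymplecticTypeData 2 R) :
    Geo.IsMaximalIn (Geo.specialLinear ι F) (Geo.subgroupNormalizer R ⊓ Geo.specialLinear ι F) := by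
  obtain ⟨E, _, _, _, P, k, c, hc, hk, hL, -, h1⟩ := lin_data hR.symplecticType hR.absIrred
    (two_ne_zero_of_odd (Nat.odd_iff.2 (by omega))) hn (by
      obtain ⟨_, _, -, -, h | h | h⟩ := hR.field
      exacts [absurd h.1 (by decide), h.2.2.1, by omega])
  rw [h1, specialLinear_eq, ← pull_inf]
  exact isMaximalIn_pull (Pauli.isMaximalIn rfl (Pauli.not_SLV_le hL (by omega) hc) fun M h2 _ =>
    lin_main (hF ▸ hp) (hF ▸ h4) k P _ hk hL zle_ZS (h2.trans le_ZS))

theorem herm_max {V E : Type*} [AddCommGroup V] [Module F V] [FiniteDimensional F V] [AddCommGroup E]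
    [Module (ZMod 2) E] [Finite E] {q : ℕ} [IsSq F q] (hq : q.Prime) (h4 : q % 4 = 3) {t : F}
    {ht : t + cj q t = 1} {B : V →ₛₗ[cj q] V →ₗ[F] F} {hS : ∀ x y, cj q (B x y) = B y x}
    (hB : B.SeparatingLeft) (P : Pauli F V E) {k : ℕ} (hk : finrank (ZMod 2) E = 2 * k + 4)
    (hL : ∀ x, x ≠ 0 → P.q x = 1) (hI : P.Iso B) {c : F} (hc : c * c = -1) :
    Geo.IsMaximalIn (EG (PQ.ofHerm cj_cj t ht B hS)) (P.N ⊓ EG (PQ.ofHerm cj_cj t ht B hS)) := by
  refine Pauli.isMaximalIn rfl ?_ fun M h2 h3 => uni_main hq h4 _ k P _ _ _ hk hL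
    hB hI zle_ZS (ZS_le zle_ZS (h3.trans (EG_le_isom.trans le_ZS))) (h2.trans le_ZS)
  obtain ⟨e, he, -⟩ := P.exS_list [] (by simp; omega)
  obtain ⟨f, hef⟩ := P.exists_B (P.ne_zero_of_q he)
  have hε : c * c = sg F (P.q e) := by rw [he, sg_one, hc]
  obtain ⟨v, v1, v2⟩ := Pauli.exists_eig (P.ne_zero_of_q he) hε
  obtain ⟨a, a1, b, a2, a3⟩ := P.exists_B_perp (P.not_perp_le [e] (by simp; omega))
  rw [P.mem_perp_span] at a1 a2
  obtain ⟨d, d1, d2, d3⟩ := isoK_herm (hσ := cj_cj) (hc := ht) (hS := hS) cj_ne_id _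
    (Pauli.two_le_finrank v1 v2 a3 (fun v hv => Pauli.l_mem (a1 e (by simp)) hv)
      fun v hv => Pauli.l_mem (a2 e (by simp)) hv)
  exact Pauli.not_EG_le hB hef hε (fun u hu v hv => hI.orth (cj_of_sq h4 c hc) hu hv) d1
    (zero_mem _) d2 d3 (by simp) (c := c) (Pauli.q_herm.2 (by
      have := cj_of_sq h4 c hc
      rw [map_zero]
      linear_combination -c * this + cj q c * hc)) (Or.inr ⟨rfl, Pauli.eps_ne hε⟩)

theorem su_c6 {n q : ℕ} {R : Subgroup (GL (Fin n) F)} (hF : Fintype.card F = q ^ 2) (hq : q.Prime)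
    (h4 : q % 4 = 3) (hn : 4 ≤ n) (hR : Geo.IsSymplecticTypeGroup 2 R)
    (hirr : Geo.ActsAbsolutelyIrreducibly (Geo.matrixSet R)) (hRD : R ≤ GU n F q)
    (hZ : Nat.card (Subgroup.center R) = 4) :
    Geo.IsMaximalIn (GU n F q ⊓ Geo.specialLinear (Fin n) F)
      (Geo.subgroupNormalizer R ⊓ (GU n F q ⊓ Geo.specialLinear (Fin n) F)) := by
  have : IsSq F q := ⟨hF⟩
  obtain ⟨E, _, _, _, P, k, c, hc, hk, hL, h0, h1⟩ := lin_data hR hirr
    (two_ne_zero_of_odd (hF ▸ (Nat.odd_iff.2 (by omega)).pow)) (by simpa) hZ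
  rw [h1, SU_eq hn, ← pull_inf]
  exact isMaximalIn_pull (herm_max hq h4 uP_nd P hk hL (fun x =>
    (Pauli.in_isom_herm.1 ((h0 x).mono (range_le (hRD.trans GU_eq.le)))).2) hc)

end H97c
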