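import Mathlib
import Cfsg.Agent.Base
import Cfsg.Agent.Lib.Cliff.OS
import Cfsg.Agent.Lib.Cliff.RowsLU
import Cfsg.Agent.Lib.Forms.Bridge

/-!
Normalisers of `2^(1+2k)` are maximal in `Sp` and `Ω`.
-/

set_option autoImplicit false
set_option linter.unusedSectionVars false
set_option linter.unusedVariables false

namespace H97c

open Module H97 H28 H97o H11.U Cfsg
open scoped MatrixGroups

universe u

variable {ι : Type} [Fintype ι] [DecidableEq ι] {F : Type u} [Field F] [Fintype F]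
  {R : Subgroup (GL ι F)}

theorem quad_data (hR : Geo.IsSymplecticTypeGroup 2 R)
    (hirr : Geo.ActsAbsolutelyIrreducibly (Geo.matrixSet R)) (h2 : (2 : F) ≠ 0)
    (hn : 4 ≤ Fintype.card ι) (hZ : Nat.card (Subgroup.center R) = 2)
    {Q : PQ F (ι → F) (RingHom.id F)} (hB : Q.B.SeparatingLeft) (hRD : R ≤ pull Q.Isom) :
    ∃ (E : Type u) (_ : AddCommGroup E) (_ : Module (ZMod 2) E) (_ : Finite E)
      (P : Pauli F (ι → F) E) (k : ℕ), finrank (ZMod 2) E = 2 * k + 4 ∧ P.Qd ∧ P.Iso Q.B ∧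
      Geo.subgroupNormalizer R ⊓ pull (EG Q) = pull (P.N ⊓ EG Q) ∧
      Nat.card R = 2 * Nat.card E ∧ ∀ U : Submodule (ZMod 2) E, (∀ x ∈ U, P.q x = 0) →
        ∃ A : Subgroup R, IsMulCommutative A ∧ (∀ x ∈ A, x * x = 1) ∧
          Nat.card A = 2 * Nat.card U := by
  have : Nonempty ι := Fintype.card_pos_iff.1 (by omega)
  have h := rd_of hR hirr h2 hZ.symm.dvd
  have h0 : ∀ c : F, In (rho R).range (c • 1) → c * c = 1 := fun c hc => by
    obtain ⟨u, hu⟩ := exists_ne (0 : ι → F)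
    obtain ⟨v, hv⟩ := not_forall.1 (mt (hB u) hu)
    have := ((in_isom_id h2).1 (hc.mono (range_le hRD))).2 u v
    simp only [LinearMap.smul_apply, End.one_apply, map_smul, smul_eq_mul] at this
    exact mul_right_cancel₀ hv (by linear_combination this)
  obtain ⟨E, _, _, _, P, π, h1, hQ⟩ := h.exists_quad fun g c hc => h0 c ⟨_, ⟨g, rfl⟩, hc⟩
  obtain ⟨k, hk⟩ := P.exists_k (n := 2) (by simpa)
  have hI : P.Iso Q.B := fun x => ((in_isom_id h2).1 ((h1.in_range x).mono (range_le hRD))).2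
  have hs : Function.Surjective π := fun x => (h1.l x.toAdd).imp fun g hg => hg.1
  have hc : Nat.card R = 2 * Nat.card E := by
    rw [← π.ker.card_mul_index, Subgroup.index_ker, h1.ker, hZ, π.range_eq_top.2 hs, Subgroup.card_top]
    rfl
  refine ⟨E, _, _, ‹_›, P, k, hk, hQ, hI, ?_, hc, fun U hU => ?_⟩
  · rw [normalizer_eq, ← pull_inf]
    refine congrArg pull (le_antisymm (inf_le_inf_right _ (h1.normalizer_le h)) fun g hg =>
      ⟨h1.mem_normalizer h hg.1 fun x y d hd => ?_, hg.2⟩)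
    rcases mul_self_eq_one_iff.1 (Pauli.sq_of_sim hI hB one_ne_zero
      (fun u v => ((EG_le_isom hg.2).1 u v).trans (one_mul _).symm) hd) with rfl | rfl
    · simpa using in_one
    · obtain ⟨a, b, -, -, hab⟩ := Pauli.Qd.exists_sing hQ (by omega)
      exact ((h1.in_range b).mul (h1.in_range a)).of_mul_right (by
        simpa [Pauli.l_anti hab] using (h1.in_range a).mul (h1.in_range b))
  · refine ⟨U.toAddSubgroup.toSubgroup.comap π, ⟨⟨fun ⟨a, ha⟩ ⟨b, hb⟩ => Subtype.ext (h.inj (ce_inj ?_))⟩⟩,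
      fun a ha => h.inj (ce_inj ?_), ?_⟩
    · obtain ⟨c, -, -, e1⟩ := h1.eq h a
      obtain ⟨d, -, -, e2⟩ := h1.eq h b
      have := hQ (π a).toAdd (π b).toAdd
      rw [hU _ (U.add_mem ha hb), hU _ ha, hU _ hb, zero_add, zero_add] at this
      simp [e1, e2, Pauli.l_comm this.symm, smul_comm c]
    · obtain ⟨c, -, e0, e1⟩ := h1.eq h a
      simp [e1, Pauli.l_sq_of_zero (hU _ ha), smul_smul, h0 c e0]
    · have e1 := (U.toAddSubgroup.toSubgroup.comap π).card_mul_index
      have e2 := U.toAddSubgroup.toSubgroup.card_mul_index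
      rw [Subgroup.index_comap_of_surjective _ hs, hc, show Nat.card E = _ from e2.symm,
        ← mul_assoc] at e1
      exact Nat.eq_of_mul_eq_mul_right (Nat.pos_of_ne_zero Subgroup.index_ne_zero_of_finite) e1

theorem sp_c6 {m p k : ℕ} (hm : 2 ≤ m) (hp : p.Prime) (hpo : Odd p) (hF : Fintype.card F = p)
    {R : Subgroup (GL (Fin m ⊕ Fin m) F)} (hR : Geo.IsSymplecticTypeGroup 2 R)
    (hirr : Geo.ActsAbsolutelyIrreducibly (Geo.matrixSet R)) (hRD : R ≤ spGL m F)
    (hcard : Nat.card R = 2 ^ (1 + 2 * k)) (hZ : Nat.card (Subgroup.center R) = 2)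
    (hminus : Geo.IsOfMinusType k R) :
    Geo.IsMaximalIn (spGL m F) (Geo.subgroupNormalizer R ⊓ spGL m F) := by
  subst hF
  have h2 := two_ne_zero_of_odd hpo
  obtain ⟨E, _, _, _, P, j, hk, hQ, hI, h1, h3, h4⟩ := quad_data hR hirr h2 (by simp; omega) hZ
    (spP_nd m) (hRD.trans (spGL_eq' m).le)
  rw [spGL_eq, h1]
  refine isMaximalIn_pull ?_
  rcases j with _ | j
  · obtain ⟨φ⟩ := nonempty_isom_equiv_sp (m := 2) (spP m F) rfl (spP_nd m) (P.finrank_four hk)
    refine Pauli.isMaximalIn rfl ?_ fun M h5 h6 => ?_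
    · obtain ⟨e, f, he, -, hef⟩ := hQ.exists_sing (by omega)
      have h7 : (1 : F) * 1 = sg F (P.q e) := by simp [he]
      obtain ⟨d, d1, d2⟩ := Pauli.exists_eig (P.ne_zero_of_B hef) h7
      exact Pauli.not_EG_le (spP_nd m) hef h7 (fun u hu v hv => hI.orth (by simp) hu hv) d1
        (zero_mem _) d2 trivial (by simp) (c := 1) trivial (Or.inr ⟨rfl, one_ne_zero⟩)
    · rw [spP_EG] at *
      exact (Pauli.base5 hk ((p5_PSp h2 hp).congr (cq φ.symm))
        (fun x => (in_isom_id h2).2 ⟨P.l_unit x, hI x⟩) h5 h6).imp (ZS_le Pauli.zle_N)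
        fun h => h.trans le_ZS
  refine Pauli.os_max hp (spP_nd m) ((spP_isoK m).mono (by omega)) hI hQ ?_
  rcases j with _ | j
  swap
  · exact Or.inl (by omega)
  refine Or.inr ⟨hk.ge, fun e x y he hx hy b1 b2 b3 e0 x0 => by_contra fun y0 => ?_⟩
  have h5 : Submodule.span (ZMod 2) {e, x, y} ≤ perp P.pq (Submodule.span (ZMod 2) {e, x, y}) :=
    Submodule.span_le.2 fun u hu => P.mem_perp_span.2 fun v hv => by
      rcases hu with rfl | rfl | rfl <;> rcases hv with rfl | rfl | rfl <;>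
        first | exact P.alt _ | assumption | rwa [P.symm]
  obtain ⟨A, a1, a2, a3⟩ := h4 (Submodule.span _ {e, x, y}) fun u hu => by
    induction hu using Submodule.span_induction with
    | mem u hu => rcases hu with rfl | rfl | rfl <;> assumption
    | zero => exact P.q0
    | add u v hu hv a b => rw [hQ, a, b, show P.B u v = 0 from mem_perp.1 (h5 hv) u hu]; rfl
    | smul c u _ a => rcases z2 c with rfl | rfl <;> simp [a, P.q0]
  have h6 := hminus A a1 a2
  rw [hcard, Module.natCard_eq_pow_finrank (K := ZMod 2), hk, Nat.card_zmod, ← pow_succ'] at h3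
  rw [a3, Module.natCard_eq_pow_finrank (K := ZMod 2), Nat.card_zmod, ← pow_succ',
    Nat.pow_lt_pow_iff_right one_lt_two] at h6
  have := Nat.pow_right_injective le_rfl h3
  have := finrank_span_singleton (K := ZMod 2) e0
  have := Submodule.finrank_lt_finrank_of_lt (SetLike.lt_iff_le_and_exists.2
    ⟨Submodule.span_mono (by simp : ({e} : Set E) ⊆ {e, x}), x, Submodule.subset_span (by simp), x0⟩)
  have := Submodule.finrank_lt_finrank_of_lt (SetLike.lt_iff_le_and_exists.2
    ⟨Submodule.span_mono (Set.insert_subset_insert (by simp) : ({e, x} : Set E) ⊆ {e, x, y}), y,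
      Submodule.subset_span (by simp), y0⟩)
  omega

theorem omega_c6 (hF : (Fintype.card F).Prime) (hpo : Odd (Fintype.card F))
    (hn : 9 ≤ Fintype.card ι) {Q : (ι → F) → F} (hQ : Geo.IsNondegenerateQuadraticForm Q)
    (hR : Geo.IsSymplecticTypeGroup 2 R) (hirr : Geo.ActsAbsolutelyIrreducibly (Geo.matrixSet R))
    (hRD : R ≤ isometryGroup F Q) (hZ : Nat.card (Subgroup.center R) = 2) :
    Geo.IsMaximalIn (Geo.omegaGL Q) (Geo.subgroupNormalizer R ⊓ Geo.omegaGL Q) := by
  obtain ⟨Q, rfl, hB⟩ := exists_quadForm hQ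
  obtain ⟨E, _, _, _, P, j, hk, h0, hI, h1, -⟩ := quad_data (Q := PQ.ofQuad Q) hR hirr
    (two_ne_zero_of_odd hpo) (by omega) hZ hB (hRD.trans (isometryGroup_eq Q).le)
  rw [omegaGL_eq hB (by omega), h1]
  refine isMaximalIn_pull (Pauli.os_max hF hB (isoK_quad Q) hI h0 (Or.inl (not_lt.1 fun h => ?_)))
  have h2 := P.finrank_sq
  have h3 := Nat.pow_le_pow_right two_pos (show finrank (ZMod 2) E ≤ 6 by omega)
  rw [← h2, finrank_fintype_fun_eq_card] at h3
  nlinarith

end H97c
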